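import Cfsg.Agent.Cyc.Isom
import Cfsg.Agent.BlkF.IndBr

/-!
# Composition of perfect isometries through a common group; existence of the Frobenius group
-/

set_option autoImplicit false
set_option linter.unusedSectionVars false
set_option linter.style.haveILetI false

universe u v w

namespace Cfsg.Agent.Cyc

open scoped ComplexConjugate
open MonoidAlgebra Cfsg Cfsg.Agent.Blk Cfsg.Agent.BlkF Cfsg.Agent.Star Cfsg.Agent.CharBase
  Cfsg.Agent.BlkC

section compose
variable {p : ℕ} [hp : Fact p.Prime] {M : Ideal AlgInt} [hMp : M.IsPrime]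
  {F : Type w} [Group F] [Fintype F]

/-- the normalized convolution of an integral class function with a divisible one -/
theorem mlr_inner {ψ d : F → ℂ} (hψ : IsClassFunction F ψ) (hψv : RV M ψ)
    (hc : IsClassFunction F d) (hd : Dv M d) :
    MemLocalRing M ((Nat.card F : ℂ)⁻¹ * ∑ y : F, ψ y * d y⁻¹) := by
  have h1 := dv_conv hψ hψv hc hd 1
  have h2 : Nat.card (Subgroup.centralizer ({(1 : F)} : Set F)) = Nat.card F := by
    have : Subgroup.centralizer ({(1 : F)} : Set F) = ⊤ := by
      rw [eq_top_iff]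
      intro z _
      rw [Subgroup.mem_centralizer_singleton_iff]
      simp
    rw [this]
    exact Nat.card_congr Subgroup.topEquiv.toEquiv
  rw [h2] at h1
  have h3 : conv ψ d 1 = ∑ y : F, ψ y * d y⁻¹ := by
    unfold conv
    exact Finset.sum_congr rfl fun y _ => by rw [mul_one]
  rw [h3, div_eq_inv_mul] at h1
  exact h1

theorem isPRegular_inv_iff {y : F} : IsPRegular p y⁻¹ ↔ IsPRegular p y := by
  unfold IsPRegular
  rw [orderOf_inv]

variable {G : Type u} [Group G] [Fintype G] {H : Type v} [Group H] [Fintype H]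

theorem kernel_univ (I : IrrCharacter F → IrrCharacter G) (ε : IrrCharacter F → ℤ)
    [Fintype (IrrCharacter F)] (x : G) (y : F) :
    signedBijectionKernel (Set.univ : Set (IrrCharacter F)) I ε x y =
      ∑ η : IrrCharacter F, (ε η : ℂ) * (I η : G → ℂ) x * (η : F → ℂ) y := by
  rw [signedBijectionKernel, finsum_mem_univ, finsum_eq_sum_of_fintype]

theorem kernel_comp [Fintype (IrrCharacter F)]
    (I₁ : IrrCharacter F → IrrCharacter G) (ε₁ : IrrCharacter F → ℤ)
    (I₂ : IrrCharacter F → IrrCharacter H) (ε₂ : IrrCharacter F → ℤ) (x : G) (z : H) :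
    (Nat.card F : ℂ)⁻¹ * ∑ y : F,
      signedBijectionKernel (Set.univ : Set (IrrCharacter F)) I₁ ε₁ x y *
        signedBijectionKernel (Set.univ : Set (IrrCharacter F)) I₂ ε₂ z y⁻¹ =
      ∑ η : IrrCharacter F, ((ε₁ η * ε₂ η : ℤ) : ℂ) * (I₁ η : G → ℂ) x * (I₂ η : H → ℂ) z := by
  classical
  have h0 : ∀ η η' : IrrCharacter F, (Nat.card F : ℂ)⁻¹ * ∑ y : F,
      (η : F → ℂ) y * (η' : F → ℂ) y⁻¹ = if η = η' then 1 else 0 := by
    intro η η'
    rw [← classInner_irr η η', classInner]
    congr 1
    refine Finset.sum_congr rfl fun y _ => ?_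
    rw [irr_inv]
  calc (Nat.card F : ℂ)⁻¹ * ∑ y : F,
        signedBijectionKernel (Set.univ : Set (IrrCharacter F)) I₁ ε₁ x y *
          signedBijectionKernel (Set.univ : Set (IrrCharacter F)) I₂ ε₂ z y⁻¹
      = (Nat.card F : ℂ)⁻¹ * ∑ y : F, ∑ η : IrrCharacter F, ∑ η' : IrrCharacter F,
          ((ε₁ η : ℂ) * (I₁ η : G → ℂ) x * ((ε₂ η' : ℂ) * (I₂ η' : H → ℂ) z)) *
            ((η : F → ℂ) y * (η' : F → ℂ) y⁻¹) := by
        congr 1
        refine Finset.sum_congr rfl fun y _ => ?_
        rw [kernel_univ, kernel_univ, Finset.sum_mul_sum]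
        refine Finset.sum_congr rfl fun η _ => Finset.sum_congr rfl fun η' _ => ?_
        ring
    _ = ∑ η : IrrCharacter F, ∑ η' : IrrCharacter F,
          ((ε₁ η : ℂ) * (I₁ η : G → ℂ) x * ((ε₂ η' : ℂ) * (I₂ η' : H → ℂ) z)) *
            ((Nat.card F : ℂ)⁻¹ * ∑ y : F, (η : F → ℂ) y * (η' : F → ℂ) y⁻¹) := by
        rw [Finset.sum_comm, Finset.mul_sum]
        refine Finset.sum_congr rfl fun η _ => ?_
        rw [Finset.sum_comm, Finset.mul_sum]
        refine Finset.sum_congr rfl fun η' _ => ?_
        rw [← Finset.mul_sum]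
        ring
    _ = _ := by
        refine Finset.sum_congr rfl fun η _ => ?_
        simp only [h0, mul_ite, mul_one, mul_zero, Finset.sum_ite_eq, Finset.mem_univ, if_true]
        push_cast
        ring

theorem classFun_kernel_left [Fintype (IrrCharacter F)]
    (I : IrrCharacter F → IrrCharacter G) (ε : IrrCharacter F → ℤ) (x : G) :
    IsClassFunction F
      (fun y => signedBijectionKernel (Set.univ : Set (IrrCharacter F)) I ε x y) := by
  intro g h
  simp only [kernel_univ]
  refine Finset.sum_congr rfl fun η _ => ?_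
  rw [irr_isClassFunction η g h]

/-- two perfect isometries defined on the irreducible characters of the same group compose -/
theorem perfect_comp {B : Set (IrrCharacter G)} {b : Set (IrrCharacter H)}
    {I₁ : IrrCharacter F → IrrCharacter G} {ε₁ : IrrCharacter F → ℤ}
    {I₂ : IrrCharacter F → IrrCharacter H} {ε₂ : IrrCharacter F → ℤ}
    (h₁ : IsPerfectIsometry p M (Set.univ : Set (IrrCharacter F)) B I₁ ε₁)
    (h₂ : IsPerfectIsometry p M (Set.univ : Set (IrrCharacter F)) b I₂ ε₂) :
    ∃ (I : IrrCharacter H → IrrCharacter G) (ε : IrrCharacter H → ℤ),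
      IsPerfectIsometry p M b B I ε := by
  classical
  have := Fintype.ofFinite (IrrCharacter F)
  have := Fintype.ofFinite (IrrCharacter H)
  obtain ⟨hb₁, hε₁, hp₁⟩ := h₁
  obtain ⟨hb₂, hε₂, hp₂⟩ := h₂
  haveI : Nonempty (IrrCharacter F) := ⟨oneIrr F⟩
  set J := Function.invFunOn I₂ (Set.univ : Set (IrrCharacter F)) with hJ
  have hinv : Set.InvOn J I₂ Set.univ b := hb₂.invOn_invFunOn
  have hbJ : Set.BijOn J b Set.univ := hb₂.symm hinv.symm
  refine ⟨fun ψ => I₁ (J ψ), fun ψ => ε₁ (J ψ) * ε₂ (J ψ), hb₁.comp hbJ, ?_, ?_⟩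
  · intro ψ hψ
    rcases hε₁ (J ψ) (Set.mem_univ _) with h | h <;> rcases hε₂ (J ψ) (Set.mem_univ _) with h' | h' <;>
      simp [h, h']
  · have hker : ∀ (x : G) (z : H), signedBijectionKernel b (fun ψ => I₁ (J ψ))
        (fun ψ => ε₁ (J ψ) * ε₂ (J ψ)) x z =
        (Nat.card F : ℂ)⁻¹ * ∑ y : F,
          signedBijectionKernel (Set.univ : Set (IrrCharacter F)) I₁ ε₁ x y *
            signedBijectionKernel (Set.univ : Set (IrrCharacter F)) I₂ ε₂ z y⁻¹ := by
      intro x z
      rw [kernel_comp, signedBijectionKernel, ← finsum_eq_sum_of_fintype,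
        ← finsum_mem_univ (fun η : IrrCharacter F =>
          ((ε₁ η * ε₂ η : ℤ) : ℂ) * (I₁ η : G → ℂ) x * (I₂ η : H → ℂ) z)]
      refine finsum_mem_eq_of_bijOn J hbJ fun ψ hψ => ?_
      rw [hinv.2 hψ]
    intro x z
    rw [hker]
    refine ⟨?_, ?_, ?_⟩
    · have h1 := mlr_inner (M := M)
        (ψ := fun y => signedBijectionKernel (Set.univ : Set (IrrCharacter F)) I₁ ε₁ x y /
          (Nat.card (Subgroup.centralizer ({x} : Set G)) : ℂ))
        (d := fun y => signedBijectionKernel (Set.univ : Set (IrrCharacter F)) I₂ ε₂ z y)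
        (fun g h => by
          have h3 := classFun_kernel_left I₁ ε₁ x g h
          simp only at h3 ⊢
          rw [h3])
        (fun y => (hp₁ x y).1) (classFun_kernel_left I₂ ε₂ z) (fun y => (hp₂ z y).2.1)
      have h2 : (Nat.card F : ℂ)⁻¹ * ∑ y : F,
          signedBijectionKernel (Set.univ : Set (IrrCharacter F)) I₁ ε₁ x y *
            signedBijectionKernel (Set.univ : Set (IrrCharacter F)) I₂ ε₂ z y⁻¹ /
              (Nat.card (Subgroup.centralizer ({x} : Set G)) : ℂ) = 
          (Nat.card F : ℂ)⁻¹ * ∑ y : F,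
            signedBijectionKernel (Set.univ : Set (IrrCharacter F)) I₁ ε₁ x y /
              (Nat.card (Subgroup.centralizer ({x} : Set G)) : ℂ) *
            signedBijectionKernel (Set.univ : Set (IrrCharacter F)) I₂ ε₂ z y⁻¹ := by
        congr 1
        refine Finset.sum_congr rfl fun y _ => by ring
      rw [← h2] at h1
      rw [mul_div_assoc, Finset.sum_div]
      exact h1
    · have h1 := mlr_inner (M := M)
        (ψ := fun y => signedBijectionKernel (Set.univ : Set (IrrCharacter F)) I₂ ε₂ z y /
          (Nat.card (Subgroup.centralizer ({z} : Set H)) : ℂ))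
        (d := fun y => signedBijectionKernel (Set.univ : Set (IrrCharacter F)) I₁ ε₁ x y)
        (fun g h => by
          have h3 := classFun_kernel_left I₂ ε₂ z g h
          simp only at h3 ⊢
          rw [h3])
        (fun y => (hp₂ z y).1) (classFun_kernel_left I₁ ε₁ x) (fun y => (hp₁ x y).2.1)
      have h2 : (Nat.card F : ℂ)⁻¹ * ∑ y : F,
          signedBijectionKernel (Set.univ : Set (IrrCharacter F)) I₁ ε₁ x y *
            signedBijectionKernel (Set.univ : Set (IrrCharacter F)) I₂ ε₂ z y⁻¹ /
              (Nat.card (Subgroup.centralizer ({z} : Set H)) : ℂ) = 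
          (Nat.card F : ℂ)⁻¹ * ∑ y : F,
            signedBijectionKernel (Set.univ : Set (IrrCharacter F)) I₂ ε₂ z y /
              (Nat.card (Subgroup.centralizer ({z} : Set H)) : ℂ) *
            signedBijectionKernel (Set.univ : Set (IrrCharacter F)) I₁ ε₁ x y⁻¹ := by
        congr 1
        refine Fintype.sum_equiv (Equiv.inv F) _ _ fun y => ?_
        simp only [Equiv.inv_apply, inv_inv]
        ring
      rw [← h2] at h1
      rw [mul_div_assoc, Finset.sum_div]
      exact h1
    · by_cases hxz : IsPRegular p x ↔ IsPRegular p z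
      · exact Or.inl hxz
      · refine Or.inr ?_
        rw [Finset.sum_eq_zero, mul_zero]
        intro y _
        rcases (hp₁ x y).2.2 with h | h
        · rcases (hp₂ z y⁻¹).2.2 with h' | h'
          · exact absurd (h.trans (isPRegular_inv_iff.symm.trans h'.symm)) hxz
          · rw [h', mul_zero]
        · rw [h, zero_mul]

end compose

section existsF
variable {G : Type u} [Group G] [Finite G]

/-- the Frobenius (or cyclic) group attached to a cyclic subgroup and a group acting on it -/
theorem exists_frob {e : ℕ} {D T : Subgroup G} (hT : T ≤ Subgroup.normalizer (D : Set G))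
    (hD : IsCyclic D) (he : (Subgroup.centralizer (D : Set G)).relIndex T = e) :
    ∃ (F : Type u) (_ : Group F) (_ : Fintype F) (Q : Subgroup F),
      Nat.card F = Nat.card D * e ∧ IsCyclic Q ∧ Nat.card Q = Nat.card D ∧
      Subgroup.centralizer (Q : Set F) = Q := by
  classical
  set S : Subgroup (MulAut D) := (autHom hT (MulEquiv.refl D)).range with hS
  have hcS : Nat.card S = e := by rw [hS, card_range_autHom, he]
  let F := D ⋊[S.subtype] S
  haveI : Finite F := Finite.of_equiv _ (SemidirectProduct.equivProd (φ := S.subtype)).symm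
  have hinj : Function.Injective (SemidirectProduct.inl : D →* F) :=
    SemidirectProduct.inl_injective
  refine ⟨F, inferInstance, Fintype.ofFinite F, (SemidirectProduct.inl : D →* F).range, ?_, ?_, ?_, ?_⟩
  · rw [Nat.card_congr (SemidirectProduct.equivProd (φ := S.subtype)), Nat.card_prod, hcS]
  · exact isCyclic_of_surjective (SemidirectProduct.inl : D →* F).rangeRestrict
      (MonoidHom.rangeRestrict_surjective _)
  · exact (Nat.card_congr (MonoidHom.ofInjective hinj).toEquiv).symm
  · have hcomm := comm_of_isCyclic hD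
    ext x
    rw [Subgroup.mem_centralizer_iff]
    constructor
    · intro h
      have h1 : x.right = 1 := by
        apply Subtype.ext
        ext d
        have h2 := h (SemidirectProduct.inl d) ⟨d, rfl⟩
        have h3 : d * x.left = x.left * ((x.right : MulAut D) d) :=
          congrArg (fun z : F => z.left) h2
        have h4 : x.left * ((x.right : MulAut D) d) = x.left * d := by
          rw [show x.left * ((x.right : MulAut D) d) = d * x.left from h3.symm]
          exact Subtype.ext (hcomm _ d.2 _ x.left.2)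
        have h5 := mul_left_cancel h4
        simpa using congrArg (Subtype.val) h5
      exact ⟨x.left, by
        ext
        · simp
        · simp [h1]⟩
    · rintro ⟨d, rfl⟩ _ ⟨d', rfl⟩
      rw [← map_mul, ← map_mul]
      congr 1
      exact Subtype.ext (hcomm _ d'.2 _ d.2)

end existsF


section transfer
variable {G : Type u} [Group G] [Fintype G] {p : ℕ} [hp : Fact p.Prime] {M : Ideal AlgInt}
  [hMp : M.IsPrime]

theorem res_incl_self {k : Type*} [Field k] {H : Subgroup G} (x : MonoidAlgebra k H) :
    Blk.res H (incl H x) = x :=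
  incl_injective (incl_res (supp_incl x))

/-- a block `c` of `N_G(Z)` with cyclic defect group `P ≥ Z` and the block `B` it induces have
the same inertial index -/
theorem exists_transfer (hM : IsPModular p M) {B : Set (IrrCharacter G)} (hB : IsPBlock M B)
    {P Z H : Subgroup G} (hPc : IsCyclic P) (hPp : IsPGroup p P) (hZ : Z ≤ P)
    (hH : H = Subgroup.normalizer (Z : Set G)) {c : Set (IrrCharacter H)}
    (hcD : IsDefectGroup p M c (P.subgroupOf H)) (hc : IsInducedBlock M H c B) :
    P ≤ H ∧
    ∃ (b₁ : Set (IrrCharacter (Subgroup.centralizer ((P.subgroupOf H : Subgroup H) : Set H))))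
      (b₀ : Set (IrrCharacter (Subgroup.centralizer (P : Set G)))),
      (∀ [Fintype H], IsInducedBlock M _ b₁ c ∧ 
        (Subgroup.centralizer ((P.subgroupOf H : Subgroup H) : Set H)).relIndex
          (stab (Subgroup.normalizer ((P.subgroupOf H : Subgroup H) : Set H)) (EB M _ b₁)) =
        (Subgroup.centralizer (P : Set G)).relIndex
          (stab (Subgroup.normalizer (P : Set G)) (EB M _ b₀))) ∧
      IsInducedBlock M _ b₀ B := by
  classical
  have := charP_kM hM
  have hab := comm_of_isCyclic hPc
  have hZp : IsPGroup p Z := hPp.to_le hZ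
  have hCH : Subgroup.centralizer (Z : Set G) ≤ H := by
    rw [hH]; exact centralizer_le_normalizer Z
  have hPC : P ≤ Subgroup.centralizer (Z : Set G) := by
    intro x hx
    rw [Subgroup.mem_centralizer_iff]
    intro z hz
    exact hab z (hZ hz) x hx
  have hPH : P ≤ H := hPC.trans hCH
  have hCP : Subgroup.centralizer (P : Set G) ≤ H := (Blk.centralizer_le_of_le hZ).trans hCH
  have hNH : Subgroup.normalizer (P : Set G) ≤ H := by
    intro g hg
    rw [hH]
    exact normalizer_le_of_isCyclic hPc hZ hg
  have hmap : (P.subgroupOf H).map H.subtype = P := Subgroup.map_subgroupOf_eq_of_le hPH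
  refine ⟨hPH, ?_⟩
  letI : Fintype H := Fintype.ofFinite H
  have hP'p : IsPGroup p (P.subgroupOf H) := isPGroup_map_subtype.1 (by rw [hmap]; exact hPp)
  have hD' : IsDef p ⊤ (eB M c) (P.subgroupOf H) := (isDefectGroup_iff hM hc.1 _).1 hcD
  obtain ⟨e', hmax, hpair⟩ := exists_mmax_on hM hc.1 hD'
  obtain ⟨b₁, hb₁, hb₁e⟩ := exists_EB hmax.1.blk
  have hpG : MPair p P (incl H e') := by
    have h1 := (mpair_incl_iff_of_le (G := G) (H := H) (p := p) (Q := P.subgroupOf H) (f := e')
      (by rw [hmap]; exact hCP)).1 hmax.1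
    rwa [hmap] at h1
  obtain ⟨b₀, hb₀, hb₀e⟩ := exists_EB hpG.blk
  refine ⟨b₁, b₀, ?_, ?_⟩
  · intro inst
    obtain rfl : inst = Fintype.ofFinite H := Subsingleton.elim _ _
    refine ⟨(isInducedBlock_iff_pair hM hP'p hb₁ hc.1).2 (by rw [hb₁e]; exact hpair), ?_⟩
    rw [hb₀e]
    have h1 : stab (Subgroup.normalizer ((P.subgroupOf H : Subgroup H) : Set H)) (EB M _ b₁) =
        (stab (Subgroup.normalizer (P : Set G)) (incl H e')).subgroupOf H := by
      ext x
      rw [Subgroup.mem_subgroupOf, ← mem_stab_res_iff hPH (supp_incl e') x, res_incl_self, hb₁e]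
    have h2 : Subgroup.centralizer ((P.subgroupOf H : Subgroup H) : Set H) =
        (Subgroup.centralizer (P : Set G)).subgroupOf H := by
      ext x
      rw [Subgroup.mem_subgroupOf, mem_centralizer_subgroupOf_iff hPH]
    rw [h1, h2]
    exact Subgroup.relIndex_subgroupOf ((stab_le _ _).trans hNH)
  · refine (isInducedBlock_iff_pair hM hPp hb₀ hB).2 ?_
    rw [hb₀e]
    refine ⟨hpG, isBlk_eB hB, ?_⟩
    have h1 : br Z (eB M B) * EB M H c = EB M H c :=
      (isInducedBlock_iff_br hM hZp (hZ.trans hPH) hH.le hCH hc.1 hB).1 hc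
    have h2 : br P (EB M H c) * incl H e' = incl H e' := by
      have h3 := congrArg (incl H) hpair.2.2
      rw [incl_mul, incl_br, hmap] at h3
      exact h3
    have h4 : br P (EB M H c) = br P (eB M B) * br P (EB M H c) := by
      conv_lhs => rw [← h1]
      rw [br_mul hPp, br_br_of_le hZ]
      · exact ((isBlk_eB hB).fixed.mono le_top).br (hPC.trans (centralizer_le_normalizer Z))
      · exact (isBlk_EB hc.1).fixed.mono hPH
    calc br P (eB M B) * incl H e'
        = br P (eB M B) * (br P (EB M H c) * incl H e') := by rw [h2]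
      _ = (br P (eB M B) * br P (EB M H c)) * incl H e' := by rw [mul_assoc]
      _ = br P (EB M H c) * incl H e' := by rw [← h4]
      _ = incl H e' := h2

end transfer


section rank
variable {G : Type u} [Group G] [Fintype G] {p : ℕ} [hp : Fact p.Prime] {M : Ideal AlgInt}
  [hMp : M.IsPrime]

/-- the rank of a block with cyclic defect group is its inertial index -/
theorem rank_eq_inertial (hM : IsPModular p M) {B : Set (IrrCharacter G)} (hB : IsPBlock M B)
    {D : Subgroup G} (hD : IsCyclic D) {a : ℕ} (ha : 1 ≤ a) (hDa : Nat.card D = p ^ a)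
    (hBD : IsDefectGroup p M B D)
    {c : Set (IrrCharacter (Subgroup.centralizer (D : Set G)))}
    (hc : IsInducedBlock M (Subgroup.centralizer (D : Set G)) c B) :
    blockRank p B = (Subgroup.centralizer (D : Set G)).relIndex
      (stab (Subgroup.normalizer (D : Set G)) (EB M _ c)) := by
  classical
  obtain ⟨D₁, f, χ₁, hd, hcard, hidx, hrank, -⟩ := exists_data hM hB hD ha hDa hBD hc
  haveI : Fintype (Subgroup.centralizer (D₁ : Set G)) := Fintype.ofFinite _
  obtain ⟨ψ0, -⟩ := Blk.isPBlock_nonempty hB
  have hne : ∃ χ ∈ f, χ ≠ χ₁ := by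
    by_contra hcon
    push Not at hcon
    have h1 : f ⊆ {χ₁} := fun χ hχ => hcon χ hχ
    have h2 : Nat.card f ≤ 1 := by
      rw [Nat.card_coe_set_eq]
      exact (Set.ncard_le_ncard h1).trans (Set.ncard_singleton _).le
    rw [hcard, hDa] at h2
    have h3 : p ≤ p ^ a := Nat.le_self_pow (by omega) p
    have h4 := (Fact.out : p.Prime).one_lt
    omega
  obtain ⟨θ, ε, δ, hout, -⟩ := hd.main hM (by rw [hidx]; exact hrank) hne ψ0
  rw [hout.rank, hidx]

end rank

end Cfsg.Agent.Cyc
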