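import Cfsg.Agent.Cyc.NilCenter
import Cfsg.Agent.BlkC.Avg
import Cfsg.Agent.Char.Induced

/-!
# Class functions divisible by the orders of the centralizers
-/

set_option autoImplicit false
set_option linter.unusedSectionVars false
set_option linter.style.haveILetI false

universe u v w

namespace Cfsg.Agent.Cyc

open scoped ComplexConjugate
open Cfsg Cfsg.Agent.Blk Cfsg.Agent.CharBase Cfsg.Agent.BlkC

section trace
variable {G : Type u} [Group G] [Fintype G] {M : Ideal AlgInt} [hMp : M.IsPrime]

/-- all values divided by the order of the centralizer are local integers -/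
def Dv (M : Ideal AlgInt) (φ : G → ℂ) : Prop :=
  ∀ g, MemLocalRing M (φ g / (Nat.card (Subgroup.centralizer ({g} : Set G)) : ℂ))

/-- the sum of all conjugates -/
noncomputable def trG (φ : G → ℂ) : G → ℂ := fun k => ∑ x : G, φ (x⁻¹ * k * x)

theorem card_centralizer_ne_zero (g : G) :
    (Nat.card (Subgroup.centralizer ({g} : Set G)) : ℂ) ≠ 0 := by
  exact_mod_cast (Nat.card_pos (α := Subgroup.centralizer ({g} : Set G))).ne'

open Classical in
theorem card_filter_conj (k k' : G) : (Finset.univ.filter (fun x : G => x⁻¹ * k * x = k')).card =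
    if IsConj k k' then Nat.card (Subgroup.centralizer ({k} : Set G)) else 0 := by
  split_ifs with h
  · obtain ⟨u, hu⟩ := isConj_iff.1 h
    rw [Nat.card_eq_fintype_card]
    have e : (Finset.univ.filter (fun x : G => x⁻¹ * k * x = k')) =
        (Finset.univ : Finset (Subgroup.centralizer ({k} : Set G))).image
          (fun c : Subgroup.centralizer ({k} : Set G) => (c : G) * u⁻¹) := by
      ext x
      simp only [Finset.mem_filter, Finset.mem_univ, true_and, Finset.mem_image]
      constructor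
      · intro hx
        refine ⟨⟨x * u, ?_⟩, by simp⟩
        rw [Subgroup.mem_centralizer_singleton_iff]
        have h2 : x⁻¹ * k * x = u * k * u⁻¹ := hx.trans hu.symm
        calc x * u * k = x * (u * k * u⁻¹) * u := by group
          _ = x * (x⁻¹ * k * x) * u := by rw [h2]
          _ = k * (x * u) := by group
      · rintro ⟨⟨c, hc⟩, rfl⟩
        rw [Subgroup.mem_centralizer_singleton_iff] at hc
        calc (c * u⁻¹)⁻¹ * k * (c * u⁻¹) = u * c⁻¹ * (k * c) * u⁻¹ := by group
          _ = u * c⁻¹ * (c * k) * u⁻¹ := by rw [hc]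
          _ = u * k * u⁻¹ := by group
          _ = k' := hu
    rw [e, Finset.card_image_of_injective, Finset.card_univ]
    intro c c' h
    have h' : (c : G) * u⁻¹ = (c' : G) * u⁻¹ := h
    exact Subtype.ext (mul_right_cancel h')
  · rw [Finset.card_eq_zero, Finset.filter_eq_empty_iff]
    intro x _ hx
    apply h
    rw [isConj_iff]
    exact ⟨x⁻¹, by rw [← hx]; group⟩

open Classical in
theorem trG_eq (φ : G → ℂ) (k : G) : trG φ k =
    (Nat.card (Subgroup.centralizer ({k} : Set G)) : ℂ) *
      ∑ k' : G, if IsConj k k' then φ k' else 0 := by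
  rw [trG]
  have h1 : ∀ x : G, φ (x⁻¹ * k * x) = ∑ k' : G, if x⁻¹ * k * x = k' then φ k' else 0 := by
    intro x
    rw [Finset.sum_ite_eq]
    simp
  rw [Finset.sum_congr rfl fun x _ => h1 x, Finset.sum_comm, Finset.mul_sum]
  refine Finset.sum_congr rfl fun k' _ => ?_
  rw [← Finset.sum_filter, Finset.sum_const, nsmul_eq_mul, card_filter_conj]
  split_ifs <;> simp

theorem dv_trG {φ : G → ℂ} (h : RV M φ) : Dv M (trG φ) := by
  classical
  intro g
  rw [trG_eq, mul_div_assoc, mul_comm, div_mul_cancel₀ _ (card_centralizer_ne_zero g)]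
  refine mlr_sum _ _ fun k' _ => ?_
  split_ifs
  · exact h k'
  · exact mlr_zero

theorem exists_trG {d : G → ℂ} (hc : IsClassFunction G d) (hd : Dv M d) :
    ∃ φ : G → ℂ, RV M φ ∧ d = trG φ := by
  classical
  let r : G → G := fun g => (ConjClasses.mk g).out
  have hr : ∀ g, IsConj g (r g) := fun g => by
    rw [← ConjClasses.mk_eq_mk_iff_isConj]
    exact (Quotient.out_eq _).symm
  have hr' : ∀ g g', IsConj g g' → r g = r g' := by
    intro g g' h
    have : ConjClasses.mk g = ConjClasses.mk g' := ConjClasses.mk_eq_mk_iff_isConj.2 h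
    simp only [r, this]
  refine ⟨fun k => if r k = k then
    d k / (Nat.card (Subgroup.centralizer ({k} : Set G)) : ℂ) else 0, ?_, ?_⟩
  · intro k
    simp only
    split_ifs
    · exact hd k
    · exact mlr_zero
  · funext k
    rw [trG]
    have h1 : ∀ x : G, (if r (x⁻¹ * k * x) = x⁻¹ * k * x then
        d (x⁻¹ * k * x) / (Nat.card (Subgroup.centralizer ({x⁻¹ * k * x} : Set G)) : ℂ) else 0) =
        if x⁻¹ * k * x = r k then
          d (r k) / (Nat.card (Subgroup.centralizer ({r k} : Set G)) : ℂ) else 0 := by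
      intro x
      have h2 : r (x⁻¹ * k * x) = r k := by
        apply hr'
        rw [isConj_iff]
        exact ⟨x, by group⟩
      rw [h2]
      by_cases h3 : x⁻¹ * k * x = r k
      · rw [if_pos h3.symm, if_pos h3, h3]
      · rw [if_neg (fun h => h3 h.symm), if_neg h3]
    rw [Finset.sum_congr rfl fun x _ => h1 x, ← Finset.sum_filter, Finset.sum_const,
      card_filter_conj, if_pos (hr k), nsmul_eq_mul]
    have h4 : Nat.card (Subgroup.centralizer ({k} : Set G)) =
        Nat.card (Subgroup.centralizer ({r k} : Set G)) := by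
      obtain ⟨u, hu⟩ := isConj_iff.1 (hr k)
      have h5 : Subgroup.centralizer ({r k} : Set G) =
          (Subgroup.centralizer ({k} : Set G)).map (MulAut.conj u).toMonoidHom := by
        ext z
        rw [Subgroup.mem_centralizer_singleton_iff]
        constructor
        · intro hz
          refine ⟨u⁻¹ * z * u, ?_, by simp; group⟩
          rw [SetLike.mem_coe, Subgroup.mem_centralizer_singleton_iff]
          have h6 : z * (u * k * u⁻¹) = (u * k * u⁻¹) * z := by rw [hu]; exact hz
          calc u⁻¹ * z * u * k = u⁻¹ * (z * (u * k * u⁻¹)) * u := by group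
            _ = u⁻¹ * ((u * k * u⁻¹) * z) * u := by rw [h6]
            _ = k * (u⁻¹ * z * u) := by group
        · rintro ⟨y, hy, rfl⟩
          rw [SetLike.mem_coe, Subgroup.mem_centralizer_singleton_iff] at hy
          change u * y * u⁻¹ * r k = r k * (u * y * u⁻¹)
          rw [← hu]
          calc u * y * u⁻¹ * (u * k * u⁻¹) = u * (y * k) * u⁻¹ := by group
            _ = u * (k * y) * u⁻¹ := by rw [hy]
            _ = u * k * u⁻¹ * (u * y * u⁻¹) := by group
      rw [h5, Blk.card_map_conj]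
    have h7 : d (r k) = d k := by
      obtain ⟨u, hu⟩ := isConj_iff.1 (hr k)
      rw [← hu, hc]
    rw [h4, h7, mul_div_cancel₀]
    exact card_centralizer_ne_zero _

theorem conv_trG {ψ : G → ℂ} (hψ : IsClassFunction G ψ) (φ : G → ℂ) :
    conv ψ (trG φ) = trG (conv ψ φ) := by
  funext k
  simp only [conv, trG, Finset.mul_sum]
  rw [Finset.sum_comm]
  refine Finset.sum_congr rfl fun x _ => ?_
  refine Fintype.sum_equiv (MulAut.conj x⁻¹).toEquiv _ _ fun y => ?_
  have h1 : ((MulAut.conj x⁻¹).toEquiv y) = x⁻¹ * y * x := by simp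
  have h2 : ψ (x⁻¹ * y * x) = ψ y := by simpa using hψ y x⁻¹
  rw [h1, h2]
  congr 2
  group

/-- divisible class functions form an ideal for convolution -/
theorem dv_conv {ψ d : G → ℂ} (hψ : IsClassFunction G ψ) (hψv : RV M ψ)
    (hc : IsClassFunction G d) (hd : Dv M d) : Dv M (conv ψ d) := by
  obtain ⟨φ, hφ, rfl⟩ := exists_trG hc hd
  rw [conv_trG hψ]
  exact dv_trG (mlr_conv hψv hφ)

theorem dv_inv {d : G → ℂ} (hd : Dv M d) : Dv M (fun g => d g⁻¹) := by
  intro g
  have h1 := hd g⁻¹
  have h2 : Subgroup.centralizer ({g⁻¹} : Set G) = Subgroup.centralizer ({g} : Set G) := by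
    ext z
    rw [Subgroup.mem_centralizer_singleton_iff, Subgroup.mem_centralizer_singleton_iff]
    constructor
    · intro h
      have h3 : Commute z g⁻¹ := h
      exact (Commute.inv_right_iff.1 h3)
    · intro h
      have h3 : Commute z g := h
      exact h3.inv_right
  rwa [h2] at h1

section ind
variable (C : Subgroup G) [Fintype C]

theorem indFun_trG (φ : C → ℂ) : indFun C (trG φ) = trG (extendByZero C φ) := by
  classical
  funext g
  rw [indFun, trG]
  have h1 : ∀ k : G, extendByZero C (trG φ) k =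
      ∑ c : C, extendByZero C φ ((c : G)⁻¹ * k * c) := by
    intro k
    by_cases hk : k ∈ C
    · rw [Char.extendByZero_of_mem _ _ hk, trG]
      refine Finset.sum_congr rfl fun c _ => ?_
      have h2 : (c : G)⁻¹ * k * c ∈ C := C.mul_mem (C.mul_mem (C.inv_mem c.2) hk) c.2
      rw [Char.extendByZero_of_mem _ _ h2]
      rfl
    · rw [Char.extendByZero_of_notMem _ _ hk]
      symm
      refine Finset.sum_eq_zero fun c _ => ?_
      rw [Char.extendByZero_of_notMem]
      intro h
      apply hk
      have h3 : k = c * ((c : G)⁻¹ * k * c) * (c : G)⁻¹ := by group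
      rw [h3]
      exact C.mul_mem (C.mul_mem c.2 h) (C.inv_mem c.2)
  rw [Finset.sum_congr rfl fun x _ => h1 (x⁻¹ * g * x), Finset.sum_comm]
  have h2 : ∀ c : C, ∑ x : G, extendByZero C φ ((c : G)⁻¹ * (x⁻¹ * g * x) * c) =
      ∑ x : G, extendByZero C φ (x⁻¹ * g * x) := by
    intro c
    refine Fintype.sum_equiv (Equiv.mulRight (c : G)) _ _ fun x => ?_
    rw [Equiv.coe_mulRight]
    congr 1
    group
  rw [Finset.sum_congr rfl fun c _ => h2 c, Finset.sum_const, nsmul_eq_mul, Finset.card_univ,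
    ← Nat.card_eq_fintype_card, ← mul_assoc, inv_mul_cancel₀, one_mul]
  exact Char.card_ne_zero_complex C

/-- induction preserves divisibility -/
theorem dv_indFun {d : C → ℂ} (hc : IsClassFunction C d) (hd : Dv M d) : Dv M (indFun C d) := by
  classical
  obtain ⟨φ, hφ, rfl⟩ := exists_trG hc hd
  rw [indFun_trG]
  refine dv_trG fun g => ?_
  by_cases hg : g ∈ C
  · rw [Char.extendByZero_of_mem _ _ hg]; exact hφ _
  · rw [Char.extendByZero_of_notMem _ _ hg]; exact mlr_zero

theorem sum_eq_quot (h : G → ℂ) (hh : ∀ x, ∀ c ∈ C, h (x * c) = h x) [Fintype (G ⧸ C)] :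
    ∑ x : G, h x = (Nat.card C : ℂ) * ∑ q : G ⧸ C, h q.out := by
  classical
  rw [← Finset.sum_fiberwise (g := fun x : G => (x : G ⧸ C)), Finset.mul_sum]
  refine Finset.sum_congr rfl fun q _ => ?_
  have h1 : ∀ x ∈ Finset.univ.filter (fun x : G => (x : G ⧸ C) = q), h x = h q.out := by
    intro x hx
    rw [Finset.mem_filter] at hx
    have h2 : q.out⁻¹ * x ∈ C := by
      rw [← QuotientGroup.eq, QuotientGroup.out_eq', hx.2]
    have h3 : x = q.out * (q.out⁻¹ * x) := by group
    rw [h3, hh _ _ h2]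
  rw [Finset.sum_congr rfl h1, Finset.sum_const, nsmul_eq_mul]
  congr 1
  have h4 : (Finset.univ.filter (fun x : G => (x : G ⧸ C) = q)) =
      (Finset.univ : Finset C).image (fun c : C => q.out * (c : G)) := by
    ext x
    simp only [Finset.mem_filter, Finset.mem_univ, true_and, Finset.mem_image]
    constructor
    · intro hx
      have h2 : q.out⁻¹ * x ∈ C := by
        rw [← QuotientGroup.eq, QuotientGroup.out_eq', hx]
      exact ⟨⟨_, h2⟩, by simp⟩
    · rintro ⟨c, rfl⟩
      rw [QuotientGroup.mk_mul_of_mem q.out c.2, QuotientGroup.out_eq']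
  rw [h4, Finset.card_image_of_injective, Finset.card_univ, Nat.card_eq_fintype_card]
  intro c c' h
  have h' : q.out * (c : G) = q.out * (c' : G) := h
  exact Subtype.ext (mul_left_cancel h')

/-- induction preserves integral valued class functions -/
theorem rv_indFun {d : C → ℂ} (hc : IsClassFunction C d) (hd : RV M d) : RV M (indFun C d) := by
  classical
  intro g
  haveI : Fintype (G ⧸ C) := Fintype.ofFinite _
  rw [indFun, sum_eq_quot C, ← mul_assoc, inv_mul_cancel₀ (Char.card_ne_zero_complex C), one_mul]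
  · refine mlr_sum _ _ fun q _ => ?_
    by_cases hg : q.out⁻¹ * g * q.out ∈ C
    · rw [Char.extendByZero_of_mem _ _ hg]; exact hd _
    · rw [Char.extendByZero_of_notMem _ _ hg]; exact mlr_zero
  · intro x c hcC
    have h1 : (x * c)⁻¹ * g * (x * c) = c⁻¹ * (x⁻¹ * g * x) * c := by group
    rw [h1]
    by_cases hk : x⁻¹ * g * x ∈ C
    · have h2 : c⁻¹ * (x⁻¹ * g * x) * c ∈ C := C.mul_mem (C.mul_mem (C.inv_mem hcC) hk) hcC
      rw [Char.extendByZero_of_mem _ _ hk, Char.extendByZero_of_mem _ _ h2]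
      have h3 := hc ⟨x⁻¹ * g * x, hk⟩ (⟨c, hcC⟩⁻¹ : C)
      rw [← h3]
      congr 1
      apply Subtype.ext
      simp
    · rw [Char.extendByZero_of_notMem _ _ hk, Char.extendByZero_of_notMem]
      intro h
      apply hk
      have h3 : x⁻¹ * g * x = c * (c⁻¹ * (x⁻¹ * g * x) * c) * c⁻¹ := by group
      rw [h3]
      exact C.mul_mem (C.mul_mem hcC h) (C.inv_mem hcC)

end ind

end trace

section sing
variable {G : Type u} [Group G] [Fintype G] {M : Ideal AlgInt} [hMp : M.IsPrime] {p : ℕ}
  [hp : Fact p.Prime]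

/-- combinations of characters vanishing on the `p`-singular elements are divisible -/
theorem dv_of_sing (hM : IsPModular p M) (S : Finset (IrrCharacter G)) (c : IrrCharacter G → ℂ)
    (hc : ∀ ψ ∈ S, MemLocalRing M (c ψ))
    (h : ∀ g : G, p ∣ orderOf g → ∑ ψ ∈ S, c ψ * (ψ : G → ℂ) g = 0) :
    Dv M (fun g => ∑ ψ ∈ S, c ψ * (ψ : G → ℂ) g) := by
  classical
  intro g
  by_cases hg : p ∣ orderOf g
  · simp only [h g hg, zero_div]
    exact mlr_zero
  set Z := Subgroup.centralizer ({g} : Set G) with hZ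
  obtain ⟨Q⟩ : Nonempty (Sylow p Z) := inferInstance
  set P : Subgroup G := (Q : Subgroup Z).map Z.subtype with hP
  haveI : Fintype P := Fintype.ofFinite P
  have hPc : ∀ u ∈ P, Commute g u := by
    rintro _ ⟨u, -, rfl⟩
    have : (u : G) ∈ Subgroup.centralizer ({g} : Set G) := u.2
    rw [Subgroup.mem_centralizer_singleton_iff] at this
    exact this.symm
  have hPp : IsPGroup p P := Q.2.map _
  have hcard : Nat.card P = Nat.card Q :=
    Nat.card_congr ((Q : Subgroup Z).equivMapOfInjective _ Z.subtype_injective).symm.toEquiv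
  have hZc : Nat.card Z = Nat.card P * (Q : Subgroup Z).index := by
    rw [hcard, Subgroup.card_mul_index]
  have hind : ¬ p ∣ (Q : Subgroup Z).index := Q.not_dvd_index
  have hPne : (Nat.card P : ℂ) ≠ 0 := Char.card_ne_zero_complex P
  -- the average
  have h1 : ∑ ψ ∈ S, c ψ * ((Nat.card P : ℂ)⁻¹ * ∑ u : P, (ψ : G → ℂ) (g * (u : G))) =
      (Nat.card P : ℂ)⁻¹ * ∑ ψ ∈ S, c ψ * (ψ : G → ℂ) g := by
    have h2 : ∑ ψ ∈ S, c ψ * ((Nat.card P : ℂ)⁻¹ * ∑ u : P, (ψ : G → ℂ) (g * (u : G))) =
        (Nat.card P : ℂ)⁻¹ * ∑ u : P, ∑ ψ ∈ S, c ψ * (ψ : G → ℂ) (g * (u : G)) := by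
      rw [Finset.sum_comm, Finset.mul_sum]
      refine Finset.sum_congr rfl fun ψ _ => ?_
      rw [← Finset.mul_sum]
      ring
    rw [h2, Finset.sum_eq_single (1 : P)]
    · simp
    · intro u _ hu
      apply h
      have hcom : Commute g (u : G) := hPc u u.2
      obtain ⟨k, hk⟩ := (IsPGroup.iff_orderOf.1 hPp) u
      have hcop : (orderOf g).Coprime (orderOf (u : G)) := by
        rw [Subgroup.orderOf_coe, hk]
        exact Nat.Coprime.pow_right _ ((Nat.Prime.coprime_iff_not_dvd hp.out).2 hg).symm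
      rw [hcom.orderOf_mul_eq_mul_orderOf_of_coprime hcop, Subgroup.orderOf_coe, hk]
      apply dvd_mul_of_dvd_right
      apply dvd_pow_self
      rintro rfl
      rw [pow_zero, orderOf_eq_one_iff] at hk
      exact hu hk
    · intro h2; exact absurd (Finset.mem_univ _) h2
  have h3 : MemLocalRing M ((Nat.card P : ℂ)⁻¹ * ∑ ψ ∈ S, c ψ * (ψ : G → ℂ) g) := by
    rw [← h1]
    exact mlr_sum _ _ fun ψ hψ => mlr_mul (hc ψ hψ)
      (mlr_of_isIntegral (isIntegral_avg P hPc (isCharacter_of_isIrr ψ.2)))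
  have h4 : (∑ ψ ∈ S, c ψ * (ψ : G → ℂ) g) / (Nat.card Z : ℂ) =
      ((Nat.card P : ℂ)⁻¹ * ∑ ψ ∈ S, c ψ * (ψ : G → ℂ) g) *
        (((Q : Subgroup Z).index : ℕ) : ℂ)⁻¹ := by
    rw [hZc]
    push_cast
    field_simp
  change MemLocalRing M ((∑ ψ ∈ S, c ψ * (ψ : G → ℂ) g) / (Nat.card Z : ℂ))
  rw [h4]
  exact mlr_mul h3 (mlr_natCast_inv hM hind)

end sing

end Cfsg.Agent.Cyc
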