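import Cfsg.Agent.Cyc.Perfect
import Cfsg.Agent.Cyc.General
import Cfsg.Agent.Coh.SeqInd
import Cfsg.Agent.H79.Linearity

/-!
# The Frobenius group `Q ⋊ E` with `Q` cyclic and its characters
-/

set_option autoImplicit false
set_option linter.unusedSectionVars false
set_option linter.style.haveILetI false

universe u v w

namespace Cfsg.Agent.Cyc

open scoped ComplexConjugate
open Cfsg Cfsg.Agent.Blk Cfsg.Agent.CharBase Cfsg.Agent.BlkC

section dual
variable {A : Type*} [Group A] [Finite A]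

theorem finite_dual (hc : ∀ x y : A, x * y = y * x) : Finite (A →* ℂˣ) := by
  letI : CommGroup A := { (inferInstance : Group A) with mul_comm := hc }
  haveI : NeZero (Nat.card A) := ⟨Nat.card_pos.ne'⟩
  haveI h1 : HasEnoughRootsOfUnity ℂ (Nat.card A) := inferInstance
  haveI : HasEnoughRootsOfUnity ℂ (Monoid.exponent A) :=
    HasEnoughRootsOfUnity.of_dvd ℂ Group.exponent_dvd_nat_card
  exact Nat.finite_of_card_ne_zero (by
    rw [CommGroup.card_monoidHom_of_hasEnoughRootsOfUnity A ℂ]; exact Nat.card_pos.ne')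

theorem card_dual (hc : ∀ x y : A, x * y = y * x) : Nat.card (A →* ℂˣ) = Nat.card A := by
  haveI := finite_dual hc
  haveI : Fintype (A →* ℂˣ) := Fintype.ofFinite _
  have h1 := sum_dual hc (1 : A)
  simp only [map_one, Units.val_one, Finset.sum_const, nsmul_eq_mul, mul_one,
    Finset.card_univ, if_true] at h1
  rw [Nat.card_eq_fintype_card]
  exact_mod_cast h1

theorem eq_of_card_mulAut {p a e : ℕ} (hp : p.Prime) (hA : IsCyclic A)
    (hcard : Nat.card A = p ^ a) (he : e ∣ p - 1) {S S' : Subgroup (MulAut A)}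
    (hS : Nat.card S = e) (hS' : Nat.card S' = e) : S = S' := by
  haveI : Finite (MulAut A) := inferInstance
  by_cases h2 : p = 2
  · subst h2
    have he1 : e = 1 := Nat.dvd_one.1 he
    rw [he1] at hS hS'
    rw [Subgroup.card_eq_one.1 hS, Subgroup.card_eq_one.1 hS']
  · haveI := ZMod.isCyclic_units_of_prime_pow p hp h2 a
    have hcyc : IsCyclic (MulAut A) := by
      have e1 := IsCyclic.mulAutMulEquiv A
      rw [hcard] at e1
      exact isCyclic_of_injective e1.toMonoidHom e1.injective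
    have hcyc' : IsCyclic (⊤ : Subgroup (MulAut A)) :=
      isCyclic_of_injective (Subgroup.topEquiv (G := MulAut A)).toMonoidHom
        (Subgroup.topEquiv (G := MulAut A)).injective
    exact CycG.eq_of_le_cyclic hcyc' le_top le_top (by rw [hS, hS'])

end dual

section frob
variable {F : Type v} [Group F] [Fintype F] {p a e : ℕ}

theorem frob_normal (hp : p.Prime) (he : e ∣ p - 1) {Q : Subgroup F}
    (hQ : Nat.card Q = p ^ a) (hF : Nat.card F = Nat.card Q * e) : Q.Normal := by
  haveI : Fact p.Prime := ⟨hp⟩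
  have he0 : e ≠ 0 := by
    rintro rfl
    rw [mul_zero] at hF
    exact Nat.card_pos.ne' hF
  have helt : e < p := by
    have := Nat.le_of_dvd (by have := hp.two_le; omega) he
    have := hp.two_le
    omega
  have hnd : ¬ p ∣ e := fun h => by
    have := Nat.le_of_dvd (Nat.pos_of_ne_zero he0) h
    omega
  have hfac : (Nat.card F).factorization p = a := by
    rw [hF, hQ, Nat.factorization_mul (pow_ne_zero _ hp.ne_zero) he0, hp.factorization_pow]
    simp [Nat.factorization_eq_zero_of_not_dvd hnd]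
  let P : Sylow p F := Sylow.ofCard Q (by rw [hQ, hfac])
  have hPQ : (P : Subgroup F) = Q := rfl
  have hidx : (P : Subgroup F).index = e := by
    have h1 := Subgroup.card_mul_index Q
    rw [hF] at h1
    exact Nat.eq_of_mul_eq_mul_left Nat.card_pos h1
  have h1 := P.card_dvd_index
  rw [hidx] at h1
  have h2 := card_sylow_modEq_one p F
  have h3 : Nat.card (Sylow p F) ≤ e := Nat.le_of_dvd (Nat.pos_of_ne_zero he0) h1
  have h4 : Nat.card (Sylow p F) = 1 := by
    have h5 : Nat.card (Sylow p F) % p = 1 % p := h2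
    rw [Nat.mod_eq_of_lt (lt_of_le_of_lt h3 helt), Nat.mod_eq_of_lt hp.one_lt] at h5
    exact h5
  haveI : Subsingleton (Sylow p F) := (Nat.card_eq_one_iff_unique.1 h4).1
  have := Sylow.normal_of_subsingleton P
  rwa [hPQ] at this

theorem frob_index {Q : Subgroup F} (hF : Nat.card F = Nat.card Q * e) : Q.index = e := by
  have h1 := Subgroup.card_mul_index Q
  rw [hF] at h1
  exact Nat.eq_of_mul_eq_mul_left Nat.card_pos h1

theorem frob_cent (hp : p.Prime) (he : e ∣ p - 1) {Q : Subgroup F} (hcyc : IsCyclic Q)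
    (hQ : Nat.card Q = p ^ a) (hF : Nat.card F = Nat.card Q * e)
    (hQC : Subgroup.centralizer (Q : Set F) = Q) {x : F} (hx : x ∈ Q) (hx1 : x ≠ 1) :
    Subgroup.centralizer ({x} : Set F) = Q := by
  have hn := frob_normal hp he hQ hF
  have he0 : e ≠ 0 := by
    rintro rfl
    rw [mul_zero] at hF
    exact Nat.card_pos.ne' hF
  have hnd : ¬ p ∣ e := fun h => by
    have := Nat.le_of_dvd (Nat.pos_of_ne_zero he0) h
    have := Nat.le_of_dvd (by have := hp.two_le; omega) he
    have := hp.two_le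
    omega
  apply le_antisymm
  · intro g hg
    rw [Subgroup.mem_centralizer_singleton_iff] at hg
    have h1 := Star.centralizes_of_fix (T := ⊤) hp hcyc hQ
      (by rw [Subgroup.normalizer_eq_top]) (by
        rw [hQC, Subgroup.relIndex_top_right, frob_index hF]; exact hnd)
      (Subgroup.mem_top g) hx hx1 (by rw [hg]; group)
    rwa [hQC] at h1
  · intro g hg
    rw [Subgroup.mem_centralizer_singleton_iff]
    exact Star.comm_of_isCyclic hcyc g hg x hx

theorem frob_sing (hp : p.Prime) (he : e ∣ p - 1) {Q : Subgroup F} (hcyc : IsCyclic Q)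
    (hQ : Nat.card Q = p ^ a) (hF : Nat.card F = Nat.card Q * e)
    (hQC : Subgroup.centralizer (Q : Set F) = Q) {y : F} (hy : p ∣ orderOf y) : y ∈ Q := by
  haveI : Fact p.Prime := ⟨hp⟩
  have hn := frob_normal hp he hQ hF
  have he0 : e ≠ 0 := by
    rintro rfl
    rw [mul_zero] at hF
    exact Nat.card_pos.ne' hF
  have hnd : ¬ p ∣ e := fun h => by
    have := Nat.le_of_dvd (Nat.pos_of_ne_zero he0) h
    have := Nat.le_of_dvd (by have := hp.two_le; omega) he
    have := hp.two_le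
    omega
  -- a power of `y` of order `p`
  set z := y ^ (orderOf y / p) with hz
  have hzo : orderOf z = p := by
    rw [hz, orderOf_pow_of_dvd]
    · exact Nat.div_div_self hy (orderOf_pos y).ne'
    · exact (Nat.div_pos (Nat.le_of_dvd (orderOf_pos y) hy) hp.pos).ne'
    · exact Nat.div_dvd_of_dvd hy
  have hzQ : z ∈ Q := by
    have h1 : (z : F ⧸ Q) ^ p = 1 := by
      rw [← QuotientGroup.mk_pow, ← hzo, pow_orderOf_eq_one]; rfl
    have h2 : (z : F ⧸ Q) ^ e = 1 := by
      rw [← frob_index hF]; exact pow_card_eq_one'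
    have h3 : (z : F ⧸ Q) = 1 := by
      have h4 : orderOf (z : F ⧸ Q) ∣ Nat.gcd p e :=
        Nat.dvd_gcd (orderOf_dvd_of_pow_eq_one h1) (orderOf_dvd_of_pow_eq_one h2)
      rw [(Nat.Prime.coprime_iff_not_dvd hp).2 hnd] at h4
      exact orderOf_eq_one_iff.1 (Nat.dvd_one.1 h4)
    exact (QuotientGroup.eq_one_iff z).1 h3
  have hz1 : z ≠ 1 := by
    intro h
    rw [h, orderOf_one] at hzo
    exact hp.one_lt.ne hzo
  rw [← frob_cent hp he hcyc hQ hF hQC hzQ hz1, Subgroup.mem_centralizer_singleton_iff]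
  rw [hz]
  exact (Commute.refl y).pow_right _

/-- homomorphisms as irreducible characters -/
theorem isIrr_units (l : F →* ℂˣ) : IsIrrCharacter F (fun x => ((l x : ℂˣ) : ℂ)) :=
  Char.isIrrCharacter_of_hom ((Units.coeHom ℂ).comp l)

/-- the irreducible characters of an abelian group -/
theorem exists_hom_of_comm (hc : ∀ x y : F, x * y = y * x) (η : IrrCharacter F) :
    ∃ l : F →* ℂˣ, ∀ x, (η : F → ℂ) x = ((l x : ℂˣ) : ℂ) := by
  have h1 : (η : F → ℂ) 1 = 1 := H79.linear_of_comm hc η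
  exact ⟨(Char.linHom (irr_isCharacter η) h1).toHomUnits, fun x => rfl⟩

end frob

section irrF
variable {F : Type v} [Group F] [Fintype F] {Q : Subgroup F} [Fintype Q] [hn : Q.Normal]
  {A : Type w} [Group A] [Fintype A]

theorem isIrr_ind (hQc : ∀ x ∈ Q, x ≠ 1 → Subgroup.centralizer ({x} : Set F) = Q)
    (hcyc : IsCyclic Q) {l : Q →* ℂˣ} (hl : l ≠ 1) :
    IsIrrCharacter F (indFun Q (fun x => ((l x : ℂˣ) : ℂ))) := by
  have hab : ∀ x y : Q, x * y = y * x := fun x y =>
    Subtype.ext (Star.comm_of_isCyclic hcyc x x.2 y y.2)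
  have hθ := isIrr_units l
  refine Char.isIrr_indFun_of_inertia Q Q hθ ?_ le_rfl hθ ?_
  · apply le_antisymm
    · intro x hx
      rw [Char.mem_inertia]
      exact Char.cj_of_mem Q x hx (isClassFunction_of_isCharacter (isCharacter_of_isIrr hθ))
    · intro t ht
      rw [Char.mem_inertia] at ht
      by_contra htQ
      apply hl
      -- `x ↦ (t x t⁻¹) x⁻¹` is a bijection of `Q`
      let αt : Q ≃* Q := MulAut.conjNormal t
      have hαt : ∀ x : Q, ((αt x : Q) : F) = t * x * t⁻¹ := fun x => rfl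
      have hfpf : ∀ x, αt x = x → x = 1 := by
        intro x hx
        by_contra hx1
        apply htQ
        have hx1' : (x : F) ≠ 1 := fun h => hx1 (Subtype.ext h)
        rw [← hQc x x.2 hx1', Subgroup.mem_centralizer_singleton_iff]
        have h1 := congrArg Subtype.val hx
        rw [hαt] at h1
        calc t * (x : F) = t * x * t⁻¹ * t := by group
          _ = x * t := by rw [h1]
      have h2 := dual_injective hab αt hfpf
      have h3 : (fun l : Q →* ℂˣ => l.comp αt.toMonoidHom * l⁻¹) l =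
          (fun l : Q →* ℂˣ => l.comp αt.toMonoidHom * l⁻¹) 1 := by
        refine MonoidHom.ext fun x => Units.ext ?_
        have h4 := congrFun ht x
        change ((l (αt x) * (l x)⁻¹ : ℂˣ) : ℂ) = (((1 : ℂˣ) * (1 : ℂˣ)⁻¹ : ℂˣ) : ℂ)
        have h5 : l (αt x) = l x := Units.ext h4
        rw [h5]
        simp
      exact h2 h3
  · have h1 := classInner_irr_self (G := Q) ⟨_, hθ⟩
    simp only at h1
    intro h2
    exact one_ne_zero (h1.symm.trans h2)

theorem cf_eq (φ : Q ≃* A) (η : F → ℂ) (l : A →* ℂˣ) :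
    cf Q φ η l = classInner (fun x : Q => η x)
      (fun x => (((l.comp φ.toMonoidHom) x : ℂˣ) : ℂ)) := rfl

/-- coefficients of characters containing `Q` in their kernel -/
theorem cf_triv (hA : ∀ x y : A, x * y = y * x) {η : F → ℂ} (h : ∀ x ∈ Q, η x = η 1)
    (φ : Q ≃* A) (l : A →* ℂˣ) (hl : l ≠ 1) : cf Q φ η l = 0 := by
  haveI := finite_dual hA
  haveI : Fintype (A →* ℂˣ) := Fintype.ofFinite _
  rw [cf]
  have h1 : ∀ x : Q, η x * conj ((l (φ x) : ℂˣ) : ℂ) =
      η 1 * (((l⁻¹) (φ x) : ℂˣ) : ℂ) := by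
    intro x
    rw [h x x.2, conj_hom, MonoidHom.inv_apply, map_inv]
  rw [Finset.sum_congr rfl fun x _ => h1 x, ← Finset.mul_sum]
  have h2 : ∑ x : Q, (((l⁻¹) (φ x) : ℂˣ) : ℂ) = ∑ x : A, (((l⁻¹) x : ℂˣ) : ℂ) :=
    Fintype.sum_equiv φ.toEquiv _ _ fun x => rfl
  rw [h2, NilDat.sum_hom_eq_zero, mul_zero, mul_zero]
  intro h3
  apply hl
  refine MonoidHom.ext fun x => ?_
  have h4 := DFunLike.congr_fun h3 x
  change (l x)⁻¹ = 1 at h4
  exact inv_eq_one.1 h4

theorem cf_triv_one {η : F → ℂ} (h : ∀ x ∈ Q, η x = η 1) (φ : Q ≃* A) :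
    cf Q φ η 1 = η 1 := by
  rw [cf]
  have h1 : ∀ x : Q, η x * conj (((1 : A →* ℂˣ) (φ x) : ℂˣ) : ℂ) = η 1 := by
    intro x
    rw [h x x.2]
    simp
  rw [Finset.sum_congr rfl fun x _ => h1 x, Finset.sum_const, nsmul_eq_mul, Finset.card_univ,
    ← Nat.card_eq_fintype_card, ← mul_assoc, inv_mul_cancel₀, one_mul]
  exact Char.card_ne_zero_complex Q

/-- the other characters are induced -/
theorem exists_ind (hQc : ∀ x ∈ Q, x ≠ 1 → Subgroup.centralizer ({x} : Set F) = Q)
    (hcyc : IsCyclic Q) (φ : Q ≃* A) (η : IrrCharacter F)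
    (h : ¬ ∀ x ∈ Q, (η : F → ℂ) x = (η : F → ℂ) 1) :
    ∃ l : A →* ℂˣ, l ≠ 1 ∧
      (η : F → ℂ) = indFun Q (fun x => (((l.comp φ.toMonoidHom) x : ℂˣ) : ℂ)) := by
  classical
  have hab : ∀ x y : Q, x * y = y * x := fun x y =>
    Subtype.ext (Star.comm_of_isCyclic hcyc x x.2 y y.2)
  have hA : ∀ x y : A, x * y = y * x := fun x y => by
    obtain ⟨x, rfl⟩ := φ.surjective x
    obtain ⟨y, rfl⟩ := φ.surjective y
    rw [← map_mul, ← map_mul, hab]
  haveI := finite_dual hA
  haveI : Fintype (A →* ℂˣ) := Fintype.ofFinite _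
  obtain ⟨l, hl, hc⟩ : ∃ l : A →* ℂˣ, l ≠ 1 ∧ cf Q φ (η : F → ℂ) l ≠ 0 := by
    by_contra hcon
    push Not at hcon
    apply h
    have h2 : ∀ x : Q, (η : F → ℂ) x = cf Q φ (η : F → ℂ) 1 := by
      intro x
      rw [inversion hA Q φ (η : F → ℂ) x, Finset.sum_eq_single 1]
      · simp
      · intro l _ hl
        rw [hcon l hl, zero_mul]
      · intro h; exact absurd (Finset.mem_univ _) h
    intro x hx
    rw [h2 ⟨x, hx⟩]
    have := h2 1
    rw [← this]; rfl
  have hl' : l.comp φ.toMonoidHom ≠ 1 := by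
    intro h2
    apply hl
    refine MonoidHom.ext fun x => ?_
    have := DFunLike.congr_fun h2 (φ.symm x)
    change l (φ (φ.symm x)) = 1 at this
    rwa [MulEquiv.apply_symm_apply] at this
  refine ⟨l, hl, ?_⟩
  have hirr := isIrr_ind hQc hcyc hl'
  by_contra hne
  apply hc
  rw [cf_eq, ← Char.frobenius_reciprocity' Q _ _ (irr_isClassFunction η)]
  exact classInner_irr_of_ne (G := F) (χ := η) (ψ := ⟨_, hirr⟩)
    (fun h2 => hne (congrArg Subtype.val h2))

/-- the characters containing `Q` in their kernel are linear -/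
theorem one_of_triv (hq : IsCyclic (F ⧸ Q)) {η : IrrCharacter F}
    (h : ∀ x ∈ Q, (η : F → ℂ) x = (η : F → ℂ) 1) : (η : F → ℂ) 1 = 1 := by
  apply H79.linear_of_commutators
  intro x y
  apply h
  rw [← QuotientGroup.eq_one_iff]
  have hc : ((x : F ⧸ Q)) * (y : F ⧸ Q) = (y : F ⧸ Q) * (x : F ⧸ Q) :=
    (IsCyclic.commGroup (α := F ⧸ Q)).mul_comm _ _
  rw [QuotientGroup.mk_mul, QuotientGroup.mk_mul, QuotientGroup.mk_mul, hc,
    QuotientGroup.mk_inv, QuotientGroup.mk_inv]
  group

/-- the number of characters containing `Q` in their kernel -/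
theorem card_triv (hq : IsCyclic (F ⧸ Q)) :
    Nat.card {η : IrrCharacter F // ∀ x ∈ Q, (η : F → ℂ) x = (η : F → ℂ) 1} = Q.index := by
  have hc : ∀ x y : F ⧸ Q, x * y = y * x := (IsCyclic.commGroup (α := F ⧸ Q)).mul_comm
  rw [Subgroup.index, ← card_dual hc]
  symm
  refine Nat.card_congr (Equiv.ofBijective (fun l : F ⧸ Q →* ℂˣ =>
    (⟨⟨_, isIrr_units (l.comp (QuotientGroup.mk' Q))⟩, fun x hx => by
      change ((l (x : F ⧸ Q) : ℂˣ) : ℂ) = ((l ((1 : F) : F ⧸ Q) : ℂˣ) : ℂ)
      rw [(QuotientGroup.eq_one_iff x).2 hx]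
      rfl⟩ : {η : IrrCharacter F // ∀ x ∈ Q, (η : F → ℂ) x = (η : F → ℂ) 1})) ⟨?_, ?_⟩)
  · intro l l' h
    have h1 := congrArg Subtype.val (congrArg Subtype.val h)
    refine MonoidHom.ext fun z => ?_
    obtain ⟨x, rfl⟩ := QuotientGroup.mk_surjective z
    exact Units.ext (congrFun h1 x)
  · rintro ⟨η, hη⟩
    have h1 := one_of_triv hq hη
    have hker : Q ≤ (Char.linHom (irr_isCharacter η) h1).toHomUnits.ker := by
      intro x hx
      rw [MonoidHom.mem_ker]
      apply Units.ext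
      change (η : F → ℂ) x = 1
      rw [hη x hx, h1]
    refine ⟨QuotientGroup.lift Q (Char.linHom (irr_isCharacter η) h1).toHomUnits hker, ?_⟩
    apply Subtype.ext
    apply Subtype.ext
    funext x
    rfl

end irrF

end Cfsg.Agent.Cyc
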