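import Cfsg.Agent.Cyc.FrobF

/-!
# The perfect isometry between the Frobenius group and a block with cyclic defect group
-/

set_option autoImplicit false
set_option linter.unusedSectionVars false
set_option linter.style.haveILetI false

universe u v w

namespace Cfsg.Agent.Cyc

open scoped ComplexConjugate
open MonoidAlgebra Cfsg Cfsg.Agent.Blk Cfsg.Agent.BlkF Cfsg.Agent.Star Cfsg.Agent.CharBase
  Cfsg.Agent.BlkC

section equivariance
variable {G : Type u} [Group G] [Fintype G] {p : ℕ} [hp : Fact p.Prime] {M : Ideal AlgInt}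
  [hMp : M.IsPrime] {H : Subgroup G} [Fintype H] {f : Set (IrrCharacter H)} {D : Subgroup G}
  {e : MonoidAlgebra (kM M) G}

/-- equivariance of the parametrization based at a fixed character -/
theorem cjI_ch {P : Subgroup H} (hP : P = D.subgroupOf H)
    {e' : MonoidAlgebra (kM M) H} (he' : e' = Blk.res H e) (S : NilSetup p M f P e')
    [Fintype P] [Fintype (P →* ℂˣ)]
    {χ₀ : IrrCharacter H} (d : NilDat p M f P)
    (hd : ∀ l, (d.ch l : H → ℂ) = wstar p (wt p P e' (lext P l)) (χ₀ : H → ℂ))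
    {t : G} (htD : t ∈ Subgroup.normalizer (D : Set G)) (hte : Blk.cj t e = e)
    (htH : t ∈ Subgroup.normalizer (H : Set G)) (hfix : CycG.cjI t χ₀ = χ₀)
    (αP : P ≃* P) (hαP' : ∀ x : P, (((αP x : P) : H) : G) = t * ((x : H) : G) * t⁻¹)
    (l : P →* ℂˣ) : CycG.cjI t (d.ch (l.comp αP.toMonoidHom)) = d.ch l := by
  classical
  set α := normConj H htH with hα
  have hαP : P.map α.toMonoidHom = P := by rw [hP]; exact map_normConj_subgroupOf htH htD
  have hαe : tm α e' = e' := by rw [he']; exact tm_normConj htH hte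
  have hmem : ∀ h : H, α h ∈ P ↔ h ∈ P := by
    intro h
    rw [hP, Subgroup.mem_subgroupOf, Subgroup.mem_subgroupOf]
    exact (Subgroup.mem_normalizer_iff.1 htD h).symm
  have hαPv : ∀ x : P, ((αP x : P) : H) = α x := fun x => Subtype.ext (hαP' x)
  have hlext : (fun h : H => lext P l (α h)) = lext P (l.comp αP.toMonoidHom) := by
    funext h
    by_cases hh : h ∈ P
    · rw [lext_of_mem _ ((hmem h).2 hh), lext_of_mem _ hh]
      have h5 : (⟨α h, (hmem h).2 hh⟩ : P) = αP ⟨h, hh⟩ := Subtype.ext (hαPv ⟨h, hh⟩).symm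
      rw [h5]
      rfl
    · rw [lext, dif_neg (fun h2 => hh ((hmem h).1 h2)), lext, dif_neg hh]
  have hcomp : (fun h : H => (CycG.cjI t χ₀ : H → ℂ) (α h)) = (χ₀ : H → ℂ) := by
    funext h
    exact CycG.cjI_apply htH χ₀ h (α h) rfl
  apply Subtype.ext
  funext g'
  obtain ⟨g, rfl⟩ := α.surjective g'
  rw [CycG.cjI_apply htH _ g (α g) rfl]
  calc (d.ch (l.comp αP.toMonoidHom) : H → ℂ) g
      = wstar p (wt p P e' (lext P (l.comp αP.toMonoidHom))) (χ₀ : H → ℂ) g :=
        congrFun (hd _) g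
    _ = wstar p (wt p P e' (fun h => lext P l (α h)))
        (fun h : H => (CycG.cjI t χ₀ : H → ℂ) (α h)) g := by rw [hlext, hcomp]
    _ = wstar p (wt p P e' (lext P l)) (CycG.cjI t χ₀ : H → ℂ) (α g) :=
        (wstar_wt_tm α hαP hαe (S.stable _) _ g).symm
    _ = (d.ch l : H → ℂ) (α g) := by rw [hfix, hd]

end equivariance

section mlrG
variable {G : Type u} [Group G] [Fintype G] {p : ℕ} [hp : Fact p.Prime] {M : Ideal AlgInt}
  [hMp : M.IsPrime] {B : Set (IrrCharacter G)} {P : Subgroup G} {e : MonoidAlgebra (kM M) G}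

theorem NilSetup.mlr_G (S : NilSetup p M B P e) [Fintype P] [Fintype (P →* ℂˣ)]
    {χ₁ : IrrCharacter G} (nd : NilDat p M B P)
    (hnd : ∀ l, (nd.ch l : G → ℂ) = wstar p (wt p P e (lext P l)) (χ₁ : G → ℂ)) (y : P) (g : G) :
    MemLocalRing M ((Nat.card P : ℂ)⁻¹ * nd.G y g) := by
  have h1 := S.sum_lstar_weight y (χ₁ : G → ℂ) g
  have h2 : nd.G y g = ∑ l : P →* ℂˣ, ((l y : ℂˣ) : ℂ) *
      wstar p (wt p P e (lext P l)) (χ₁ : G → ℂ) g := by
    unfold NilDat.G
    exact Finset.sum_congr rfl fun l _ => by rw [hnd]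
  rw [h2, h1, ← mul_assoc, inv_mul_cancel₀ (Char.card_ne_zero_complex P), one_mul]
  exact NilSetup.mlr_wstar (S.mlr_wt_ite _) _ _

end mlrG

section auts

variable {G : Type u} [Group G] [Finite G]

/-- the action of a subgroup `T ≤ N(D)` on `D`, transported -/
noncomputable def autHom {D T : Subgroup G} (hT : T ≤ Subgroup.normalizer (D : Set G))
    {A : Type*} [Group A] (j : D ≃* A) : T →* MulAut A :=
  (MulAut.congr j).toMonoidHom.comp (D.normalizerMonoidHom.comp (Subgroup.inclusion hT))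

theorem autHom_apply {D T : Subgroup G} (hT : T ≤ Subgroup.normalizer (D : Set G))
    {A : Type*} [Group A] (j : D ≃* A) (t : T) (x : A) :
    ((j.symm (autHom hT j t x) : D) : G) = t * (j.symm x : D) * (t : G)⁻¹ := by
  have h1 : autHom hT j t x = j (D.normalizerMonoidHom (Subgroup.inclusion hT t) (j.symm x)) :=
    rfl
  rw [h1, MulEquiv.symm_apply_apply]
  rfl

theorem card_range_autHom {D T : Subgroup G} (hT : T ≤ Subgroup.normalizer (D : Set G))
    {A : Type*} [Group A] (j : D ≃* A) :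
    Nat.card (autHom hT j).range = (Subgroup.centralizer (D : Set G)).relIndex T := by
  rw [← Subgroup.index_ker, Subgroup.relIndex]
  congr 1
  ext t
  rw [MonoidHom.mem_ker, Subgroup.mem_subgroupOf]
  change (MulAut.congr j) (D.normalizerMonoidHom (Subgroup.inclusion hT t)) = 1 ↔ _
  rw [map_eq_one_iff _ (MulAut.congr j).injective, ← MonoidHom.mem_ker,
    Subgroup.normalizerMonoidHom_ker, Subgroup.mem_subgroupOf]
  rfl

end auts

section quot
variable {F : Type v} [Group F] [Fintype F] {p a e : ℕ}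

theorem frob_quot (hp : p.Prime) (he : e ∣ p - 1) {Q : Subgroup F} [hn : Q.Normal]
    (hcyc : IsCyclic Q) (hQ : Nat.card Q = p ^ a) (hF : Nat.card F = Nat.card Q * e)
    (hQC : Subgroup.centralizer (Q : Set F) = Q) : IsCyclic (F ⧸ Q) := by
  by_cases h2 : p = 2
  · subst h2
    have he1 : e = 1 := Nat.dvd_one.1 he
    have h3 : Nat.card (F ⧸ Q) = 1 := by rw [← he1]; exact frob_index hF
    haveI : Subsingleton (F ⧸ Q) := (Nat.card_eq_one_iff_unique.1 h3).1
    exact isCyclic_of_subsingleton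
  · haveI := ZMod.isCyclic_units_of_prime_pow p hp h2 a
    have hcyc' : IsCyclic (MulAut Q) := by
      have e1 := IsCyclic.mulAutMulEquiv Q
      rw [hQ] at e1
      exact isCyclic_of_injective e1.toMonoidHom e1.injective
    let r : F →* MulAut Q := MulAut.conjNormal
    have hr : r.ker = Q := by
      conv_rhs => rw [← hQC]
      ext t
      rw [MonoidHom.mem_ker, Subgroup.mem_centralizer_iff]
      constructor
      · intro h x hx
        have h1 := congrArg Subtype.val (DFunLike.congr_fun h (⟨x, hx⟩ : Q))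
        have h4 : t * x * t⁻¹ = x := h1
        calc x * t = t * x * t⁻¹ * t := by rw [h4]
          _ = t * x := by group
      · intro h
        refine MulEquiv.ext fun x => Subtype.ext ?_
        change t * (x : F) * t⁻¹ = x
        rw [← h x x.2]
        group
    have hinj : Function.Injective ((QuotientGroup.kerLift r).comp
        (QuotientGroup.quotientMulEquivOfEq hr.symm).toMonoidHom) := by
      rw [MonoidHom.coe_comp]
      exact (QuotientGroup.kerLift_injective r).comp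
        (QuotientGroup.quotientMulEquivOfEq hr.symm).injective
    exact isCyclic_of_injective _ hinj

end quot

section main
variable {G : Type u} [Group G] [Fintype G] {p : ℕ} [hp : Fact p.Prime] {M : Ideal AlgInt}
  [hMp : M.IsPrime] {F : Type v} [Group F] [Fintype F]

/-- **The perfect isometry** `Irr F → B`. -/
theorem exists_perfect (hM : IsPModular p M) {B : Set (IrrCharacter G)} (hB : IsPBlock M B)
    {D : Subgroup G} (hD : IsCyclic D) {a : ℕ} (ha : 1 ≤ a) (hDa : Nat.card D = p ^ a)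
    (hBD : IsDefectGroup p M B D)
    {c : Set (IrrCharacter (Subgroup.centralizer (D : Set G)))}
    (hc : IsInducedBlock M (Subgroup.centralizer (D : Set G)) c B) {e : ℕ}
    (he : (Subgroup.centralizer (D : Set G)).relIndex
      (stab (Subgroup.normalizer (D : Set G)) (EB M _ c)) = e)
    (hF : Nat.card F = Nat.card D * e) (Q : Subgroup F) (hQ : IsCyclic Q)
    (hQcard : Nat.card Q = Nat.card D) (hQC : Subgroup.centralizer (Q : Set F) = Q) :
    ∃ (I : IrrCharacter F → IrrCharacter G) (ε : IrrCharacter F → ℤ),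
      IsPerfectIsometry p M (Set.univ : Set (IrrCharacter F)) B I ε ∧
      ∀ η η' : IrrCharacter F, (∃ x ∈ Q, (η : F → ℂ) x ≠ (η : F → ℂ) 1) →
        (∃ x ∈ Q, (η' : F → ℂ) x ≠ (η' : F → ℂ) 1) → ε η = ε η' := by
  classical
  have hpp : p.Prime := hp.out
  haveI : Fintype Q := Fintype.ofFinite Q
  obtain ⟨D₁, f, χ₁, cd, hcard, hidx, hrank, hle, hS⟩ := exists_data2 hM hB hD ha hDa hBD hc
  haveI : Fintype (Subgroup.centralizer (D₁ : Set G)) := Fintype.ofFinite _
  obtain ⟨S, hdefS, hnilp⟩ := hS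
  haveI := charP_kM hM
  obtain ⟨hb, hmax, -⟩ := mmax_of_isInducedBlock hM hB hBD hc
  have hab := comm_of_isCyclic hD
  obtain ⟨A, hA⟩ : ∃ A : Subgroup (Subgroup.centralizer (D₁ : Set G)),
      A = D.subgroupOf (Subgroup.centralizer (D₁ : Set G)) := ⟨_, rfl⟩
  rw [← hA] at S hdefS
  have hDC := cd.D_le_C
  have hAc : ∀ x y : A, x * y = y * x := fun x y => Subtype.ext (S.comm x x.2 y y.2)
  haveI : Fintype A := Fintype.ofFinite A
  haveI := finite_dual hAc
  haveI : Fintype (A →* ℂˣ) := Fintype.ofFinite _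
  obtain ⟨nd, hnd1, hnd⟩ := S.exists_nilDat hdefS hnilp cd.one_mem
  have hedvd : e ∣ p - 1 := by rw [← he, ← hidx]; exact cd.relIndex_dvd
  have hQa : Nat.card Q = p ^ a := by rw [hQcard, hDa]
  have hFQ : Nat.card F = Nat.card Q * e := by rw [hQcard, hF]
  haveI hn : Q.Normal := frob_normal hpp hedvd hQa hFQ
  -- the isomorphisms
  let j : D ≃* A := (Subgroup.subgroupOfEquivOfLe hDC).symm.trans
    (MulEquiv.subgroupCongr hA.symm)
  have hj : ∀ x : A, ((j.symm x : D) : G) = ((x : Subgroup.centralizer (D₁ : Set G)) : G) :=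
    fun x => rfl
  have hAcard : Nat.card A = p ^ a := by rw [← hDa]; exact Nat.card_congr j.symm.toEquiv
  haveI hAcyc : IsCyclic A := isCyclic_of_injective j.symm.toMonoidHom j.symm.injective
  let φ : Q ≃* A := mulEquivOfCyclicCardEq (by rw [hQa, hAcard])
  -- the nonexceptional part
  have hndeg : ∃ χ ∈ f, χ ≠ χ₁ := by
    by_contra hcon
    push Not at hcon
    have h1 : f ⊆ {χ₁} := fun χ hχ => hcon χ hχ
    have h2 : Nat.card f ≤ 1 := by
      rw [Nat.card_coe_set_eq]
      exact (Set.ncard_le_ncard h1).trans (Set.ncard_singleton _).le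
    rw [hcard, hDa] at h2
    have h3 : p ≤ p ^ a := Nat.le_self_pow (by omega) p
    have h4 := hpp.one_lt
    omega
  obtain ⟨ψ0, -⟩ := isPBlock_nonempty hB
  obtain ⟨θ, εB, δ, o, -⟩ := cd.main hM (by rw [hidx]; exact hrank) hndeg ψ0
  set T := stab (Subgroup.normalizer (D : Set G)) (EB M _ c) with hTdef
  set T₁ := stab (Subgroup.normalizer (D₁ : Set G)) (EB M _ f) with hT₁def
  have hTN : T ≤ Subgroup.normalizer (D : Set G) := stab_le _ _
  have hTT₁ : T ≤ T₁ := fun g hg =>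
    stab_inf_normalizer_le hmax.1 hle ⟨hg, normalizer_le_of_isCyclic hD hle.le hg.1⟩
  have hfac : ∀ t ∈ T₁, ∃ s ∈ T, ∃ z ∈ Subgroup.centralizer (D₁ : Set G), t = s * z :=
    fun t ht => stab_factor_of_comm hmax hab hle ht
  have hT₁C : ∀ t ∈ T₁, t ∈ Subgroup.normalizer
      ((Subgroup.centralizer (D₁ : Set G) : Subgroup G) : Set G) := fun t ht => cd.T_le_NC ht
  -- the two groups of automorphisms agree
  have hQN : (⊤ : Subgroup F) ≤ Subgroup.normalizer (Q : Set F) := by
    rw [Subgroup.normalizer_eq_top]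
  have hrange : (autHom hTN j).range = (autHom hQN φ).range := by
    refine eq_of_card_mulAut hpp hAcyc hAcard hedvd ?_ ?_
    · rw [card_range_autHom, he]
    · rw [card_range_autHom, hQC, Subgroup.relIndex_top_right, frob_index hFQ]
  -- conjugation of the parametrized characters
  have hconj : ∀ (s : T) (l : A →* ℂˣ),
      CycG.cjI (s : G) (nd.ch (l.comp (autHom hTN j s).toMonoidHom)) = nd.ch l := by
    intro s l
    refine cjI_ch (D := D) (e := EB M _ c) hA rfl S nd hnd s.2.1 s.2.2 (hT₁C s (hTT₁ s.2))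
      (cd.cjI_one' (hTT₁ s.2)) _ (fun x => ?_) l
    rw [← hj, autHom_apply]
    rfl
  let L : (A →* ℂˣ) → Q → ℂ := fun l x => (((l.comp φ.toMonoidHom) x : ℂˣ) : ℂ)
  have hLirr : ∀ l, IsIrrCharacter Q (L l) := fun l => isIrr_units (l.comp φ.toMonoidHom)
  -- orbits
  have horb : ∀ m l : A →* ℂˣ, (∃ t ∈ T₁, CycG.cjI t (nd.ch m) = nd.ch l) ↔
      indFun Q (L m) = indFun Q (L l) := by
    have hcjQ : ∀ (t : F) (l : A →* ℂˣ), Char.cj Q t (L l) =
        L (l.comp (autHom hQN φ ⟨t, Subgroup.mem_top t⟩).toMonoidHom) := by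
      intro t l
      funext x
      change ((l (φ ⟨t * x * t⁻¹, _⟩) : ℂˣ) : ℂ) =
        ((l (autHom hQN φ ⟨t, Subgroup.mem_top t⟩ (φ x)) : ℂˣ) : ℂ)
      congr 2
      rw [← φ.symm.injective.eq_iff, MulEquiv.symm_apply_apply]
      apply Subtype.ext
      rw [autHom_apply, MulEquiv.symm_apply_apply]
    intro m l
    constructor
    · rintro ⟨t, ht, h⟩
      obtain ⟨s, hs, z, hz, rfl⟩ := hfac t ht
      rw [CycG.cjI_mul (hT₁C s (hTT₁ hs)) (Subgroup.le_normalizer hz),
        CycG.cjI_of_mem hz] at h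
      have h1 := hconj ⟨s, hs⟩ l
      have h2 : nd.ch m = nd.ch (l.comp (autHom hTN j ⟨s, hs⟩).toMonoidHom) :=
        CycG.cjI_inj (hT₁C s (hTT₁ hs)) (h.trans h1.symm)
      have h3 := nd.inj h2
      obtain ⟨t', ht'⟩ : autHom hTN j ⟨s, hs⟩ ∈ (autHom hQN φ).range := by
        rw [← hrange]; exact ⟨_, rfl⟩
      symm
      rw [Coh.indFun_eq_iff Q (hLirr l) (hLirr m)]
      refine ⟨(t' : F), ?_⟩
      rw [hcjQ, h3, ← ht']
    · intro h
      obtain ⟨t', ht'⟩ := (Coh.indFun_eq_iff Q (hLirr l) (hLirr m)).1 h.symm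
      obtain ⟨s, hs⟩ : autHom hQN φ ⟨t', Subgroup.mem_top t'⟩ ∈ (autHom hTN j).range := by
        rw [hrange]; exact ⟨_, rfl⟩
      refine ⟨s, hTT₁ s.2, ?_⟩
      have h3 : m = l.comp (autHom hTN j s).toMonoidHom := by
        rw [hcjQ, ← hs] at ht'
        refine MonoidHom.ext fun x => Units.ext ?_
        have := congrFun ht' (φ.symm x)
        change ((l (autHom hTN j s (φ (φ.symm x))) : ℂˣ) : ℂ) = ((m (φ (φ.symm x)) : ℂˣ) : ℂ)
          at this
        rw [MulEquiv.apply_symm_apply] at this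
        exact this.symm
      rw [h3]
      exact hconj s l
  -- centralizers in `F`
  have hQc : ∀ x ∈ Q, x ≠ 1 → Subgroup.centralizer ({x} : Set F) = Q := fun x hx hx1 =>
    frob_cent hpp hedvd hQ hQa hFQ hQC hx hx1
  have hLne : ∀ {l : A →* ℂˣ}, l ≠ 1 → l.comp φ.toMonoidHom ≠ 1 := by
    intro l hl h2
    apply hl
    refine MonoidHom.ext fun x => ?_
    have := DFunLike.congr_fun h2 (φ.symm x)
    change l (φ (φ.symm x)) = 1 at this
    rwa [MulEquiv.apply_symm_apply] at this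
  have hLind : ∀ {l : A →* ℂˣ}, l ≠ 1 → IsIrrCharacter F (indFun Q (L l)) := fun hl =>
    isIrr_ind hQc hQ (hLne hl)
  have hLinj : ∀ {l m : A →* ℂˣ}, L l = L m → l = m := by
    intro l m h
    refine MonoidHom.ext fun x => Units.ext ?_
    have := congrFun h (φ.symm x)
    change ((l (φ (φ.symm x)) : ℂˣ) : ℂ) = ((m (φ (φ.symm x)) : ℂˣ) : ℂ) at this
    rwa [MulEquiv.apply_symm_apply] at this
  -- coefficients of the induced characters
  have hcfind : ∀ {m l : A →* ℂˣ}, m ≠ 1 → cf Q φ (indFun Q (L m)) l =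
      if indFun Q (L m) = indFun Q (L l) then 1 else 0 := by
    intro m l hm
    have h1 : cf Q φ (indFun Q (L m)) l = classInner (indFun Q (L m)) (indFun Q (L l)) := by
      rw [cf_eq, Char.frobenius_reciprocity' Q _ _ (Char.indFun_isClassFunction Q _)]
    rw [h1]
    split_ifs with h
    · rw [← h]
      exact classInner_irr_self (G := F) ⟨_, hLind hm⟩
    · by_contra h2
      obtain ⟨t, ht⟩ := Coh.exists_cj_of_inner_ne Q (hLirr m) (hLirr l) h2
      exact h ((Coh.indFun_eq_iff Q (hLirr m) (hLirr l)).2 ⟨t, ht⟩)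
  have hne1 : ∀ {m : A →* ℂˣ}, m ≠ 1 → indFun Q (L m) ≠ indFun Q (L 1) := by
    intro m hm h
    obtain ⟨t, ht⟩ := (Coh.indFun_eq_iff Q (hLirr m) (hLirr 1)).1 h
    apply hm
    apply hLinj
    funext x
    have h1 : (1 : A →* ℂˣ) = 1 := rfl
    have h2 := congrFun ht (MulAut.conjNormal t⁻¹ x)
    have h3 : (Char.cj Q t (L m)) (MulAut.conjNormal t⁻¹ x) = L m x := by
      rw [Char.cj_apply]
      congr 1
      apply Subtype.ext
      change t * (t⁻¹ * (x : F) * (t⁻¹)⁻¹) * t⁻¹ = x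
      group
    rw [h3] at h2
    rw [h2]
    simp [L]
  -- the cyclic quotient
  haveI hFq : IsCyclic (F ⧸ Q) := frob_quot hpp hedvd hQ hQa hFQ hQC
  -- nonexceptional characters
  let XF := {η : IrrCharacter F // ∀ x ∈ Q, (η : F → ℂ) x = (η : F → ℂ) 1}
  let XB := {ψ : IrrCharacter G // ψ ∈ B ∧ ∀ χ ∈ f, χ ≠ χ₁ → ψ ≠ θ χ}
  have hXcard : Nat.card XF = Nat.card XB := by
    rw [card_triv hFq, frob_index hFQ, o.card_X, hidx, he]
  haveI : Finite (IrrCharacter F) := inferInstance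
  haveI : Finite (IrrCharacter G) := inferInstance
  haveI : Finite XF := inferInstance
  haveI : Finite XB := inferInstance
  obtain ⟨β⟩ : Nonempty (XF ≃ XB) := Finite.card_eq.1 hXcard
  have hex : ∀ η : IrrCharacter F, ∃ l : A →* ℂˣ,
      (¬ ∀ x ∈ Q, (η : F → ℂ) x = (η : F → ℂ) 1) → l ≠ 1 ∧ (η : F → ℂ) = indFun Q (L l) := by
    intro η
    by_cases h : ∀ x ∈ Q, (η : F → ℂ) x = (η : F → ℂ) 1
    · exact ⟨1, fun h2 => absurd h h2⟩
    · obtain ⟨l, hl⟩ := exists_ind hQc hQ φ η h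
      exact ⟨l, fun _ => hl⟩
  choose lam hlam using hex
  let I : IrrCharacter F → IrrCharacter G := fun η =>
    if h : ∀ x ∈ Q, (η : F → ℂ) x = (η : F → ℂ) 1 then (β ⟨η, h⟩ : IrrCharacter G)
    else θ (nd.ch (lam η))
  let ε : IrrCharacter F → ℤ := fun η =>
    if h : ∀ x ∈ Q, (η : F → ℂ) x = (η : F → ℂ) 1 then εB (I η) else - δ
  have hI1 : ∀ (η : IrrCharacter F) (h : ∀ x ∈ Q, (η : F → ℂ) x = (η : F → ℂ) 1),
      I η = (β ⟨η, h⟩ : IrrCharacter G) := fun η h => dif_pos h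
  have hI2 : ∀ (η : IrrCharacter F) (h : ¬ ∀ x ∈ Q, (η : F → ℂ) x = (η : F → ℂ) 1),
      I η = θ (nd.ch (lam η)) := fun η h => dif_neg h
  have hchmem : ∀ l, nd.ch l ∈ f := fun l => (nd.mem _).2 ⟨l, rfl⟩
  have hchne : ∀ {l : A →* ℂˣ}, l ≠ 1 → nd.ch l ≠ χ₁ := by
    intro l hl h
    rw [← hnd1] at h
    exact hl (nd.inj h)
  have hθ : ∀ {l m : A →* ℂˣ}, l ≠ 1 → m ≠ 1 →
      (θ (nd.ch l) = θ (nd.ch m) ↔ indFun Q (L l) = indFun Q (L m)) := by
    intro l m hl hm
    rw [o.eq_iff _ (hchmem l) (hchne hl) _ (hchmem m) (hchne hm), ← horb]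
  have hnotriv : ∀ {l : A →* ℂˣ} (hl : l ≠ 1),
      ¬ ∀ x ∈ Q, (indFun Q (L l)) x = (indFun Q (L l)) 1 := by
    intro l hl h
    have h1 := cf_triv hAc h φ l hl
    rw [hcfind hl, if_pos rfl] at h1
    exact one_ne_zero h1
  have hBij : Set.BijOn I Set.univ B := by
    refine ⟨?_, ?_, ?_⟩
    · intro η _
      by_cases h : ∀ x ∈ Q, (η : F → ℂ) x = (η : F → ℂ) 1
      · rw [hI1 η h]; exact (β ⟨η, h⟩).2.1
      · rw [hI2 η h]; exact o.mem _ (hchmem _) (hchne (hlam η h).1)
    · intro η _ η' _ hηη'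
      by_cases h : ∀ x ∈ Q, (η : F → ℂ) x = (η : F → ℂ) 1
      · by_cases h' : ∀ x ∈ Q, (η' : F → ℂ) x = (η' : F → ℂ) 1
        · rw [hI1 η h, hI1 η' h'] at hηη'
          exact congrArg Subtype.val (β.injective (Subtype.ext hηη'))
        · rw [hI1 η h, hI2 η' h'] at hηη'
          exact absurd hηη' ((β ⟨η, h⟩).2.2 _ (hchmem _) (hchne (hlam η' h').1))
      · by_cases h' : ∀ x ∈ Q, (η' : F → ℂ) x = (η' : F → ℂ) 1
        · rw [hI2 η h, hI1 η' h'] at hηη'
          exact absurd hηη'.symm ((β ⟨η', h'⟩).2.2 _ (hchmem _) (hchne (hlam η h).1))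
        · rw [hI2 η h, hI2 η' h', hθ (hlam η h).1 (hlam η' h').1] at hηη'
          exact Subtype.ext ((hlam η h).2.trans (hηη'.trans (hlam η' h').2.symm))
    · intro ψ hψ
      by_cases hex : ∃ χ ∈ f, χ ≠ χ₁ ∧ ψ = θ χ
      · obtain ⟨χ, hχ, hne, rfl⟩ := hex
        obtain ⟨l, rfl⟩ := (nd.mem χ).1 hχ
        have hl : l ≠ 1 := by
          rintro rfl
          exact hne hnd1
        refine ⟨⟨_, hLind hl⟩, Set.mem_univ _, ?_⟩
        have h3 : ¬ ∀ x ∈ Q, ((⟨_, hLind hl⟩ : IrrCharacter F) : F → ℂ) x =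
            ((⟨_, hLind hl⟩ : IrrCharacter F) : F → ℂ) 1 := hnotriv hl
        rw [hI2 _ h3, hθ (hlam _ h3).1 hl]
        exact (hlam _ h3).2.symm
      · push Not at hex
        refine ⟨(β.symm ⟨ψ, hψ, hex⟩ : IrrCharacter F), Set.mem_univ _, ?_⟩
        rw [hI1 _ (β.symm ⟨ψ, hψ, hex⟩).2]
        have h4 : (⟨(β.symm ⟨ψ, hψ, hex⟩ : IrrCharacter F), (β.symm ⟨ψ, hψ, hex⟩).2⟩ : XF) =
            β.symm ⟨ψ, hψ, hex⟩ := rfl
        rw [h4, Equiv.apply_symm_apply]
  have hε : ∀ η, ε η = 1 ∨ ε η = -1 := by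
    intro η
    by_cases h : ∀ x ∈ Q, (η : F → ℂ) x = (η : F → ℂ) 1
    · have : ε η = εB (I η) := if_pos h
      rw [this]; exact o.eps _
    · have : ε η = - δ := if_neg h
      rw [this]
      rcases o.delta with h | h <;> rw [h] <;> simp
  refine ⟨I, ε, ⟨hBij, fun η _ => hε η, ?_⟩, ?_⟩
  · refine perfect_kernel hM cd o.sing nd hnd1 hAc ?_ Q φ ?_ ?_ ?_ I ε hBij hε ?_
    · intro y g
      exact S.mlr_G nd hnd y g
    · intro y hy
      exact frob_sing hpp hedvd hQ hQa hFQ hQC hy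
    · intro y hy hyr
      by_contra hy1
      apply hyr
      have h1 : orderOf (⟨y, hy⟩ : Q) ∣ p ^ a := by rw [← hQa]; exact orderOf_dvd_natCard _
      rw [Subgroup.orderOf_mk] at h1
      obtain ⟨k, -, hk⟩ := (Nat.dvd_prime_pow hpp).1 h1
      rw [hk]
      apply dvd_pow_self
      rintro rfl
      rw [pow_zero, orderOf_eq_one_iff] at hk
      exact hy1 hk
    · intro y hy hy1
      rw [hQc y hy hy1]
    · intro η l hl
      by_cases h : ∀ x ∈ Q, (η : F → ℂ) x = (η : F → ℂ) 1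
      · have e1 : ε η = εB (I η) := if_pos h
        rw [cf_triv hAc h φ l hl, cf_triv_one h φ, one_of_triv hFq h, e1, sub_zero, mul_one]
        rw [o.nonexc _ (hBij.1 (Set.mem_univ η)) (by rw [hI1 η h]; exact (β ⟨η, h⟩).2.2) _
          (hchmem l) (hchne hl)]
      · have e1 : ε η = - δ := if_neg h
        obtain ⟨k1, k2⟩ := hlam η h
        rw [e1, hI2 η h, k2, hcfind k1, hcfind k1, if_neg (hne1 k1)]
        by_cases h3 : indFun Q (L (lam η)) = indFun Q (L l)
        · rw [if_pos h3, o.exc _ (hchmem _) (hchne k1) _ (hchmem l) (hchne hl)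
            ((horb _ _).2 h3)]
          push_cast
          ring
        · rw [if_neg h3, o.exc' _ (hchmem _) (hchne k1) _ (hchmem l) (hchne hl)
            (fun h4 => h3 ((horb _ _).1 h4))]
          push_cast
          ring
  · rintro η η' ⟨x, hx, hne⟩ ⟨x', hx', hne'⟩
    have h1 : ε η = - δ := if_neg fun h => hne (h x hx)
    have h2 : ε η' = - δ := if_neg fun h => hne' (h x' hx')
    rw [h1, h2]

end main

end Cfsg.Agent.Cyc
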