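import Cfsg.Agent.H37.ZMain
import Cfsg.Agent.H37.RegKernel
import Cfsg.Agent.H37.RegNormal
import Cfsg.Agent.H74.PrimeAbs
import Cfsg.Agent.H12.PrimeDegreeC

/-!
# Translates of a fixed point set in a doubly transitive group
-/

set_option autoImplicit false
set_option linter.unusedSectionVars false

namespace Cfsg.Agent.Cyc

open MulAction

section count

variable {G Ω : Type*} [Group G] [MulAction G Ω] [Fintype Ω] [DecidableEq Ω]

theorem lambda_count (h2 : IsMultiplyPretransitive G Ω 2) (F : Finset Ω) (T : Finset (Finset Ω))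
    (hT : ∀ S, S ∈ T ↔ ∃ g : G, S = F.image (fun x => g • x)) {a b : Ω} (hab : a ≠ b) :
    T.card * (F.card * F.card - F.card) = (Fintype.card Ω * Fintype.card Ω - Fintype.card Ω) *
      (T.filter (fun S => a ∈ S ∧ b ∈ S)).card := by
  classical
  have himg : ∀ g : G, Function.Injective (fun S : Finset Ω => S.image (fun x => g • x)) :=
    fun g => Finset.image_injective (MulAction.injective g)
  have hTg : ∀ g : G, ∀ S ∈ T, S.image (fun x => g • x) ∈ T := by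
    intro g S hS
    obtain ⟨k, rfl⟩ := (hT S).1 hS
    refine (hT _).2 ⟨g * k, ?_⟩
    rw [Finset.image_image]
    congr 1
    funext x
    exact (mul_smul g k x).symm
  have hle : ∀ a b c d : Ω, a ≠ b → c ≠ d →
      (T.filter (fun S => a ∈ S ∧ b ∈ S)).card ≤ (T.filter (fun S => c ∈ S ∧ d ∈ S)).card := by
    intro a b c d hab hcd
    obtain ⟨g, hga, hgb⟩ := is_two_pretransitive_iff.1 h2 hab hcd
    refine Finset.card_le_card_of_injOn (fun S => S.image (fun x => g • x)) ?_ (himg g).injOn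
    intro S hS
    rw [Finset.mem_coe, Finset.mem_filter] at hS
    rw [Finset.mem_coe, Finset.mem_filter]
    exact ⟨hTg g S hS.1, Finset.mem_image.2 ⟨a, hS.2.1, hga⟩, Finset.mem_image.2 ⟨b, hS.2.2, hgb⟩⟩
  have hcard : ∀ S ∈ T, S.card = F.card := by
    intro S hS
    obtain ⟨k, rfl⟩ := (hT S).1 hS
    exact Finset.card_image_of_injective _ (MulAction.injective k)
  have h1 : ∑ S ∈ T, (S.offDiag).card = ∑ x ∈ (Finset.univ : Finset Ω).offDiag,
      (T.filter (fun S => x.1 ∈ S ∧ x.2 ∈ S)).card := by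
    have e1 : ∀ S ∈ T, (S.offDiag).card = ∑ x ∈ (Finset.univ : Finset Ω).offDiag,
        if (x.1 ∈ S ∧ x.2 ∈ S) then 1 else 0 := by
      intro S _
      rw [← Finset.card_filter]
      congr 1
      ext ⟨x, y⟩
      simp only [Finset.mem_offDiag, Finset.mem_filter, Finset.mem_univ, true_and]
      tauto
    rw [Finset.sum_congr rfl e1, Finset.sum_comm]
    refine Finset.sum_congr rfl fun x _ => ?_
    rw [Finset.card_filter]
  have h3 : ∑ S ∈ T, (S.offDiag).card = T.card * (F.card * F.card - F.card) := by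
    rw [Finset.sum_congr rfl (fun S hS => by rw [Finset.offDiag_card, hcard S hS]),
      Finset.sum_const, smul_eq_mul]
  have h4 : ∑ x ∈ (Finset.univ : Finset Ω).offDiag, (T.filter (fun S => x.1 ∈ S ∧ x.2 ∈ S)).card =
      (Fintype.card Ω * Fintype.card Ω - Fintype.card Ω) *
      (T.filter (fun S => a ∈ S ∧ b ∈ S)).card := by
    rw [Finset.sum_congr rfl (fun x hx => ?_), Finset.sum_const, Finset.offDiag_card, smul_eq_mul,
      Finset.card_univ]
    rw [Finset.mem_offDiag] at hx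
    exact le_antisymm (hle _ _ _ _ hx.2.2 hab) (hle _ _ _ _ hab hx.2.2)
  rw [← h3, h1, h4]

theorem lambda_dvd (h2 : IsMultiplyPretransitive G Ω 2) {p : ℕ} (hp : p.Prime)
    (hΩ : Fintype.card Ω = p ^ 2 + 1) (F : Finset Ω) (hF : F.card = p + 1) (T : Finset (Finset Ω))
    (hT : ∀ S, S ∈ T ↔ ∃ g : G, S = F.image (fun x => g • x)) {a b : Ω} (hab : a ≠ b) :
    p + 1 ∣ 2 * (T.filter (fun S => a ∈ S ∧ b ∈ S)).card := by
  have h := lambda_count h2 F T hT hab
  rw [hF, hΩ] at h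
  set l := (T.filter (fun S => a ∈ S ∧ b ∈ S)).card with hl
  have e1 : (p + 1) * (p + 1) - (p + 1) = p * (p + 1) := by
    rw [← Nat.sub_one_mul, Nat.add_sub_cancel]
  have e2 : (p ^ 2 + 1) * (p ^ 2 + 1) - (p ^ 2 + 1) = p * (p * (p ^ 2 + 1)) := by
    rw [← Nat.sub_one_mul, Nat.add_sub_cancel]
    ring
  rw [e1, e2] at h
  have h5 : T.card * (p + 1) = p * ((p ^ 2 + 1) * l) := by
    apply Nat.eq_of_mul_eq_mul_left hp.pos
    calc p * (T.card * (p + 1)) = T.card * (p * (p + 1)) := by ring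
      _ = _ := h
      _ = _ := by ring
  have h6 : p + 1 ∣ p * ((p ^ 2 + 1) * l) := ⟨T.card, by rw [← h5]; ring⟩
  have hcop : Nat.Coprime (p + 1) p := by simp
  have h7 : p + 1 ∣ (p ^ 2 + 1) * l := hcop.dvd_of_dvd_mul_left h6
  obtain ⟨k, hk⟩ : ∃ k, p = k + 1 := ⟨p - 1, by have := hp.pos; omega⟩
  have h8 : (p ^ 2 + 1) * l = (p + 1) * (k * l) + 2 * l := by
    subst hk; ring
  rw [h8] at h7
  exact (Nat.dvd_add_right (dvd_mul_right _ _)).1 h7

end count

section sets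

variable {G Ω : Type*} [Group G] [MulAction G Ω] [Finite Ω]

/-- The translates of `F` through `a, b` are `F` or `F'`. -/
theorem lambda_set (h2 : IsMultiplyPretransitive G Ω 2) {p : ℕ} (hp : p.Prime)
    (hΩ : Nat.card Ω = p ^ 2 + 1) (F F' : Set Ω) (hF : F.ncard = p + 1) {a b : Ω} (hab : a ≠ b)
    (ha : a ∈ F) (hb : b ∈ F)
    (h : ∀ g : G, g⁻¹ • a ∈ F → g⁻¹ • b ∈ F → (∀ x, g⁻¹ • x ∈ F ↔ x ∈ F) ∨
      (∀ x, g⁻¹ • x ∈ F ↔ x ∈ F')) : p = 3 ∧ ∃ g : G, g⁻¹ • a ∈ F ∧ g⁻¹ • b ∈ F ∧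
        (∀ x, g⁻¹ • x ∈ F ↔ x ∈ F') ∧ F' ≠ F := by
  classical
  have := Fintype.ofFinite Ω
  rw [Nat.card_eq_fintype_card] at hΩ
  set F0 : Finset Ω := F.toFinset with hF0
  have hF0c : F0.card = p + 1 := by rw [hF0, ← Set.ncard_eq_toFinset_card', hF]
  have hF0m : ∀ x, x ∈ F0 ↔ x ∈ F := fun x => Set.mem_toFinset
  set T : Finset (Finset Ω) := Finset.univ.filter (fun S => ∃ g : G, S = F0.image (fun x => g • x))
    with hTdef
  have hT : ∀ S, S ∈ T ↔ ∃ g : G, S = F0.image (fun x => g • x) := fun S => by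
    rw [hTdef, Finset.mem_filter]; simp
  have hdvd := lambda_dvd h2 hp hΩ F0 hF0c T hT hab
  set F1 : Finset Ω := F'.toFinset with hF1
  have hF1m : ∀ x, x ∈ F1 ↔ x ∈ F' := fun x => Set.mem_toFinset
  have him : ∀ (g : G) (x : Ω), x ∈ F0.image (fun x => g • x) ↔ g⁻¹ • x ∈ F := by
    intro g x
    rw [Finset.mem_image]
    constructor
    · rintro ⟨y, hy, rfl⟩
      rw [inv_smul_smul]; exact (hF0m y).1 hy
    · intro hx
      exact ⟨g⁻¹ • x, (hF0m _).2 hx, smul_inv_smul g x⟩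
  have hsub : T.filter (fun S => a ∈ S ∧ b ∈ S) ⊆ {F0, F1} := by
    intro S hS
    rw [Finset.mem_filter] at hS
    obtain ⟨hS1, hSa, hSb⟩ := hS
    obtain ⟨g, rfl⟩ := (hT S).1 hS1
    rw [him] at hSa hSb
    rw [Finset.mem_insert, Finset.mem_singleton]
    rcases h g hSa hSb with h' | h'
    · left; ext x; rw [him, h' x, hF0m]
    · right; ext x; rw [him, h' x, hF1m]
  have hmem : F0 ∈ T.filter (fun S => a ∈ S ∧ b ∈ S) := by
    rw [Finset.mem_filter]
    refine ⟨(hT _).2 ⟨1, ?_⟩, (hF0m a).2 ha, (hF0m b).2 hb⟩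
    simp
  have hle : (T.filter (fun S => a ∈ S ∧ b ∈ S)).card ≤ 2 :=
    (Finset.card_le_card hsub).trans Finset.card_le_two
  have hpos : 0 < (T.filter (fun S => a ∈ S ∧ b ∈ S)).card := Finset.card_pos.2 ⟨_, hmem⟩
  have hp2 := hp.two_le
  have hcases : (T.filter (fun S => a ∈ S ∧ b ∈ S)).card = 2 ∧ p = 3 := by
    obtain h1 | h1 : (T.filter (fun S => a ∈ S ∧ b ∈ S)).card = 1 ∨
      (T.filter (fun S => a ∈ S ∧ b ∈ S)).card = 2 := by omega
    · rw [h1] at hdvd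
      have := Nat.le_of_dvd (by norm_num) hdvd
      omega
    · rw [h1] at hdvd
      have h3 := Nat.le_of_dvd (by norm_num) hdvd
      have : p = 2 ∨ p = 3 := by omega
      rcases this with rfl | rfl
      · norm_num at hdvd
      · exact ⟨h1, rfl⟩
  refine ⟨hcases.2, ?_⟩
  obtain ⟨S, hS, hSne⟩ : ∃ S ∈ T.filter (fun S => a ∈ S ∧ b ∈ S), S ≠ F0 := by
    have := Finset.exists_mem_ne (s := T.filter (fun S => a ∈ S ∧ b ∈ S)) (by omega) F0
    exact this
  rw [Finset.mem_filter] at hS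
  obtain ⟨hS1, hSa, hSb⟩ := hS
  obtain ⟨g, rfl⟩ := (hT S).1 hS1
  rw [him] at hSa hSb
  refine ⟨g, hSa, hSb, ?_, ?_⟩
  · rcases h g hSa hSb with h' | h'
    · exfalso
      apply hSne
      ext x; rw [him, h' x, hF0m]
    · exact h'
  · rintro rfl
    rcases h g hSa hSb with h' | h' <;>
    · apply hSne
      ext x; rw [him, h' x, hF0m]

end sets

section fx

variable {G Ω : Type*} [Group G] [MulAction G Ω]

/-- The fixed points of a subgroup. -/
def Fx (Ω : Type*) [MulAction G Ω] (M : Subgroup G) : Set Ω := {x | ∀ g ∈ M, g • x = x}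

theorem mem_Fx {M : Subgroup G} {x : Ω} : x ∈ Fx Ω M ↔ ∀ g ∈ M, g • x = x := Iff.rfl

/-- The conjugate of a subgroup. -/
def cj (g : G) (M : Subgroup G) : Subgroup G := M.map (MulAut.conj g).toMonoidHom

theorem mem_cj {g x : G} {M : Subgroup G} : x ∈ cj g M ↔ g⁻¹ * x * g ∈ M := by
  rw [cj, Subgroup.mem_map]
  constructor
  · rintro ⟨y, hy, rfl⟩
    have : g⁻¹ * (MulAut.conj g).toMonoidHom y * g = y := by
      change g⁻¹ * (g * y * g⁻¹) * g = y
      group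
    rwa [this]
  · intro h
    refine ⟨g⁻¹ * x * g, h, ?_⟩
    change g * (g⁻¹ * x * g) * g⁻¹ = x
    group

theorem conj_mem_cj {g x : G} {M : Subgroup G} (hx : x ∈ M) : g * x * g⁻¹ ∈ cj g M := by
  rw [mem_cj]
  have : g⁻¹ * (g * x * g⁻¹) * g = x := by group
  rwa [this]

theorem card_cj (g : G) (M : Subgroup G) : Nat.card (cj g M) = Nat.card M :=
  Nat.card_congr (M.equivMapOfInjective (MulAut.conj g).toMonoidHom (MulAut.conj g).injective).toEquiv.symm

theorem Fx_cj (g : G) (M : Subgroup G) (x : Ω) : g⁻¹ • x ∈ Fx Ω M ↔ x ∈ Fx Ω (cj g M) := by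
  constructor
  · intro h y hy
    rw [mem_cj] at hy
    have h1 := h _ hy
    have h2 : g • ((g⁻¹ * y * g) • g⁻¹ • x) = g • g⁻¹ • x := by rw [h1]
    rw [smul_inv_smul, smul_smul, smul_smul] at h2
    have : g * (g⁻¹ * y * g) * g⁻¹ = y := by group
    rwa [this] at h2
  · intro h y hy
    have h1 := h _ (conj_mem_cj (g := g) hy)
    have h2 : g⁻¹ • ((g * y * g⁻¹) • x) = g⁻¹ • x := by rw [h1]
    rw [smul_smul] at h2
    rw [smul_smul]
    have : g⁻¹ * (g * y * g⁻¹) = y * g⁻¹ := by group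
    rwa [this] at h2

theorem ncard_Fx_cj (g : G) (M : Subgroup G) : (Fx Ω (cj g M)).ncard = (Fx Ω M).ncard := by
  have : Fx Ω (cj g M) = (fun x => g • x) '' (Fx Ω M) := by
    ext x
    rw [← Fx_cj, Set.mem_image]
    constructor
    · intro h
      exact ⟨_, h, smul_inv_smul g x⟩
    · rintro ⟨y, hy, rfl⟩
      rwa [inv_smul_smul]
  rw [this, Set.ncard_image_of_injective _ (MulAction.injective g)]

/-- Second form: fixed point sets. -/
theorem lambda_fix [Finite Ω] (h2 : IsMultiplyPretransitive G Ω 2) {p : ℕ} (hp : p.Prime)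
    (hΩ : Nat.card Ω = p ^ 2 + 1) (M : Subgroup G) (F' : Set Ω) (hF : (Fx Ω M).ncard = p + 1)
    {a b : Ω} (hab : a ≠ b) (hM : M ≤ stabilizer G a ⊓ stabilizer G b)
    (h : ∀ g : G, cj g M ≤ stabilizer G a ⊓ stabilizer G b → (Fx Ω (cj g M)).ncard = p + 1 →
      Fx Ω (cj g M) = Fx Ω M ∨ Fx Ω (cj g M) = F') :
    p = 3 ∧ ∃ g : G, cj g M ≤ stabilizer G a ⊓ stabilizer G b ∧ Fx Ω (cj g M) = F' ∧
      F' ≠ Fx Ω M := by
  have hle : ∀ N : Subgroup G, (a ∈ Fx Ω N ∧ b ∈ Fx Ω N) ↔ N ≤ stabilizer G a ⊓ stabilizer G b := by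
    intro N
    constructor
    · rintro ⟨h1, h2⟩ x hx
      exact ⟨h1 x hx, h2 x hx⟩
    · intro h1
      exact ⟨fun x hx => (h1 hx).1, fun x hx => (h1 hx).2⟩
  obtain ⟨ha, hb⟩ := (hle M).2 hM
  obtain ⟨h3, g, h4, h5, h6, h7⟩ := lambda_set h2 hp hΩ (Fx Ω M) F' hF hab ha hb (by
    intro g hga hgb
    rw [Fx_cj] at hga hgb
    rcases h g ((hle _).1 ⟨hga, hgb⟩) (by rw [ncard_Fx_cj, hF]) with h' | h'
    · left; intro x; rw [Fx_cj, h']
    · right; intro x; rw [Fx_cj, h'])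
  refine ⟨h3, g, ?_, ?_, h7⟩
  · rw [Fx_cj] at h4 h5
    exact (hle _).1 ⟨h4, h5⟩
  · ext x
    rw [← Fx_cj, h6 x]

theorem lambda_one [Finite Ω] (h2 : IsMultiplyPretransitive G Ω 2) {p : ℕ} (hp : p.Prime)
    (hΩ : Nat.card Ω = p ^ 2 + 1) (M : Subgroup G) (hF : (Fx Ω M).ncard = p + 1)
    {a b : Ω} (hab : a ≠ b) (hM : M ≤ stabilizer G a ⊓ stabilizer G b)
    (h : ∀ g : G, cj g M ≤ stabilizer G a ⊓ stabilizer G b → (Fx Ω (cj g M)).ncard = p + 1 →
      Fx Ω (cj g M) = Fx Ω M) : False := by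
  obtain ⟨-, g, -, -, h1⟩ := lambda_fix h2 hp hΩ M (Fx Ω M) hF hab hM
    (fun g h1 h2 => Or.inl (h g h1 h2))
  exact h1 rfl

end fx

end Cfsg.Agent.Cyc
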