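import Cfsg.Agent.Cyc.PQA

/-!
# Zassenhaus groups of degree `p ^ 2 + 1`, and Burnside's theorem on a set of prime size
-/

set_option autoImplicit false
set_option linter.unusedSectionVars false

namespace Cfsg.Agent.Cyc

open MulAction

section burn

theorem burn_set {G Y : Type*} [Group G] [Finite G] [MulAction G Y] {p : ℕ} [hp : Fact p.Prime]
    (X : Set Y) (hX : X.ncard = p) (A : Subgroup G) (hA : ∀ g ∈ A, ∀ x ∈ X, g • x ∈ X)
    (P : Subgroup G) (hPA : P ≤ A) (hPp : IsPGroup p P)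
    (htr : ∀ x ∈ X, ∀ y ∈ X, ∃ u ∈ P, u • x = y) :
    (∀ x ∈ X, ∀ y ∈ X, ∀ x' ∈ X, ∀ y' ∈ X, x ≠ y → x' ≠ y' → ∃ g ∈ A, g • x = x' ∧ g • y = y') ∨
    (∀ g ∈ A, ∀ u ∈ P, ∃ v ∈ P, ∀ x ∈ X, (g * u * g⁻¹) • x = v • x) := by
  classical
  have hXfin : X.Finite := Set.finite_of_ncard_pos (by rw [hX]; exact hp.out.pos)
  let S : SubMulAction A Y := ⟨X, fun g {x} hx => hA g g.2 x hx⟩
  have hSfin : Finite S := hXfin
  have hSft := Fintype.ofFinite S
  have hcard : Fintype.card S = p := by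
    rw [← Nat.card_eq_fintype_card]
    exact hX
  let f : A →* Equiv.Perm S := toPermHom A S
  have hf : ∀ (g : A) (x : S), ((f g x : S) : Y) = (g : G) • (x : Y) := fun g x => rfl
  let Pm : Subgroup f.range := (P.subgroupOf A).map f.rangeRestrict
  have hPmtr : ∀ x y : S, ∃ u ∈ Pm, (u : Equiv.Perm S) x = y := by
    intro x y
    obtain ⟨u, hu, hux⟩ := htr x x.2 y y.2
    refine ⟨f.rangeRestrict ⟨u, hPA hu⟩, Subgroup.mem_map_of_mem _ hu, ?_⟩
    apply Subtype.ext
    exact hux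
  have htrans : IsPretransitive f.range S := ⟨fun x y => by
    obtain ⟨u, -, hu⟩ := hPmtr x y
    exact ⟨u, hu⟩⟩
  by_cases hsol : Group.IsSolvable f.range
  · right
    have hPmp : IsPGroup p Pm := (hPp.comap_subtype (K := A)).map _
    obtain ⟨Q, hQ⟩ := hPmp.exists_le_sylow
    have hQn := Cfsg.Agent.H12.sylow_normal_of_solvable hcard f.range hsol Q
    have hQc := (Cfsg.Agent.H12.sylow_eq_zpowers hcard f.range Q).1
    have hPmc : p ≤ Nat.card Pm := by
      obtain ⟨x0⟩ : Nonempty S := by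
        rw [← Fintype.card_pos_iff, hcard]; exact hp.out.pos
      have hsurj : Function.Surjective (fun u : Pm => ((u : f.range) : Equiv.Perm S) x0) := by
        intro y
        obtain ⟨u, hu, huy⟩ := hPmtr x0 y
        exact ⟨⟨u, hu⟩, huy⟩
      have := Nat.card_le_card_of_surjective _ hsurj
      rwa [Nat.card_eq_fintype_card (α := S), hcard] at this
    have hPmQ : Pm = (Q : Subgroup f.range) :=
      Subgroup.eq_of_le_of_card_ge hQ (by rw [hQc]; exact hPmc)
    have hPmn : Pm.Normal := by rw [hPmQ]; exact hQn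
    intro g hg u hu
    have h1 : f.rangeRestrict ⟨u, hPA hu⟩ ∈ Pm := Subgroup.mem_map_of_mem _ hu
    have h2 := hPmn.conj_mem _ h1 (f.rangeRestrict ⟨g, hg⟩)
    obtain ⟨v, hv, hv2⟩ := h2
    refine ⟨v, hv, fun x hx => ?_⟩
    have h3 := congrArg (fun k : f.range => (((k : Equiv.Perm S) ⟨x, hx⟩ : S) : Y)) hv2
    have h4 : f.rangeRestrict ⟨g, hg⟩ * f.rangeRestrict ⟨u, hPA hu⟩ * (f.rangeRestrict ⟨g, hg⟩)⁻¹ =
      f.rangeRestrict (⟨g, hg⟩ * ⟨u, hPA hu⟩ * ⟨g, hg⟩⁻¹) := by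
      rw [map_mul, map_mul, map_inv]
    rw [h4] at h3
    exact h3.symm
  · left
    have h2 := Cfsg.Agent.H12.burnside_prime_degree hcard f.range hsol
    rw [is_two_pretransitive_iff] at h2
    intro x hx y hy x' hx' y' hy' hxy hxy'
    obtain ⟨⟨_, g, rfl⟩, hg1, hg2⟩ := h2 (a := (⟨x, hx⟩ : S)) (b := ⟨y, hy⟩) (c := ⟨x', hx'⟩)
      (d := ⟨y', hy'⟩) (fun h => hxy (congrArg Subtype.val h)) (fun h => hxy' (congrArg Subtype.val h))
    exact ⟨g, g.2, congrArg Subtype.val hg1, congrArg Subtype.val hg2⟩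

end burn

section zass

variable {G : Type*} {Ω : Type*} [Group G] [Finite G] [MulAction G Ω] [Finite Ω] {p : ℕ}
  [hp : Fact p.Prime]

theorem no_reg (hp2 : p ≠ 2) (hΩ : Nat.card Ω = p ^ 2 + 1) (h2 : IsMultiplyPretransitive G Ω 2)
    (N : Subgroup G) [hN : N.Normal] (htr : IsPretransitive N Ω)
    (hreg : ∀ x : Ω, stabilizer N x = ⊥) : False := by
  have hne : Nonempty Ω := by
    rw [← Finite.card_pos_iff, hΩ]; positivity
  have hcard := Cfsg.Agent.H37.card_reg htr hreg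
  obtain ⟨k, hk⟩ := hp.out.odd_of_ne_two hp2
  have hpk : p ^ 2 + 1 = 2 * (2 * (k * (k + 1)) + 1) := by rw [hk]; ring
  have h2d : 2 ∣ Nat.card N := by
    rw [hcard, hΩ, hpk]; exact dvd_mul_right _ _
  haveI : Fact (Nat.Prime 2) := ⟨Nat.prime_two⟩
  obtain ⟨t, ht⟩ := exists_prime_orderOf_dvd_card' 2 h2d
  obtain ⟨a⟩ := hne
  have hinj : ∀ n ∈ N, ∀ m ∈ N, n • a = m • a → n = m :=
    fun n hn m hm h => Cfsg.Agent.H37.reg_inj hreg hn hm h
  have ht1 : (t : G) • a ≠ a := by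
    intro h
    have h1 : (t : G) = 1 := hinj _ t.2 1 N.one_mem (by rw [h, one_smul])
    have h3 : t = 1 := Subtype.ext h1
    rw [h3, orderOf_one] at ht
    norm_num at ht
  have ht2 : (t : G) ^ 2 = 1 := by
    have := pow_orderOf_eq_one t
    rw [ht] at this
    exact congrArg Subtype.val this
  have hsq : ∀ n ∈ N, n ^ 2 = 1 := by
    intro n hn
    rcases eq_or_ne (n • a) a with h | h
    · have : n = 1 := hinj _ hn 1 N.one_mem (by rw [h, one_smul])
      rw [this, one_pow]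
    · obtain ⟨g, hg1, hg2⟩ := is_two_pretransitive_iff.1 h2 ht1.symm h.symm
      have h3 : g * t * g⁻¹ = n := by
        apply hinj _ (hN.conj_mem _ t.2 g) _ hn
        rw [mul_smul, mul_smul, inv_smul_eq_iff.2 hg1.symm, hg2]
      rw [← h3, conj_pow, ht2]; group
  obtain ⟨m, hm⟩ := Cfsg.Agent.H37.card_of_sq hsq
  rw [hcard, hΩ, hpk] at hm
  have hk1 : 1 ≤ k := by
    have := hp.out.two_le
    omega
  cases m with
  | zero => omega
  | succ m =>
    rw [pow_succ, mul_comm (2 ^ m)] at hm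
    have hm' := Nat.eq_of_mul_eq_mul_left (by norm_num) hm
    cases m with
    | zero =>
      have : 0 < k * (k + 1) := by positivity
      omega
    | succ m => rw [pow_succ] at hm'; omega

open Cfsg.Agent.H37.ZT in
theorem zass_contra [FaithfulSMul G Ω] (hp2 : p ≠ 2) (hΩ : Nat.card Ω = p ^ 2 + 1)
    (h2 : IsMultiplyPretransitive G Ω 2) {a b : Ω} (hab : a ≠ b) {P : Subgroup G}
    (hP : IsKer G a P) (hc : ∀ x ∈ P, ∀ y ∈ P, x * y = y * x)
    (h3 : ∀ g : G, g • a = a → g • b = b → ∀ c, c ≠ a → c ≠ b → g • c = c → g = 1)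
    (hD : 2 * Nat.card ↥(stabilizer G a ⊓ stabilizer G b) < p ^ 2 - 1) : False := by
  have h3' : ∀ g : G, ∀ x y z : Ω, x ≠ y → y ≠ z → x ≠ z → g • x = x → g • y = y → g • z = z →
      g = 1 := by
    intro g x y z hxy hyz hxz hx hy hz
    obtain ⟨k, hk1, hk2⟩ := is_two_pretransitive_iff.1 h2 hxy hab
    have h4 : k * g * k⁻¹ = 1 := by
      apply h3 _ _ _ (k • z)
      · rw [← hk1]; exact (MulAction.injective k).ne hxz.symm
      · rw [← hk2]; exact (MulAction.injective k).ne hyz.symm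
      · rw [mul_smul, mul_smul, inv_smul_smul, hz]
      · rw [mul_smul, mul_smul, inv_smul_eq_iff.2 hk1.symm, hx, hk1]
      · rw [mul_smul, mul_smul, inv_smul_eq_iff.2 hk2.symm, hy, hk2]
    have h5 : g = k⁻¹ * (k * g * k⁻¹) * k := by group
    rw [h5, h4]; group
  by_cases hD1 : ∀ g : G, g • a = a → g • b = b → g = 1
  · -- sharply 2-transitive
    have htr : IsPretransitive (⊤ : Subgroup G) Ω := by
      have := isPretransitive_of_is_two_pretransitive (h2 := h2)
      exact ⟨fun x y => by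
        obtain ⟨g, hg⟩ := exists_smul_eq G x y
        exact ⟨⟨g, trivial⟩, hg⟩⟩
    obtain ⟨K, hK, -, hKt, hKr⟩ := Cfsg.Agent.H37.exists_regular_normal
      (by rw [hΩ]; nlinarith [hp.out.two_le]) h2 ⊤ htr (by
        intro n _ x y hxy hx hy
        obtain ⟨k, hk1, hk2⟩ := is_two_pretransitive_iff.1 h2 hxy hab
        have h4 : k * n * k⁻¹ = 1 := by
          apply hD1
          · rw [mul_smul, mul_smul, inv_smul_eq_iff.2 hk1.symm, hx, hk1]
          · rw [mul_smul, mul_smul, inv_smul_eq_iff.2 hk2.symm, hy, hk2]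
        have h5 : n = k⁻¹ * (k * n * k⁻¹) * k := by group
        rw [h5, h4]; group)
    exact no_reg hp2 hΩ h2 K hKt hKr
  · push Not at hD1
    obtain ⟨g, hg1, hg2, hg3⟩ := hD1
    have hZ : Cfsg.IsZassenhausGroup G Ω := by
      refine ⟨inferInstance, h2, h3', ⟨g, hg3, a, b, hab, hg1, hg2⟩, ?_⟩
      intro N hN htr
      by_contra hcon
      push Not at hcon
      exact no_reg hp2 hΩ h2 N htr hcon
    have hst : Nat.card (Cfsg.Agent.H34.stab2 G a b) =
      Nat.card ↥(stabilizer G a ⊓ stabilizer G b) := rfl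
    rcases zass_abelian hZ hab hP hc with h | ⟨h, -⟩ <;> rw [hst, hΩ] at h <;> omega

end zass

end Cfsg.Agent.Cyc
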