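import Cfsg.Agent.Cyc.PQB
import Cfsg.Agent.Cyc.PLC
import Cfsg.Agent.H12.PGroupFix

/-!
# Doubly transitive groups of degree `p ^ 2 + 1` with imprimitive point stabilizer: first steps
-/

set_option autoImplicit false
set_option linter.unusedSectionVars false

namespace Cfsg.Agent.Cyc

open MulAction

section gen

variable {G Y : Type*} [Group G] [MulAction G Y]

/-- orbit-stabilizer in terms of sets -/
theorem card_orb [Finite G] (A : Subgroup G) (x : Y) (X : Set Y)
    (h : ∀ y, y ∈ X ↔ ∃ g ∈ A, g • x = y) :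
    Nat.card A = X.ncard * Nat.card ↥(A ⊓ stabilizer G x) := by
  have h1 : X = orbit A x := by
    ext y
    rw [h, mem_orbit_iff]
    constructor
    · rintro ⟨g, hg, rfl⟩
      exact ⟨⟨g, hg⟩, rfl⟩
    · rintro ⟨g, rfl⟩
      exact ⟨g, g.2, rfl⟩
  have h2 : Nat.card ↥(A ⊓ stabilizer G x) = Nat.card (stabilizer A x) := by
    refine Nat.card_congr ⟨fun g => ⟨⟨g, g.2.1⟩, g.2.2⟩, fun g => ⟨g, g.1.2, g.2⟩, fun g => rfl,
      fun g => rfl⟩
  rw [h1, h2, ← index_stabilizer, Subgroup.index_mul_card]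

theorem cj_eq_of_le [Finite G] {g : G} {A B : Subgroup G} (h : cj g A ≤ B)
    (hc : Nat.card A = Nat.card B) : cj g A = B :=
  Subgroup.eq_of_le_of_card_ge h (by rw [card_cj, hc])

theorem cj_mono {g : G} {A B : Subgroup G} (h : A ≤ B) : cj g A ≤ cj g B :=
  Subgroup.map_mono h

theorem conj_mem_of_index_p [Finite G] {p : ℕ} [hp : Fact p.Prime] {P L : Subgroup G}
    (hP : IsPGroup p P) (hL : L ≤ P) (h : Nat.card P = p * Nat.card L) :
    ∀ x ∈ P, ∀ l ∈ L, x * l * x⁻¹ ∈ L := by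
  have hidx : (L.subgroupOf P).index = p := by
    have h1 := Subgroup.card_mul_index (L.subgroupOf P)
    rw [h, Nat.card_congr (Subgroup.subgroupOfEquivOfLe hL).toEquiv, mul_comm] at h1
    exact Nat.eq_of_mul_eq_mul_right Nat.card_pos h1
  have hmin : (Nat.card P).minFac = p := by
    obtain ⟨n, hn⟩ := IsPGroup.iff_card.1 hP
    have hn0 : n ≠ 0 := by
      rintro rfl
      rw [pow_zero] at hn
      rw [hn] at h
      have := hp.out.one_lt
      have h3 : 0 < Nat.card L := Nat.card_pos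
      nlinarith
    rw [hn, hp.out.pow_minFac hn0]
  have hn : (L.subgroupOf P).Normal :=
    Subgroup.normal_of_index_eq_minFac_card (by rw [hidx, hmin])
  intro x hx l hl
  exact hn.conj_mem ⟨l, hL hl⟩ hl ⟨x, hx⟩

/-- Sylow's theorem inside a subgroup. -/
theorem sylow_conj [Finite G] {p : ℕ} [hp : Fact p.Prime] {D R R' : Subgroup G} (hR : R ≤ D)
    (hR' : R' ≤ D) (hRp : IsPGroup p R) (hc : Nat.card R' = Nat.card R) {m : ℕ}
    (hm : Nat.card D = Nat.card R * m) (hpm : ¬ p ∣ m) : ∃ d ∈ D, R' = cj d R := by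
  obtain ⟨n, hn⟩ := IsPGroup.iff_card.1 hRp
  have hfac : (Nat.card D).factorization p = n := by
    rw [hm, hn, Nat.factorization_mul (pow_ne_zero _ hp.out.ne_zero)
      (by rintro rfl; exact hpm (dvd_zero p)), Finsupp.add_apply,
      hp.out.factorization_pow, Finsupp.single_eq_same,
      Nat.factorization_eq_zero_of_not_dvd hpm, add_zero]
  have key : ∀ Q : Subgroup G, Q ≤ D → Nat.card Q = p ^ n →
      ∃ S : Sylow p D, (S : Subgroup D) = Q.subgroupOf D := by
    intro Q hQ hQc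
    have hQc' : Nat.card (Q.subgroupOf D) = p ^ n := by
      rw [← hQc]
      exact Nat.card_congr (Subgroup.subgroupOfEquivOfLe hQ).toEquiv
    have hQp : IsPGroup p (Q.subgroupOf D) := IsPGroup.of_card hQc'
    obtain ⟨S, hS⟩ := hQp.exists_le_sylow
    refine ⟨S, (Subgroup.eq_of_le_of_card_ge hS ?_).symm⟩
    rw [S.card_eq_multiplicity, hQc', hfac]
  obtain ⟨S, hS⟩ := key R hR hn
  obtain ⟨S', hS'⟩ := key R' hR' (by rw [hc, hn])
  obtain ⟨d, hd⟩ := exists_smul_eq D S S'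
  refine ⟨d, d.2, ?_⟩
  symm
  apply cj_eq_of_le _ hc.symm
  intro x hx
  rw [mem_cj] at hx
  have hxD : x ∈ D := by
    have : x = d * ((d : G)⁻¹ * x * d) * (d : G)⁻¹ := by group
    rw [this]
    exact D.mul_mem (D.mul_mem d.2 (hR hx)) (D.inv_mem d.2)
  have h1 : (⟨x, hxD⟩ : D) ∈ (S' : Subgroup D) := by
    rw [← hd, Sylow.coe_subgroup_smul, Subgroup.mem_pointwise_smul_iff_inv_smul_mem, hS,
      Subgroup.mem_subgroupOf]
    have h4 : (((MulAut.conj d)⁻¹ • (⟨x, hxD⟩ : D) : D) : G) = (d : G)⁻¹ * x * d := by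
      rw [← map_inv]
      change (d : G)⁻¹ * x * ((d : G)⁻¹)⁻¹ = _
      rw [inv_inv]
    rw [h4]
    exact hx
  rw [hS'] at h1
  exact h1

end gen

end Cfsg.Agent.Cyc
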