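import Cfsg.Agent.Cyc.PQC

/-!
# Doubly transitive groups of degree `p ^ 2 + 1`: the Sylow `p`-subgroup of a point stabilizer
-/

set_option autoImplicit false
set_option linter.unusedSectionVars false

namespace Cfsg.Agent.Cyc

open MulAction

section sys

variable {G Ω : Type*} [Group G] [MulAction G Ω]

/-- A `G_a`-invariant system of classes of size `p` on `Ω ∖ a`. -/
structure Sys (G : Type*) {Ω : Type*} [Group G] [MulAction G Ω] (p : ℕ) (a : Ω)
    (r : Ω → Ω → Prop) : Prop where
  refl : ∀ x, r x x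
  symm : ∀ {x y}, r x y → r y x
  trans : ∀ {x y z}, r x y → r y z → r x z
  inv : ∀ g : G, g • a = a → ∀ {x y}, r x y → r (g • x) (g • y)
  base : ∀ {x}, r a x → x = a
  card : ∀ x, x ≠ a → {y | r x y}.ncard = p

theorem Sys.ne {p : ℕ} {a : Ω} {r : Ω → Ω → Prop} (h : Sys G p a r) {x y : Ω} (hx : x ≠ a)
    (hxy : r x y) : y ≠ a := by
  rintro rfl
  exact hx (h.base (h.symm hxy))

theorem smul_ne {a x : Ω} {g : G} (hg : g • a = a) (hx : x ≠ a) : g • x ≠ a := by
  intro h
  exact hx (MulAction.injective g (h.trans hg.symm))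

variable [Finite G] [Finite Ω] {p : ℕ} [hp : Fact p.Prime]

open scoped Pointwise in
theorem exists_sys [FaithfulSMul G Ω] (hΩ : Nat.card Ω = p ^ 2 + 1)
    (h2 : IsMultiplyPretransitive G Ω 2)
    (a : Ω) (hnp : ¬ IsPreprimitive (stabilizer G a) (SubMulAction.ofStabilizer G a)) :
    ∃ r : Ω → Ω → Prop, Sys G p a r := by
  have htr : IsPretransitive (stabilizer G a) (SubMulAction.ofStabilizer G a) := trans_ofStab h2 a
  have hcard : Nat.card (SubMulAction.ofStabilizer G a) = p ^ 2 := by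
    rw [SubMulAction.nat_card_ofStabilizer_eq, hΩ, Nat.add_sub_cancel]
  obtain ⟨B, hB, hB1, hB2⟩ : ∃ B : Set (SubMulAction.ofStabilizer G a),
      IsBlock (stabilizer G a) B ∧ ¬ B.Subsingleton ∧ B ≠ Set.univ := by
    by_contra hcon
    push Not at hcon
    apply hnp
    refine ⟨fun {B} hB => ?_⟩
    by_cases h : B.Subsingleton
    · exact Or.inl h
    · exact Or.inr (hcon B hB (Set.not_subsingleton_iff.1 h))
  have hBne : B.Nonempty := by
    by_contra h
    rw [Set.not_nonempty_iff_eq_empty] at h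
    apply hB1
    rw [h]
    exact Set.subsingleton_empty
  have hBp : B.ncard = p := by
    have h1 := hB.ncard_dvd_card hBne
    rw [hcard, Nat.dvd_prime_pow hp.out] at h1
    obtain ⟨k, hk, hk'⟩ := h1
    interval_cases k
    · exfalso
      rw [pow_zero, Set.ncard_eq_one] at hk'
      obtain ⟨x, hx⟩ := hk'
      apply hB1
      rw [hx]
      exact Set.subsingleton_singleton
    · rw [hk', pow_one]
    · exfalso
      apply hB2
      apply Set.eq_of_subset_of_ncard_le (Set.subset_univ _)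
      rw [Set.ncard_univ, hcard, hk']
  let r : Ω → Ω → Prop := fun x y => x = y ∨ ∃ (hx : x ≠ a) (hy : y ≠ a) (g : stabilizer G a),
    (⟨x, hx⟩ : SubMulAction.ofStabilizer G a) ∈ g • B ∧
    (⟨y, hy⟩ : SubMulAction.ofStabilizer G a) ∈ g • B
  refine ⟨r, fun x => Or.inl rfl, ?_, ?_, ?_, ?_, ?_⟩
  · rintro x y (rfl | ⟨hx, hy, g, h1, h2⟩)
    · exact Or.inl rfl
    · exact Or.inr ⟨hy, hx, g, h2, h1⟩
  · rintro x y z (rfl | ⟨hx, hy, g, h1, h2⟩)
    · exact fun h => h
    · rintro (rfl | ⟨hy', hz, g', h3, h4⟩)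
      · exact Or.inr ⟨hx, hy, g, h1, h2⟩
      · have h5 : g • B = g' • B := hB.smul_eq_smul_of_nonempty ⟨_, h2, h3⟩
        exact Or.inr ⟨hx, hz, g, h1, by rw [h5]; exact h4⟩
  · rintro g hg x y (rfl | ⟨hx, hy, k, h1, h2⟩)
    · exact Or.inl rfl
    · refine Or.inr ⟨smul_ne hg hx, smul_ne hg hy, (⟨g, hg⟩ : stabilizer G a) * k, ?_, ?_⟩
      · rw [mul_smul]
        exact Set.smul_mem_smul_set h1
      · rw [mul_smul]
        exact Set.smul_mem_smul_set h2
  · rintro x (rfl | ⟨hx, -⟩)
    · rfl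
    · exact absurd rfl hx
  · intro x hx
    obtain ⟨y, hy⟩ := hBne
    obtain ⟨g, hg⟩ := exists_smul_eq (stabilizer G a) y ⟨x, hx⟩
    have hxg : (⟨x, hx⟩ : SubMulAction.ofStabilizer G a) ∈ g • B := by
      rw [← hg]; exact Set.smul_mem_smul_set hy
    have h1 : {y | r x y} = Subtype.val '' (g • B) := by
      ext z
      constructor
      · rintro (rfl | ⟨hx', hz, k, h3, h4⟩)
        · exact ⟨_, hxg, rfl⟩
        · have h5 : g • B = k • B := hB.smul_eq_smul_of_nonempty ⟨_, hxg, h3⟩
          exact ⟨_, by rw [h5]; exact h4, rfl⟩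
      · rintro ⟨z, hz, rfl⟩
        exact Or.inr ⟨hx, z.2, g, hxg, hz⟩
    rw [h1, Set.ncard_image_of_injective _ Subtype.val_injective, Set.ncard_smul_set, hBp]

theorem exists_P [FaithfulSMul G Ω] (hΩ : Nat.card Ω = p ^ 2 + 1)
    (h2 : IsMultiplyPretransitive G Ω 2) (a : Ω) :
    ∃ P : Subgroup G, P ≤ stabilizer G a ∧ IsPGroup p P ∧
      (∀ x y, x ≠ a → y ≠ a → ∃ u ∈ P, u • x = y) ∧
      ∃ m, Nat.card (stabilizer G a) = Nat.card P * m ∧ ¬ p ∣ m := by
  have htr : IsPretransitive (stabilizer G a) (SubMulAction.ofStabilizer G a) := trans_ofStab h2 a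
  have hcard : Nat.card (SubMulAction.ofStabilizer G a) = p ^ 2 := by
    rw [SubMulAction.nat_card_ofStabilizer_eq, hΩ, Nat.add_sub_cancel]
  obtain ⟨P0⟩ : Nonempty (Sylow p (stabilizer G a)) := inferInstance
  have hPt := Cfsg.Agent.H12.sylow_isPretransitive hcard P0
  have hnd : ¬ p ∣ (P0 : Subgroup (stabilizer G a)).index := Sylow.not_dvd_index P0
  refine ⟨(P0 : Subgroup (stabilizer G a)).map (stabilizer G a).subtype, Subgroup.map_subtype_le _,
    P0.isPGroup'.map _, ?_, (P0 : Subgroup (stabilizer G a)).index, ?_, hnd⟩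
  · intro x y hx hy
    obtain ⟨u, hu⟩ := exists_smul_eq (P0 : Subgroup (stabilizer G a))
      (⟨x, hx⟩ : SubMulAction.ofStabilizer G a) ⟨y, hy⟩
    refine ⟨((u : stabilizer G a) : G), Subgroup.mem_map_of_mem _ u.2, ?_⟩
    exact congrArg Subtype.val hu
  · have h := Nat.card_congr ((P0 : Subgroup (stabilizer G a)).equivMapOfInjective
      (stabilizer G a).subtype (Subgroup.subtype_injective _)).toEquiv
    rw [← h, Subgroup.card_mul_index]

theorem step_one [FaithfulSMul G Ω] (hΩ : Nat.card Ω = p ^ 2 + 1)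
    (h2 : IsMultiplyPretransitive G Ω 2) {a b : Ω} (hab : b ≠ a) {r : Ω → Ω → Prop}
    (hS : Sys G p a r) {P : Subgroup G} (hPa : P ≤ stabilizer G a) (hPp : IsPGroup p P)
    (hPt : ∀ x y, x ≠ a → y ≠ a → ∃ u ∈ P, u • x = y) {m : ℕ}
    (hm : Nat.card (stabilizer G a) = Nat.card P * m) (hpm : ¬ p ∣ m) :
    P ⊓ stabilizer G b = ⊥ := by
  have hPa' : ∀ u ∈ P, u • a = a := fun u hu => hPa hu
  set R : Subgroup G := P ⊓ stabilizer G b with hR
  have hRP : R ≤ P := inf_le_left
  have hRb : ∀ u ∈ R, u • b = b := fun u hu => hu.2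
  by_contra hne
  -- orders
  have hcardΩ : {y : Ω | y ≠ a}.ncard = p ^ 2 := by
    have h1 : {y : Ω | y ≠ a} = {a}ᶜ := rfl
    rw [h1, Set.ncard_compl, Set.ncard_singleton, hΩ, Nat.add_sub_cancel]
  have hcP : Nat.card P = p ^ 2 * Nat.card R := by
    rw [← hcardΩ]
    apply card_orb
    intro y
    constructor
    · intro hy
      exact hPt b y hab hy
    · rintro ⟨u, hu, rfl⟩
      exact smul_ne (hPa' u hu) hab
  let L : Subgroup G :=
    { carrier := {x | x ∈ P ∧ r b (x • b)}
      mul_mem' := by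
        rintro x y ⟨hx, hx'⟩ ⟨hy, hy'⟩
        refine ⟨P.mul_mem hx hy, hS.trans hx' ?_⟩
        rw [mul_smul]
        exact hS.inv x (hPa' x hx) hy'
      one_mem' := ⟨P.one_mem, by rw [one_smul]; exact hS.refl b⟩
      inv_mem' := by
        rintro x ⟨hx, hx'⟩
        refine ⟨P.inv_mem hx, ?_⟩
        have h1 := hS.inv x⁻¹ (hPa' _ (P.inv_mem hx)) hx'
        rw [inv_smul_smul] at h1
        exact hS.symm h1 }
  have hmemL : ∀ x, x ∈ L ↔ x ∈ P ∧ r b (x • b) := fun x => Iff.rfl
  have hLP : L ≤ P := fun x hx => hx.1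
  have hRL : R ≤ L := fun x hx => ⟨hx.1, by rw [hRb x hx]; exact hS.refl b⟩
  have hcL : Nat.card L = p * Nat.card R := by
    have h1 := card_orb L b {y | r b y} (by
      intro y
      constructor
      · intro hy
        obtain ⟨u, hu, hub⟩ := hPt b y hab (hS.ne hab hy)
        exact ⟨u, ⟨hu, by rw [hub]; exact hy⟩, hub⟩
      · rintro ⟨u, hu, rfl⟩
        exact hu.2)
    rw [h1, hS.card b hab]
    congr 2
    have : L ⊓ stabilizer G b = R := by
      apply le_antisymm
      · intro x hx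
        exact ⟨hx.1.1, hx.2⟩
      · intro x hx
        exact ⟨hRL hx, hx.2⟩
    rw [this]
  have hcPL : Nat.card P = p * Nat.card L := by rw [hcP, hcL]; ring
  have hnL := conj_mem_of_index_p hPp hLP hcPL
  have hnR := conj_mem_of_index_p (hPp.to_le hLP) hRL hcL
  have hfix : ∀ c, r b c → ∀ u ∈ R, u • c = c := by
    intro c hc u hu
    obtain ⟨x, hx, rfl⟩ := hPt b c hab (hS.ne hab hc)
    have hxL : x ∈ L := ⟨hx, hc⟩
    have h1 := hRb _ (hnR x⁻¹ (L.inv_mem hxL) u hu)
    rw [inv_inv, mul_smul, mul_smul, inv_smul_eq_iff] at h1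
    exact h1
  have hfix2 : ∀ c, c ∈ Fx Ω R → c = a ∨ r b c := by
    intro c hc
    by_contra hcon
    push Not at hcon
    obtain ⟨hca, hbc⟩ := hcon
    obtain ⟨x, hx, rfl⟩ := hPt b c hab hca
    have hxL : x ∉ L := fun h => hbc h.2
    have hcj : cj x⁻¹ R ≤ R := by
      intro y hy
      rw [mem_cj, inv_inv] at hy
      have h1 := hc _ hy
      rw [← mul_smul, mul_assoc, mul_assoc, inv_mul_cancel, mul_one, mul_smul] at h1
      refine ⟨?_, MulAction.injective x h1⟩
      have : y = x⁻¹ * (x * y * x⁻¹) * x := by group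
      rw [this]
      exact P.mul_mem (P.mul_mem (P.inv_mem hx) hy.1) hx
    have hcj' := cj_eq_of_le hcj rfl
    -- the normaliser of `R` in `P`
    let N : Subgroup G := P ⊓ Subgroup.normalizer (R : Set G)
    have hLN : L ≤ N := by
      refine le_inf hLP (Subgroup.le_normalizer_iff.2 hnR)
    have hxN : x ∈ N := by
      refine ⟨hx, ?_⟩
      have h3 : x⁻¹ ∈ Subgroup.normalizer (R : Set G) := by
        rw [Subgroup.mem_normalizer_iff_map_conj_eq]
        exact hcj'
      have := Subgroup.inv_mem _ h3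
      rwa [inv_inv] at this
    have hNP : N = P := by
      have h4 : Nat.card N ∣ Nat.card P := Subgroup.card_dvd_of_le inf_le_left
      have h5 : Nat.card L ∣ Nat.card N := Subgroup.card_dvd_of_le hLN
      obtain ⟨k, hk⟩ := h5
      obtain ⟨l, hl⟩ := h4
      have hLpos : 0 < Nat.card L := Nat.card_pos
      have h6 : p = k * l := by
        apply Nat.eq_of_mul_eq_mul_left hLpos
        rw [mul_comm _ p, ← hcPL, hl, hk]; ring
      have hk1 : k ≠ 1 := by
        rintro rfl
        rw [mul_one] at hk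
        have h7 : L = N := Subgroup.eq_of_le_of_card_ge hLN (by rw [hk])
        exact hxL (by rw [h7]; exact hxN)
      have hkp : k ∣ p := ⟨l, h6⟩
      rcases (Nat.dvd_prime hp.out).1 hkp with h | h
      · exact absurd h hk1
      · apply Subgroup.eq_of_le_of_card_ge inf_le_left
        rw [hcPL, hk, h, mul_comm]
    apply hne
    rw [eq_bot_iff]
    intro u hu
    rw [Subgroup.mem_bot]
    apply FaithfulSMul.eq_of_smul_eq_smul (α := Ω)
    intro z
    rw [one_smul]
    rcases eq_or_ne z a with rfl | hz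
    · exact hPa' u hu.1
    · obtain ⟨y, hy, rfl⟩ := hPt b z hab hz
      have hyN : y⁻¹ ∈ N := by rw [hNP]; exact P.inv_mem hy
      have h8 := (Subgroup.mem_normalizer_iff.1 hyN.2 u).1 hu
      have h9 := hRb _ h8
      rw [inv_inv, mul_smul, mul_smul, inv_smul_eq_iff] at h9
      exact h9
  have hFx : Fx Ω R = insert a {y | r b y} := by
    ext c
    rw [Set.mem_insert_iff]
    constructor
    · exact hfix2 c
    · rintro (rfl | h)
      · exact fun u hu => hPa' u hu.1
      · exact hfix c h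
  have hFc : (Fx Ω R).ncard = p + 1 := by
    have hna : a ∉ {y | r b y} := fun h => hab (hS.base (hS.symm h))
    rw [hFx, Set.ncard_insert_of_notMem hna, hS.card b hab]
  -- `R` is Sylow in the two-point stabilizer
  have hRD : R ≤ stabilizer G a ⊓ stabilizer G b := le_inf (hRP.trans hPa) inf_le_right
  have hcD : Nat.card ↥(stabilizer G a ⊓ stabilizer G b) = Nat.card R * m := by
    have h1 := card_orb (stabilizer G a) b {y : Ω | y ≠ a} (by
      intro y
      constructor
      · intro hy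
        obtain ⟨u, hu, h⟩ := hPt b y hab hy
        exact ⟨u, hPa hu, h⟩
      · rintro ⟨u, hu, rfl⟩
        exact smul_ne hu hab)
    rw [hcardΩ, hm, hcP, mul_assoc] at h1
    exact (Nat.eq_of_mul_eq_mul_left (by have := hp.out.pos; positivity) h1).symm
  apply lambda_one h2 hp.out hΩ R hFc hab.symm hRD
  intro g hg _
  obtain ⟨d, hd, hd2⟩ := sylow_conj hRD hg (hPp.to_le hRP) (card_cj g R) hcD hpm
  rw [hd2]
  ext c
  rw [← Fx_cj, hFx, Set.mem_insert_iff, Set.mem_insert_iff, Set.mem_ofPred_eq, Set.mem_ofPred_eq]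
  have hda : d • a = a := hd.1
  have hdb : d • b = b := hd.2
  have hda' : d⁻¹ • a = a := by rw [inv_smul_eq_iff, hda]
  have hdb' : d⁻¹ • b = b := by rw [inv_smul_eq_iff, hdb]
  constructor
  · rintro (h | h)
    · left
      rw [inv_smul_eq_iff, hda] at h
      exact h
    · right
      have := hS.inv d hda h
      rwa [smul_inv_smul, hdb] at this
  · rintro (h | h)
    · left
      rw [h, hda']
    · right
      have := hS.inv d⁻¹ hda' h
      rwa [hdb'] at this

end sys

end Cfsg.Agent.Cyc
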