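import Cfsg.Agent.Cyc.PQD

/-!
# Doubly transitive groups of degree `p ^ 2 + 1`: the kernel on the classes
-/

set_option autoImplicit false
set_option linter.unusedSectionVars false

namespace Cfsg.Agent.Cyc

open MulAction

section gen

variable {G Y : Type*} [Group G] [MulAction G Y]

/-- A normal `p'`-subgroup of a group that is transitive on a set of prime size `p` acts trivially. -/
theorem normal_pprime_trivial [Finite G] {p : ℕ} [hp : Fact p.Prime] (X : Set Y)
    (hX : X.ncard = p) (A N : Subgroup G) (hNA : N ≤ A)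
    (hA : ∀ g ∈ A, ∀ x ∈ X, g • x ∈ X) (htr : ∀ x ∈ X, ∀ y ∈ X, ∃ u ∈ A, u • x = y)
    (hn : ∀ g ∈ A, ∀ n ∈ N, g * n * g⁻¹ ∈ N) (hpN : ¬ p ∣ Nat.card N) :
    ∀ n ∈ N, ∀ x ∈ X, n • x = x := by
  have hXfin : X.Finite := Set.finite_of_ncard_pos (by rw [hX]; exact hp.out.pos)
  let S : SubMulAction A Y := ⟨X, fun g {x} hx => hA g g.2 x hx⟩
  have hSfin : Finite S := hXfin
  have hcard : Nat.card S = p := hX
  have htrans : IsPretransitive A S := ⟨fun x y => by
    obtain ⟨u, hu, hux⟩ := htr x x.2 y y.2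
    exact ⟨⟨u, hu⟩, Subtype.ext hux⟩⟩
  let N' : Subgroup A := N.subgroupOf A
  have hN' : N'.Normal := ⟨fun n hn' g => hn g g.2 n hn'⟩
  intro n hn' x hx
  have hB : IsBlock A (orbit N' (⟨x, hx⟩ : S)) := IsBlock.orbit_of_normal _
  have hd := hB.ncard_dvd_card ⟨_, mem_orbit_self _⟩
  rw [hcard] at hd
  rcases (Nat.dvd_prime hp.out).1 hd with h | h
  · rw [Set.ncard_eq_one] at h
    obtain ⟨z, hz⟩ := h
    have h1 : (⟨x, hx⟩ : S) ∈ ({z} : Set S) := by rw [← hz]; exact mem_orbit_self _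
    have h2 : (⟨⟨n, hNA hn'⟩, hn'⟩ : N') • (⟨x, hx⟩ : S) ∈ ({z} : Set S) := by
      rw [← hz]; exact mem_orbit _ _
    rw [Set.mem_singleton_iff] at h1 h2
    have h3 := h2.trans h1.symm
    exact congrArg Subtype.val h3
  · exfalso
    apply hpN
    have h1 := index_stabilizer N' (⟨x, hx⟩ : S)
    rw [h] at h1
    have h2 := Subgroup.card_mul_index (stabilizer N' (⟨x, hx⟩ : S))
    rw [h1] at h2
    have h3 : Nat.card N' = Nat.card N := Nat.card_congr (Subgroup.subgroupOfEquivOfLe hNA).toEquiv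
    rw [← h3, ← h2]
    exact dvd_mul_left _ _

/-- A normal Sylow subgroup contains all elements of `p`-power order. -/
theorem mem_of_ppow [Finite G] {p : ℕ} [hp : Fact p.Prime] {A Q : Subgroup G} (hQA : Q ≤ A)
    (hQn : ∀ x ∈ A, ∀ q ∈ Q, x * q * x⁻¹ ∈ Q) {m : ℕ} (hc : Nat.card A = Nat.card Q * m)
    (hpm : ¬ p ∣ m) {x : G} (hx : x ∈ A) (n : ℕ) (hxp : x ^ (p ^ n) = 1) : x ∈ Q := by
  have hn : (Q.subgroupOf A).Normal := ⟨fun q hq g => hQn g g.2 q hq⟩
  let y : A ⧸ Q.subgroupOf A := QuotientGroup.mk ⟨x, hx⟩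
  have h1 : orderOf y ∣ p ^ n := by
    apply orderOf_dvd_of_pow_eq_one
    change (QuotientGroup.mk ((⟨x, hx⟩ : A) ^ (p ^ n)) : A ⧸ Q.subgroupOf A) = 1
    have : (⟨x, hx⟩ : A) ^ (p ^ n) = 1 := Subtype.ext hxp
    rw [this]; rfl
  have h2 : orderOf y ∣ m := by
    have h3 : Nat.card (A ⧸ Q.subgroupOf A) = m := by
      have h4 := Subgroup.card_mul_index (Q.subgroupOf A)
      rw [Nat.card_congr (Subgroup.subgroupOfEquivOfLe hQA).toEquiv, hc] at h4
      exact Nat.eq_of_mul_eq_mul_left Nat.card_pos h4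
    rw [← h3]
    exact orderOf_dvd_natCard y
  have h3 : Nat.Coprime (p ^ n) m :=
    Nat.Coprime.pow_left _ ((Nat.Prime.coprime_iff_not_dvd hp.out).2 hpm)
  have h4 : orderOf y = 1 := Nat.eq_one_of_dvd_coprimes h3 h1 h2
  rw [orderOf_eq_one_iff] at h4
  have h5 := (QuotientGroup.eq_one_iff (N := Q.subgroupOf A) (⟨x, hx⟩ : A)).1 h4
  exact h5

/-- A group acting faithfully by conjugation on a group of prime order is cyclic. -/
theorem cyc_of_faithful {p : ℕ} [hp : Fact p.Prime] (Q A : Subgroup G)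
    (hQ : Nat.card Q = p) (hn : ∀ x ∈ A, ∀ q ∈ Q, x * q * x⁻¹ ∈ Q)
    (hf : ∀ x ∈ A, (∀ q ∈ Q, x * q = q * x) → x = 1) : IsCyclic A ∧ Nat.card A ∣ p - 1 := by
  have hcyc : IsCyclic Q := isCyclic_of_prime_card hQ
  let f : A →* MulAut Q :=
    { toFun := fun x =>
        { toFun := fun q => ⟨x * q * (x : G)⁻¹, hn x x.2 q q.2⟩
          invFun := fun q => ⟨(x : G)⁻¹ * q * x, by
            have := hn x⁻¹ (A.inv_mem x.2) q q.2
            rwa [inv_inv] at this⟩
          left_inv := fun q => Subtype.ext (by simp only; group)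
          right_inv := fun q => Subtype.ext (by simp only; group)
          map_mul' := fun q q' => Subtype.ext (by simp) }
      map_one' := by ext q; simp
      map_mul' := fun x y => by ext q; simp [mul_assoc] }
  have hfinj : Function.Injective f := by
    rw [injective_iff_map_eq_one]
    intro x hx
    apply Subtype.ext
    apply hf x x.2
    intro q hq
    have h1 := congrArg (fun φ : MulAut Q => ((φ ⟨q, hq⟩ : Q) : G)) hx
    have h2 : (x : G) * q * (x : G)⁻¹ = q := h1
    rw [← eq_mul_inv_iff_mul_eq] at h2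
    rw [mul_inv_eq_iff_eq_mul.1 (show (x : G) * q * (x : G)⁻¹ = q from h1)]
  have e : MulAut Q ≃* (ZMod p)ˣ := by
    have := IsCyclic.mulAutMulEquiv Q
    rwa [hQ] at this
  have hinj2 : Function.Injective (e.toMonoidHom.comp f) := e.injective.comp hfinj
  refine ⟨isCyclic_of_injective _ hinj2, ?_⟩
  have h1 := Subgroup.card_dvd_of_injective _ hinj2
  rwa [Nat.card_eq_fintype_card (α := (ZMod p)ˣ), ZMod.card_units p] at h1

/-- Subgroups of a cyclic subgroup are determined by their order. -/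
theorem eq_of_card_cyclic [Finite G] {A B C : Subgroup G} (hA : IsCyclic A) (hB : B ≤ A)
    (hC : C ≤ A) (h : Nat.card B = Nat.card C) : B = C := by
  classical
  have := Fintype.ofFinite A
  set n := Nat.card B with hn
  have hnpos : 0 < n := Nat.card_pos
  have hle := IsCyclic.card_pow_eq_one_le (α := A) hnpos
  have key : ∀ D : Subgroup G, D ≤ A → Nat.card D = n → ∀ x : G, x ∈ D ↔ ∃ hx : x ∈ A,
      (⟨x, hx⟩ : A) ∈ Finset.univ.filter (fun a : A => a ^ n = 1) := by
    intro D hD hDn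
    have hsub : (Finset.univ.filter (fun a : A => (a : G) ∈ D)) ⊆
        Finset.univ.filter (fun a : A => a ^ n = 1) := by
      intro a ha
      rw [Finset.mem_filter] at ha ⊢
      refine ⟨Finset.mem_univ _, ?_⟩
      apply Subtype.ext
      have h1 : (⟨a, ha.2⟩ : D) ^ Nat.card D = 1 := pow_card_eq_one'
      rw [hDn] at h1
      have h2 : (a : G) ^ n = 1 := congrArg Subtype.val h1
      exact h2
    have hcard : (Finset.univ.filter (fun a : A => (a : G) ∈ D)).card = n := by
      rw [← hDn, ← Fintype.card_subtype, ← Nat.card_eq_fintype_card]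
      exact Nat.card_congr (Subgroup.subgroupOfEquivOfLe hD).toEquiv
    have heq := Finset.eq_of_subset_of_card_le hsub (by rw [hcard]; exact hle)
    intro x
    constructor
    · intro hx
      refine ⟨hD hx, ?_⟩
      rw [← heq, Finset.mem_filter]
      exact ⟨Finset.mem_univ _, hx⟩
    · rintro ⟨hx, hx2⟩
      rw [← heq, Finset.mem_filter] at hx2
      exact hx2.2
  ext x
  rw [key B hB hn.symm x, key C hC h.symm x]

end gen

end Cfsg.Agent.Cyc
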