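import Cfsg.Agent.Cyc.PQE

/-!
# Doubly transitive groups of degree `p ^ 2 + 1`: the basic configuration
-/

set_option autoImplicit false
set_option linter.unusedSectionVars false

namespace Cfsg.Agent.Cyc

open MulAction

/-- The basic configuration. -/
structure Cfg (G : Type*) {Ω : Type*} [Group G] [MulAction G Ω] (p : ℕ) (a b : Ω)
    (r : Ω → Ω → Prop) (P : Subgroup G) : Prop where
  hΩ : Nat.card Ω = p ^ 2 + 1
  h2 : IsMultiplyPretransitive G Ω 2
  hab : b ≠ a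
  sys : Sys G p a r
  fixa : ∀ u ∈ P, u • a = a
  card : Nat.card P = p ^ 2
  comm : ∀ x ∈ P, ∀ y ∈ P, x * y = y * x
  reg : ∀ x y, x ≠ a → y ≠ a → ∃ u ∈ P, u • x = y
  inj : ∀ u ∈ P, ∀ x, x ≠ a → u • x = x → u = 1
  cop : ¬ p ∣ Nat.card ↥(stabilizer G a ⊓ stabilizer G b)

/-- The kernel on the classes. -/
def Sys.ker {G : Type*} {Ω : Type*} [Group G] [MulAction G Ω] {p : ℕ} {a : Ω}
    {r : Ω → Ω → Prop} (h : Sys G p a r) : Subgroup G where
  carrier := {k | k • a = a ∧ ∀ x, r x (k • x)}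
  mul_mem' := by
    rintro x y ⟨hx, hx'⟩ ⟨hy, hy'⟩
    refine ⟨by rw [mul_smul, hy, hx], fun z => ?_⟩
    rw [mul_smul]
    exact h.trans (hy' z) (hx' _)
  one_mem' := ⟨one_smul _ _, fun z => by rw [one_smul]; exact h.refl z⟩
  inv_mem' := by
    rintro x ⟨hx, hx'⟩
    refine ⟨by rw [inv_smul_eq_iff, hx], fun z => ?_⟩
    have := hx' (x⁻¹ • z)
    rw [smul_inv_smul] at this
    exact h.symm this

section

variable {G Ω : Type*} [Group G] [MulAction G Ω] [Finite G] [Finite Ω] {p : ℕ}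
  [hp : Fact p.Prime] {a b : Ω} {r : Ω → Ω → Prop} {P : Subgroup G}

theorem Sys.mem_ker (h : Sys G p a r) {k : G} : k ∈ h.ker ↔ k • a = a ∧ ∀ x, r x (k • x) := Iff.rfl

theorem exists_cfg [FaithfulSMul G Ω] (hΩ : Nat.card Ω = p ^ 2 + 1)
    (h2 : IsMultiplyPretransitive G Ω 2) (hab : b ≠ a)
    (hnp : ¬ IsPreprimitive (stabilizer G a) (SubMulAction.ofStabilizer G a)) :
    ∃ (r : Ω → Ω → Prop) (P : Subgroup G), Cfg G p a b r P := by
  obtain ⟨r, hS⟩ := exists_sys (p := p) hΩ h2 a hnp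
  obtain ⟨P, hPa, hPp, hPt, m, hm, hpm⟩ := exists_P (p := p) hΩ h2 a
  have hb := step_one hΩ h2 hab hS hPa hPp hPt hm hpm
  have hcardΩ : {y : Ω | y ≠ a}.ncard = p ^ 2 := by
    have h1 : {y : Ω | y ≠ a} = {a}ᶜ := rfl
    rw [h1, Set.ncard_compl, Set.ncard_singleton, hΩ, Nat.add_sub_cancel]
  have hcP : Nat.card P = p ^ 2 := by
    have h1 := card_orb P b {y : Ω | y ≠ a} (by
      intro y
      constructor
      · intro hy
        exact hPt b y hab hy
      · rintro ⟨u, hu, rfl⟩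
        exact smul_ne (hPa hu) hab)
    rw [h1, hcardΩ, hb, Subgroup.card_bot, mul_one]
  refine ⟨r, P, hΩ, h2, hab, hS, fun u hu => hPa hu, hcP, ?_, hPt, ?_, ?_⟩
  · intro x hx y hy
    have := IsPGroup.commutative_of_card_eq_prime_sq hcP (⟨x, hx⟩ : P) ⟨y, hy⟩
    exact congrArg Subtype.val this
  · intro u hu x hx hux
    obtain ⟨v, hv, rfl⟩ := hPt b x hab hx
    have h1 : v⁻¹ * u * v ∈ P ⊓ stabilizer G b := by
      refine ⟨P.mul_mem (P.mul_mem (P.inv_mem hv) hu) hv, ?_⟩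
      change (v⁻¹ * u * v) • b = b
      rw [mul_smul, mul_smul, hux, inv_smul_smul]
    rw [hb, Subgroup.mem_bot] at h1
    have h3 : u = v * (v⁻¹ * u * v) * v⁻¹ := by group
    rw [h3, h1]; group
  · have h1 := card_orb (stabilizer G a) b {y : Ω | y ≠ a} (by
      intro y
      constructor
      · intro hy
        obtain ⟨u, hu, h⟩ := hPt b y hab hy
        exact ⟨u, hPa hu, h⟩
      · rintro ⟨u, hu, rfl⟩
        exact smul_ne hu hab)
    rw [hcardΩ, hm, hcP] at h1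
    rw [← Nat.eq_of_mul_eq_mul_left (by have := hp.out.pos; positivity) h1]
    exact hpm

namespace Cfg

variable (h : Cfg G p a b r P)
include h

theorem card_off : {y : Ω | y ≠ a}.ncard = p ^ 2 := by
  have h1 : {y : Ω | y ≠ a} = {a}ᶜ := rfl
  rw [h1, Set.ncard_compl, Set.ncard_singleton, h.hΩ, Nat.add_sub_cancel]

theorem cop' {c : Ω} (hc : c ≠ a) {N : Subgroup G} (hN : N ≤ stabilizer G a ⊓ stabilizer G c) :
    ¬ p ∣ Nat.card N := by
  intro hd
  obtain ⟨u, hu, hub⟩ := h.reg c b hc h.hab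
  apply h.cop
  rw [← card_cj u N] at hd
  refine hd.trans (Subgroup.card_dvd_of_le ?_)
  intro x hx
  rw [mem_cj] at hx
  have h1 := hN hx
  have h2 : (u⁻¹ * x * u) • a = a := h1.1
  have h3 : (u⁻¹ * x * u) • c = c := h1.2
  rw [mul_smul, mul_smul, h.fixa u hu, inv_smul_eq_iff, h.fixa u hu] at h2
  rw [mul_smul, mul_smul, hub, inv_smul_eq_iff, hub] at h3
  exact ⟨h2, h3⟩

theorem inv_fix {g : G} (hg : g • a = a) : g⁻¹ • a = a := by rw [inv_smul_eq_iff, hg]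

theorem ker_conj {g k : G} (hg : g • a = a) (hk : k ∈ h.sys.ker) : g * k * g⁻¹ ∈ h.sys.ker := by
  have hg' := h.inv_fix hg
  refine ⟨by rw [mul_smul, mul_smul, hg', hk.1, hg], fun x => ?_⟩
  have h1 := h.sys.inv g hg (hk.2 (g⁻¹ • x))
  rw [smul_inv_smul] at h1
  rw [mul_smul, mul_smul]
  exact h1

theorem mem_ker_of {x : G} (hx : x ∈ P) (hb : r b (x • b)) : x ∈ h.sys.ker := by
  refine ⟨h.fixa x hx, fun y => ?_⟩
  rcases eq_or_ne y a with rfl | hy
  · rw [h.fixa x hx]; exact h.sys.refl _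
  · obtain ⟨u, hu, rfl⟩ := h.reg b y h.hab hy
    have h1 := h.sys.inv u (h.fixa u hu) hb
    rw [← mul_smul, h.comm u hu x hx, mul_smul] at h1
    exact h1

theorem Q_cls {c y : Ω} (hc : c ≠ a) : r c y ↔ ∃ q ∈ P ⊓ h.sys.ker, q • c = y := by
  constructor
  · intro hcy
    obtain ⟨q, hq, rfl⟩ := h.reg c y hc (h.sys.ne hc hcy)
    refine ⟨q, ⟨hq, h.mem_ker_of hq ?_⟩, rfl⟩
    obtain ⟨u, hu, rfl⟩ := h.reg b c h.hab hc
    have h1 := h.sys.inv u⁻¹ (h.fixa _ (P.inv_mem hu)) hcy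
    rw [inv_smul_smul, ← mul_smul, ← mul_smul, mul_assoc, h.comm q hq u hu, ← mul_assoc,
      inv_mul_cancel, one_mul] at h1
    exact h1
  · rintro ⟨q, hq, rfl⟩
    exact hq.2.2 c

theorem card_Q : Nat.card ↥(P ⊓ h.sys.ker) = p := by
  have h1 := card_orb (P ⊓ h.sys.ker) b {y | r b y} (fun y => h.Q_cls h.hab)
  rw [h.sys.card b h.hab] at h1
  have h2 : (P ⊓ h.sys.ker) ⊓ stabilizer G b = ⊥ := by
    rw [eq_bot_iff]
    rintro x ⟨hx, hx2⟩
    exact h.inj x hx.1 b h.hab hx2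
  rw [h1, h2, Subgroup.card_bot, mul_one]

/-- The kernel on the classes acts faithfully on each class. -/
theorem ker_faithful [FaithfulSMul G Ω] {k : G} (hk : k ∈ h.sys.ker) {c : Ω} (hc : c ≠ a)
    (hfix : ∀ y, r c y → k • y = y) : k = 1 := by
  let N : Subgroup G :=
    { carrier := {k | k ∈ h.sys.ker ∧ ∀ y, r c y → k • y = y}
      mul_mem' := by
        rintro x y ⟨hx, hx'⟩ ⟨hy, hy'⟩
        exact ⟨Subgroup.mul_mem _ hx hy, fun z hz => by rw [mul_smul, hy' z hz, hx' z hz]⟩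
      one_mem' := ⟨Subgroup.one_mem _, fun z _ => one_smul _ _⟩
      inv_mem' := by
        rintro x ⟨hx, hx'⟩
        exact ⟨Subgroup.inv_mem _ hx, fun z hz => by rw [inv_smul_eq_iff, hx' z hz]⟩ }
  have hNle : N ≤ h.sys.ker := fun x hx => hx.1
  have hkN : k ∈ N := ⟨hk, hfix⟩
  have hNst : N ≤ stabilizer G a ⊓ stabilizer G c :=
    fun x hx => ⟨hx.1.1, hx.2 c (h.sys.refl c)⟩
  have hcop := h.cop' hc hNst
  apply FaithfulSMul.eq_of_smul_eq_smul (α := Ω)
  intro d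
  rw [one_smul]
  rcases eq_or_ne d a with rfl | hd
  · exact hk.1
  · refine normal_pprime_trivial {y | r d y} (h.sys.card d hd) h.sys.ker N hNle ?_ ?_ ?_ hcop k hkN
      d (h.sys.refl d)
    · intro g hg x hx
      exact h.sys.trans hx (hg.2 x)
    · intro x hx y hy
      have hxy : r x y := h.sys.trans (h.sys.symm hx) hy
      obtain ⟨q, hq, hqx⟩ := (h.Q_cls (h.sys.ne hd hx)).1 hxy
      exact ⟨q, hq.2, hqx⟩
    · intro g hg n hn
      refine ⟨h.ker_conj hg.1 hn.1, fun y hy => ?_⟩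
      have h1 : r c (g⁻¹ • y) := h.sys.trans hy ((Subgroup.inv_mem _ hg).2 y)
      rw [mul_smul, mul_smul, hn.2 _ h1, smul_inv_smul]

theorem card_ker : Nat.card h.sys.ker = p * Nat.card ↥(h.sys.ker ⊓ stabilizer G b) := by
  have h1 := card_orb h.sys.ker b {y | r b y} (by
    intro y
    constructor
    · intro hy
      obtain ⟨q, hq, hqx⟩ := (h.Q_cls h.hab).1 hy
      exact ⟨q, hq.2, hqx⟩
    · rintro ⟨q, hq, rfl⟩
      exact hq.2 b)
  rw [h.sys.card b h.hab] at h1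
  exact h1

theorem ker_le : h.sys.ker ≤ stabilizer G a := fun _ hx => hx.1

end Cfg

end

end Cfsg.Agent.Cyc
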