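import Cfsg.Agent.Cyc.PQF

/-!
# Doubly transitive groups of degree `p ^ 2 + 1`: a normal subgroup of order `p` in `G_a`
-/

set_option autoImplicit false
set_option linter.unusedSectionVars false

namespace Cfsg.Agent.Cyc

open MulAction

theorem normal_of_small {G : Type*} [Group G] [Finite G] {p : ℕ} [hp : Fact p.Prime]
    {A P : Subgroup G} (hPA : P ≤ A) (hPp : IsPGroup p P) {m : ℕ}
    (hm : Nat.card A = Nat.card P * m) (hmp : m < p) :
    ∀ x ∈ A, ∀ u ∈ P, x * u * x⁻¹ ∈ P := by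
  intro x hx u hu
  have hle : cj x P ≤ A := by
    intro y hy
    rw [mem_cj] at hy
    have : y = x * (x⁻¹ * y * x) * x⁻¹ := by group
    rw [this]
    exact A.mul_mem (A.mul_mem hx (hPA hy)) (A.inv_mem hx)
  have h1 : (cj x P).relIndex A = m := by
    have h2 := Subgroup.card_mul_index ((cj x P).subgroupOf A)
    rw [Nat.card_congr (Subgroup.subgroupOfEquivOfLe hle).toEquiv, card_cj, hm] at h2
    exact Nat.eq_of_mul_eq_mul_left Nat.card_pos h2
  have hm0 : m ≠ 0 := by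
    rintro rfl
    rw [mul_zero] at hm
    exact Nat.card_pos.ne' hm
  have h3 : (cj x P).relIndex P ≤ m := by
    rw [← h1]
    exact Subgroup.relIndex_le_of_le_right hPA (by rw [h1]; exact hm0)
  obtain ⟨k, hk⟩ := IsPGroup.iff_card.1 hPp
  have h4 : (cj x P).relIndex P ∣ p ^ k := by
    rw [← hk]
    exact Subgroup.index_dvd_card _
  obtain ⟨j, -, hj⟩ := (Nat.dvd_prime_pow hp.out).1 h4
  have h5 : (cj x P).relIndex P = 1 := by
    rw [hj]
    cases j with
    | zero => rfl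
    | succ j =>
      exfalso
      rw [hj, pow_succ] at h3
      have := Nat.one_le_pow j p hp.out.pos
      nlinarith
  rw [Subgroup.relIndex_eq_one] at h5
  have h6 : P = cj x P := Subgroup.eq_of_le_of_card_ge h5 (by rw [card_cj])
  rw [h6]
  exact conj_mem_cj hu

section

variable {G Ω : Type*} [Group G] [MulAction G Ω] [Finite G] [Finite Ω] {p : ℕ}
  [hp : Fact p.Prime] {a b : Ω} {r : Ω → Ω → Prop} {P : Subgroup G}

namespace Cfg

variable (h : Cfg G p a b r P)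
include h

theorem gen_Q {q q' : G} (hq : q ∈ P ⊓ h.sys.ker) (hq' : q' ∈ P ⊓ h.sys.ker) (hq1 : q ≠ 1) :
    q' ∈ Subgroup.zpowers q := by
  have h1 := mem_zpowers_of_prime_card (p := p) (G := ↥(P ⊓ h.sys.ker)) (g := ⟨q, hq⟩)
    (g' := ⟨q', hq'⟩) h.card_Q (fun hh => hq1 (congrArg Subtype.val hh))
  rw [Subgroup.mem_zpowers_iff] at h1 ⊢
  obtain ⟨k, hk⟩ := h1
  exact ⟨k, congrArg Subtype.val hk⟩

theorem comm_Q {n q q' : G} (hq : q ∈ P ⊓ h.sys.ker) (hq' : q' ∈ P ⊓ h.sys.ker) (hq1 : q ≠ 1)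
    (hn : n * q = q * n) : n * q' = q' * n := by
  obtain ⟨k, rfl⟩ := Subgroup.mem_zpowers_iff.1 (h.gen_Q hq hq' hq1)
  have : Commute n q := hn
  exact this.zpow_right k

theorem exists_Q : ∃ q ∈ P ⊓ h.sys.ker, q ≠ 1 := by
  have h1 : 1 < Nat.card ↥(P ⊓ h.sys.ker) := by rw [h.card_Q]; exact hp.out.one_lt
  rw [Finite.one_lt_card_iff_nontrivial] at h1
  obtain ⟨q, hq⟩ := exists_ne (1 : ↥(P ⊓ h.sys.ker))
  exact ⟨q, q.2, fun hh => hq (Subtype.ext hh)⟩

theorem Q_eq_bot_of_fix {x : G} (hx : x ∈ P) {c : Ω} (hc : c ≠ a) (hxc : x • c = c) : x = 1 :=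
  h.inj x hx c hc hxc

/-- `C(Q) ∩ K = Q`. -/
theorem cent_ker [FaithfulSMul G Ω] {x : G} (hx : x ∈ h.sys.ker)
    (hxc : ∀ q ∈ P ⊓ h.sys.ker, x * q = q * x) : x ∈ P := by
  obtain ⟨q, hq, hqx⟩ := (h.Q_cls h.hab).1 (hx.2 b)
  have h1 : q⁻¹ * x = 1 := by
    apply h.ker_faithful (Subgroup.mul_mem _ (Subgroup.inv_mem _ hq.2) hx) h.hab
    intro y hy
    obtain ⟨q', hq', rfl⟩ := (h.Q_cls h.hab).1 hy
    have h2 : q⁻¹ * q' * q = q' := by
      rw [mul_assoc, h.comm q' hq'.1 q hq.1, ← mul_assoc, inv_mul_cancel, one_mul]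
    rw [mul_smul, ← mul_smul x, hxc q' hq', mul_smul, ← hqx, ← mul_smul, ← mul_smul, h2]
  rw [inv_mul_eq_one] at h1
  rw [← h1]
  exact hq.1

theorem ker_stab_faithful [FaithfulSMul G Ω] {x : G} (hx : x ∈ h.sys.ker) (hxb : x • b = b)
    (hxc : ∀ q ∈ P ⊓ h.sys.ker, x * q = q * x) : x = 1 :=
  h.inj x (h.cent_ker hx hxc) b h.hab hxb

variable (hQ : ∀ g : G, g • a = a → ∀ q ∈ P ⊓ h.sys.ker, g * q * g⁻¹ ∈ P ⊓ h.sys.ker)
include hQ

theorem ker_stab_cyclic [FaithfulSMul G Ω] {N : Subgroup G} (hN : N ≤ h.sys.ker ⊓ stabilizer G b) :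
    IsCyclic N ∧ Nat.card N ∣ p - 1 :=
  cyc_of_faithful (P ⊓ h.sys.ker) N h.card_Q (fun x hx q hq => hQ x (hN hx).1.1 q hq)
    (fun x hx hxc => h.ker_stab_faithful (hN hx).1 (hN hx).2 hxc)

theorem le_ker_of_fix {N : Subgroup G} (hN : N ≤ stabilizer G a ⊓ stabilizer G b)
    (hc : (Fx Ω N).ncard = p + 1) {n q0 : G} (hn : n ∈ N) (hq0 : q0 ∈ P ⊓ h.sys.ker)
    (hne : n * q0 ≠ q0 * n) : N ≤ h.sys.ker := by
  have hna : n • a = a := (hN hn).1
  have hinj : ∀ x y, x ∈ Fx Ω N → x ≠ a → y ∈ Fx Ω N → r x y → x = y := by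
    intro x y hx hxa hy hxy
    obtain ⟨q, hq, rfl⟩ := (h.Q_cls hxa).1 hxy
    have h1 := hx n hn
    have h2 := hy n hn
    by_cases hq1 : q = 1
    · rw [hq1, one_smul]
    · exfalso
      apply hne
      apply h.comm_Q hq hq0 hq1
      have h3 : (q⁻¹ * (n * q * n⁻¹)) • x = x := by
        have h4 : (n * q * n⁻¹) • x = q • x := by
          rw [mul_smul, inv_smul_eq_iff.2 h1.symm, mul_smul, h2]
        rw [mul_smul, h4, inv_smul_smul]
      have h5 := h.inj _ (P.mul_mem (P.inv_mem hq.1) (hQ n hna q hq).1) x hxa h3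
      rw [inv_mul_eq_one] at h5
      calc n * q = (n * q * n⁻¹) * n := by group
        _ = q * n := by rw [← h5]
  have haF : a ∈ Fx Ω N := fun g hg => (hN hg).1
  set F : Set Ω := Fx Ω N \ {a} with hF
  have hFc : F.ncard = p := by
    rw [hF, Set.ncard_sdiff_singleton_of_mem haF, hc, Nat.add_sub_cancel]
  have himg : (fun z : Ω × G => z.2 • z.1) '' (F ×ˢ ((P ⊓ h.sys.ker : Subgroup G) : Set G)) =
      {y : Ω | y ≠ a} := by
    refine Set.eq_of_subset_of_ncard_le ?_ ?_ (Set.toFinite _)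
    · rintro _ ⟨⟨x, q⟩, ⟨hx, hq⟩, rfl⟩
      exact smul_ne (h.fixa q hq.1) hx.2
    · rw [Set.InjOn.ncard_image, Set.ncard_prod, hFc, h.card_off]
      · have : (((P ⊓ h.sys.ker : Subgroup G) : Set G)).ncard = p := by
          rw [← Nat.card_coe_set_eq]; exact h.card_Q
        rw [this, pow_two]
      · rintro ⟨x, q⟩ ⟨hx, hq⟩ ⟨x', q'⟩ ⟨hx', hq'⟩ heq
        simp only at heq hx hq hx' hq'
        have hrx : r x x' := by
          rw [h.Q_cls hx.2]
          refine ⟨q'⁻¹ * q, Subgroup.mul_mem _ (Subgroup.inv_mem _ hq') hq, ?_⟩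
          rw [mul_smul, heq, inv_smul_smul]
        have hxx := hinj x x' hx.1 hx.2 hx'.1 hrx
        subst hxx
        have h6 : (q'⁻¹ * q) • x = x := by rw [mul_smul, heq, inv_smul_smul]
        have h7 := h.inj _ (P.mul_mem (P.inv_mem hq'.1) hq.1) x hx.2 h6
        rw [inv_mul_eq_one] at h7
        rw [h7]
  intro k hk
  have hka : k • a = a := (hN hk).1
  refine ⟨hka, fun y => ?_⟩
  rcases eq_or_ne y a with rfl | hy
  · rw [hka]; exact h.sys.refl _
  · have hy' : y ∈ {y : Ω | y ≠ a} := hy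
    rw [← himg] at hy'
    obtain ⟨⟨x, q⟩, ⟨hx, hq⟩, rfl⟩ := hy'
    simp only at hx hq ⊢
    have h1 : r x (q • x) := hq.2.2 x
    have h2 := h.sys.inv k hka h1
    rw [hx.1 k hk] at h2
    exact h.sys.trans (h.sys.symm h1) h2

open scoped Pointwise in
theorem P_norm_C [FaithfulSMul G Ω] (hp2 : p ≠ 2) : ∀ c : G, c • a = a →
    (∀ q ∈ P ⊓ h.sys.ker, c * q = q * c) → ∀ u ∈ P, c * u * c⁻¹ ∈ P := by
  set Q : Subgroup G := P ⊓ h.sys.ker with hQdef
  have hPp : IsPGroup p P := IsPGroup.of_card h.card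
  let C : Subgroup G := stabilizer G a ⊓ Subgroup.centralizer (Q : Set G)
  have hmemC : ∀ x, x ∈ C ↔ x • a = a ∧ ∀ q ∈ Q, x * q = q * x := by
    intro x
    change (x ∈ stabilizer G a ∧ x ∈ Subgroup.centralizer (Q : Set G)) ↔ _
    rw [Subgroup.mem_centralizer_iff, mem_stabilizer_iff]
    constructor
    · rintro ⟨h1, h2⟩
      exact ⟨h1, fun q hq => (h2 q hq).symm⟩
    · rintro ⟨h1, h2⟩
      exact ⟨h1, fun q hq => (h2 q hq).symm⟩
  have hPC : P ≤ C := fun u hu => (hmemC u).2 ⟨h.fixa u hu, fun q hq => h.comm u hu q hq.1⟩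
  suffices hsuf : ∀ c ∈ C, ∀ u ∈ P, c * u * c⁻¹ ∈ P by
    intro c hc hcq
    exact hsuf c ((hmemC c).2 ⟨hc, hcq⟩)
  by_contra hcon
  -- classes
  let cls : Ω → Set Ω := fun x => {y | r x y}
  let Sg : Set (Set Ω) := {S | ∃ x, x ≠ a ∧ S = cls x}
  have hclseq : ∀ x y, r x y ↔ cls x = cls y := by
    intro x y
    constructor
    · intro hxy
      ext z
      exact ⟨fun hz => h.sys.trans (h.sys.symm hxy) hz, fun hz => h.sys.trans hxy hz⟩
    · intro hxy
      have : y ∈ cls y := h.sys.refl y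
      rw [← hxy] at this
      exact this
  have hsmul : ∀ g : G, g • a = a → ∀ x, g • cls x = cls (g • x) := by
    intro g hg x
    ext y
    rw [Set.mem_smul_set_iff_inv_smul_mem]
    change r x (g⁻¹ • y) ↔ r (g • x) y
    constructor
    · intro hh
      have := h.sys.inv g hg hh
      rwa [smul_inv_smul] at this
    · intro hh
      have := h.sys.inv g⁻¹ (h.inv_fix hg) hh
      rwa [inv_smul_smul] at this
  have hSgc : Sg.ncard = p := by
    have h1 := card_orb P (cls b) Sg (by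
      intro S
      constructor
      · rintro ⟨x, hx, rfl⟩
        obtain ⟨u, hu, rfl⟩ := h.reg b x h.hab hx
        exact ⟨u, hu, hsmul u (h.fixa u hu) b⟩
      · rintro ⟨u, hu, rfl⟩
        exact ⟨u • b, smul_ne (h.fixa u hu) h.hab, hsmul u (h.fixa u hu) b⟩)
    have h2 : P ⊓ stabilizer G (cls b) = Q := by
      apply le_antisymm
      · rintro u ⟨hu, hu2⟩
        refine ⟨hu, h.mem_ker_of hu ?_⟩
        have hu3 : u • cls b = cls b := hu2
        rw [hsmul u (h.fixa u hu)] at hu3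
        rw [hclseq]; exact hu3.symm
      · rintro u hu
        refine ⟨hu.1, ?_⟩
        change u • cls b = cls b
        rw [hsmul u (h.fixa u hu.1)]
        exact ((hclseq _ _).1 (hu.2.2 b)).symm
    rw [h2, h.card, h.card_Q, pow_two] at h1
    exact (Nat.eq_of_mul_eq_mul_right hp.out.pos h1).symm
  -- the two-point stabilizer in `C`
  let M : Subgroup G := C ⊓ stabilizer G b
  have hcC : Nat.card C = Nat.card P * Nat.card M := by
    rw [h.card, ← h.card_off]
    apply card_orb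
    intro y
    constructor
    · intro hy
      obtain ⟨u, hu, hub⟩ := h.reg b y h.hab hy
      exact ⟨u, hPC hu, hub⟩
    · rintro ⟨u, hu, rfl⟩
      exact smul_ne ((hmemC u).1 hu).1 h.hab
  have hMp : p ≤ Nat.card M := by
    by_contra hlt
    push Not at hlt
    exact hcon (normal_of_small hPC hPp hcC hlt)
  have htwo : ∀ x ∈ Sg, ∀ y ∈ Sg, ∀ x' ∈ Sg, ∀ y' ∈ Sg, x ≠ y → x' ≠ y' →
      ∃ g ∈ C, g • x = x' ∧ g • y = y' := by
    rcases burn_set Sg hSgc C (by
      rintro g hg S ⟨x, hx, rfl⟩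
      have hga := ((hmemC g).1 hg).1
      exact ⟨g • x, smul_ne hga hx, hsmul g hga x⟩) P hPC hPp (by
      rintro S ⟨x, hx, rfl⟩ S' ⟨y, hy, rfl⟩
      obtain ⟨u, hu, rfl⟩ := h.reg x y hx hy
      exact ⟨u, hu, hsmul u (h.fixa u hu) x⟩) with h1 | h1
    · exact h1
    · exfalso
      apply hcon
      intro g hg u hu
      obtain ⟨v, hv, hv2⟩ := h1 g hg u hu
      have hgC : v⁻¹ * (g * u * g⁻¹) ∈ C :=
        C.mul_mem (C.inv_mem (hPC hv)) (C.mul_mem (C.mul_mem hg (hPC hu)) (C.inv_mem hg))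
      have hga := ((hmemC _).1 hgC).1
      have hker : v⁻¹ * (g * u * g⁻¹) ∈ h.sys.ker := by
        refine ⟨hga, fun x => ?_⟩
        rcases eq_or_ne x a with rfl | hx
        · rw [hga]; exact h.sys.refl _
        · rw [hclseq, ← hsmul _ hga, mul_smul, hv2 (cls x) ⟨x, hx, rfl⟩, inv_smul_smul]
      have h2 := h.cent_ker hker ((hmemC _).1 hgC).2
      have h3 : g * u * g⁻¹ = v * (v⁻¹ * (g * u * g⁻¹)) := by group
      rw [h3]
      exact P.mul_mem hv h2
  have hFx : Fx Ω M = insert a {y | r b y} := by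
    ext c
    rw [Set.mem_insert_iff]
    constructor
    · intro hc
      by_contra hcon2
      push Not at hcon2
      obtain ⟨hca, hbc⟩ := hcon2
      have hbc' : ¬ r b c := hbc
      have hne : cls b ≠ cls c := fun hh => hbc' ((hclseq b c).2 hh)
      obtain ⟨S, hS, hS1, hS2⟩ : ∃ S ∈ Sg, S ≠ cls b ∧ S ≠ cls c := by
        by_contra hcon3
        push Not at hcon3
        have hsub : Sg ⊆ {cls b, cls c} := by
          intro S hS
          by_cases h4 : S = cls b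
          · exact Or.inl h4
          · exact Or.inr (hcon3 S hS h4)
        have h5 := Set.ncard_le_ncard hsub (Set.toFinite _)
        rw [hSgc] at h5
        have h6 := (Set.ncard_insert_le (cls b) {cls c})
        rw [Set.ncard_singleton] at h6
        have h7 := hp.out.two_le
        omega
      obtain ⟨g, hg, hg1, hg2⟩ := htwo (cls b) ⟨b, h.hab, rfl⟩ (cls c) ⟨c, hca, rfl⟩ (cls b)
        ⟨b, h.hab, rfl⟩ S hS hne hS1.symm
      have hga := ((hmemC g).1 hg).1
      rw [hsmul g hga] at hg1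
      obtain ⟨q, hq, hqg⟩ := (h.Q_cls h.hab).1 ((hclseq _ _).2 hg1.symm)
      have hm : q⁻¹ * g ∈ M := by
        refine ⟨C.mul_mem (C.inv_mem (hPC hq.1)) hg, ?_⟩
        change (q⁻¹ * g) • b = b
        rw [mul_smul, ← hqg, inv_smul_smul]
      have h8 := hc _ hm
      rw [mul_smul, inv_smul_eq_iff] at h8
      apply hS2
      rw [← hg2, hsmul g hga, h8]
      exact ((hclseq _ _).1 (hq.2.2 c)).symm
    · rintro (rfl | hc)
      · intro m hm
        exact ((hmemC m).1 hm.1).1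
      · intro m hm
        obtain ⟨q, hq, rfl⟩ := (h.Q_cls h.hab).1 hc
        rw [← mul_smul, ((hmemC m).1 hm.1).2 q hq, mul_smul]
        have : m • b = b := hm.2
        rw [this]
  have hFc : (Fx Ω M).ncard = p + 1 := by
    have hna : a ∉ {y | r b y} := fun hh => h.hab (h.sys.base (h.sys.symm hh))
    rw [hFx, Set.ncard_insert_of_notMem hna, h.sys.card b h.hab]
  have hMD : M ≤ stabilizer G a ⊓ stabilizer G b := fun m hm => ⟨((hmemC m).1 hm.1).1, hm.2⟩
  apply lambda_one h.h2 hp.out h.hΩ M hFc h.hab.symm hMD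
  intro g hg hgc
  by_cases hall : cj g M ≤ C
  · have : cj g M = M := cj_eq_of_le (le_inf hall (hg.trans inf_le_right)) rfl
    rw [this]
  · exfalso
    obtain ⟨n, hn, hnC⟩ := SetLike.not_le_iff_exists.1 hall
    have hna : n • a = a := (hg hn).1
    obtain ⟨q0, hq0, hne⟩ : ∃ q0 ∈ Q, n * q0 ≠ q0 * n := by
      by_contra hcon4
      push Not at hcon4
      exact hnC ((hmemC n).2 ⟨hna, hcon4⟩)
    have h9 := h.le_ker_of_fix hQ hg hgc hn hq0 hne
    have h10 := (h.ker_stab_cyclic hQ (le_inf h9 (hg.trans inf_le_right))).2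
    rw [card_cj] at h10
    have h11 := Nat.le_of_dvd (by have := hp.out.two_le; omega) h10
    have := hp.out.two_le
    omega

theorem P_norm [FaithfulSMul G Ω] (hp2 : p ≠ 2) : ∀ g : G, g • a = a → ∀ u ∈ P, g * u * g⁻¹ ∈ P := by
  intro g hg u hu
  let C : Subgroup G := stabilizer G a ⊓ Subgroup.centralizer ((P ⊓ h.sys.ker : Subgroup G) : Set G)
  have hmemC : ∀ x, x ∈ C ↔ x • a = a ∧ ∀ q ∈ (P ⊓ h.sys.ker), x * q = q * x := by
    intro x
    change (x ∈ stabilizer G a ∧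
      x ∈ Subgroup.centralizer ((P ⊓ h.sys.ker : Subgroup G) : Set G)) ↔ _
    rw [Subgroup.mem_centralizer_iff, mem_stabilizer_iff]
    constructor
    · rintro ⟨h1, h2⟩
      exact ⟨h1, fun q hq => (h2 q hq).symm⟩
    · rintro ⟨h1, h2⟩
      exact ⟨h1, fun q hq => (h2 q hq).symm⟩
  have hPC : P ≤ C := fun u hu => (hmemC u).2 ⟨h.fixa u hu, fun q hq => h.comm u hu q hq.1⟩
  have hcC : Nat.card C = Nat.card P * Nat.card ↥(C ⊓ stabilizer G b) := by
    rw [h.card, ← h.card_off]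
    apply card_orb
    intro y
    constructor
    · intro hy
      obtain ⟨u, hu, hub⟩ := h.reg b y h.hab hy
      exact ⟨u, hPC hu, hub⟩
    · rintro ⟨u, hu, rfl⟩
      exact smul_ne ((hmemC u).1 hu).1 h.hab
  have hcop : ¬ p ∣ Nat.card ↥(C ⊓ stabilizer G b) :=
    h.cop' h.hab (fun x hx => ⟨((hmemC x).1 hx.1).1, hx.2⟩)
  refine mem_of_ppow hPC (fun x hx => ?_) hcC hcop ?_ 2 ?_
  · exact h.P_norm_C hQ hp2 x ((hmemC x).1 hx).1 ((hmemC x).1 hx).2
  · rw [hmemC]
    refine ⟨by rw [mul_smul, mul_smul, h.inv_fix hg, h.fixa u hu, hg], fun q hq => ?_⟩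
    have h1 := hQ g⁻¹ (h.inv_fix hg) q hq
    rw [inv_inv] at h1
    have h2 := h.comm u hu _ h1.1
    calc g * u * g⁻¹ * q = g * (u * (g⁻¹ * q * g)) * g⁻¹ := by group
      _ = g * ((g⁻¹ * q * g) * u) * g⁻¹ := by rw [h2]
      _ = q * (g * u * g⁻¹) := by group
  · rw [conj_pow]
    have h3 : u ^ (p ^ 2) = 1 := by
      have h4 : (⟨u, hu⟩ : P) ^ Nat.card P = 1 := pow_card_eq_one'
      rw [h.card] at h4
      exact congrArg Subtype.val h4
    rw [h3]; group

end Cfg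

end

end Cfsg.Agent.Cyc
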