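import Cfsg.Agent.Cyc.PQG

/-!
# Doubly transitive groups of degree `p ^ 2 + 1`: case of a normal subgroup of order `p` in `G_a`
-/

set_option autoImplicit false
set_option linter.unusedSectionVars false

namespace Cfsg.Agent.Cyc

open MulAction

theorem sign_inv_six {Ω : Type*} [Fintype Ω] [DecidableEq Ω] (σ : Equiv.Perm Ω)
    (h2 : orderOf σ = 2) (hs : σ.support.card = 6) : Equiv.Perm.sign σ = -1 := by
  obtain ⟨n, hn⟩ := Equiv.Perm.cycleType_prime_order (σ := σ) (by rw [h2]; exact Nat.prime_two)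
  have h3 := Equiv.Perm.sum_cycleType σ
  rw [hn, Multiset.sum_replicate, h2, hs, smul_eq_mul] at h3
  have : n = 2 := by omega
  rw [Equiv.Perm.sign_of_cycleType, hn, this, h2, Multiset.sum_replicate, Multiset.card_replicate]
  norm_num

section

variable {G Ω : Type*} [Group G] [MulAction G Ω] [Finite G] [Finite Ω] {p : ℕ}
  [hp : Fact p.Prime] {a b : Ω} {r : Ω → Ω → Prop} {P : Subgroup G}

namespace Cfg

variable (h : Cfg G p a b r P)
include h

theorem card_Fx [FaithfulSMul G Ω] (hPn : ∀ g : G, g • a = a → ∀ u ∈ P, g * u * g⁻¹ ∈ P)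
    {N : Subgroup G} (hN : N ≤ stabilizer G a ⊓ stabilizer G b) (hN1 : N ≠ ⊥) {c : Ω}
    (hc : c ∈ Fx Ω N) (hca : c ≠ a) (hcb : c ≠ b) : (Fx Ω N).ncard = p + 1 := by
  let S : Subgroup G := P ⊓ Subgroup.centralizer (N : Set G)
  have hmemS : ∀ x, x ∈ S ↔ x ∈ P ∧ ∀ n ∈ N, n * x = x * n := by
    intro x
    change (x ∈ P ∧ x ∈ Subgroup.centralizer (N : Set G)) ↔ _
    rw [Subgroup.mem_centralizer_iff]
    rfl
  have hiff : ∀ u ∈ P, u • b ∈ Fx Ω N ↔ u ∈ S := by
    intro u hu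
    rw [hmemS, mem_Fx]
    constructor
    · intro hh
      refine ⟨hu, fun n hn => ?_⟩
      have hna : n • a = a := (hN hn).1
      have hnb : n • b = b := (hN hn).2
      have h1 := hh n hn
      have h2 : (u⁻¹ * (n * u * n⁻¹)) • b = b := by
        have h3 : (n * u * n⁻¹) • b = u • b := by
          rw [mul_smul, inv_smul_eq_iff.2 hnb.symm, mul_smul, h1]
        rw [mul_smul, h3, inv_smul_smul]
      have h4 := h.inj _ (P.mul_mem (P.inv_mem hu) (hPn n hna u hu)) b h.hab h2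
      rw [inv_mul_eq_one] at h4
      calc n * u = (n * u * n⁻¹) * n := by group
        _ = u * n := by rw [← h4]
    · rintro ⟨-, h2⟩ n hn
      have hnb : n • b = b := (hN hn).2
      rw [← mul_smul, h2 n hn, mul_smul, hnb]
  have hFx : Fx Ω N = insert a ((fun u : G => u • b) '' (S : Set G)) := by
    ext y
    rw [Set.mem_insert_iff, Set.mem_image]
    constructor
    · intro hy
      by_cases hya : y = a
      · exact Or.inl hya
      · right
        obtain ⟨u, hu, rfl⟩ := h.reg b y h.hab hya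
        exact ⟨u, (hiff u hu).1 hy, rfl⟩
    · rintro (rfl | ⟨u, hu, rfl⟩)
      · exact fun n hn => (hN hn).1
      · exact (hiff u ((hmemS u).1 hu).1).2 hu
  have hSc : Nat.card S = p := by
    have h1 : Nat.card S ∣ p ^ 2 := by
      rw [← h.card]; exact Subgroup.card_dvd_of_le inf_le_left
    obtain ⟨k, hk, hk'⟩ := (Nat.dvd_prime_pow hp.out).1 h1
    interval_cases k
    · exfalso
      rw [pow_zero, Subgroup.card_eq_one] at hk'
      obtain ⟨u, hu, rfl⟩ := h.reg b c h.hab hca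
      have h2 := (hiff u hu).1 hc
      rw [hk', Subgroup.mem_bot] at h2
      apply hcb
      rw [h2, one_smul]
    · rw [hk', pow_one]
    · exfalso
      have h2 : S = P := Subgroup.eq_of_le_of_card_ge inf_le_left (by rw [hk', h.card])
      apply hN1
      rw [eq_bot_iff]
      intro n hn
      rw [Subgroup.mem_bot]
      apply FaithfulSMul.eq_of_smul_eq_smul (α := Ω)
      intro y
      rw [one_smul]
      rcases eq_or_ne y a with rfl | hya
      · exact (hN hn).1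
      · obtain ⟨u, hu, rfl⟩ := h.reg b y h.hab hya
        exact (hiff u hu).2 (by rw [h2]; exact hu) n hn
  have hna : a ∉ ((fun u : G => u • b) '' (S : Set G)) := by
    rintro ⟨u, hu, hub⟩
    exact smul_ne (h.fixa u ((hmemS u).1 hu).1) h.hab hub
  rw [hFx, Set.ncard_insert_of_notMem hna, Set.InjOn.ncard_image]
  · rw [← Nat.card_coe_set_eq]
    congr 1
  · intro u hu v hv huv
    simp only at huv
    have hu' := ((hmemS u).1 hu).1
    have hv' := ((hmemS v).1 hv).1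
    have h6 : (v⁻¹ * u) • b = b := by rw [mul_smul, huv, inv_smul_smul]
    have h7 := h.inj _ (P.mul_mem (P.inv_mem hv') hu') b h.hab h6
    rw [inv_mul_eq_one] at h7
    exact h7.symm

theorem mem_ker_of_class (hPn : ∀ g : G, g • a = a → ∀ u ∈ P, g * u * g⁻¹ ∈ P)
    (hQ : ∀ g : G, g • a = a → ∀ q ∈ P ⊓ h.sys.ker, g * q * g⁻¹ ∈ P ⊓ h.sys.ker)
    {x : G} (hxa : x • a = a) (hxb : x • b = b) {c : Ω} (hca : c ≠ a) (hbc : ¬ r b c)
    (hxc : r c (x • c)) : x ∈ h.sys.ker := by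
  let S : Subgroup G :=
    { carrier := {v | v ∈ P ∧ x * v * x⁻¹ * v⁻¹ ∈ P ⊓ h.sys.ker}
      mul_mem' := by
        rintro v w ⟨hv, hv'⟩ ⟨hw, hw'⟩
        refine ⟨P.mul_mem hv hw, ?_⟩
        have h1 : x * (v * w) * x⁻¹ * (v * w)⁻¹ =
            (x * v * x⁻¹ * v⁻¹) * (x * w * x⁻¹ * w⁻¹) := by
          have h2 := h.comm v⁻¹ (P.inv_mem hv) _ (hPn x hxa w hw)
          have h3 := h.comm v⁻¹ (P.inv_mem hv) w⁻¹ (P.inv_mem hw)
          calc x * (v * w) * x⁻¹ * (v * w)⁻¹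
              = (x * v * x⁻¹) * (x * w * x⁻¹) * (w⁻¹ * v⁻¹) := by group
            _ = (x * v * x⁻¹) * ((x * w * x⁻¹) * v⁻¹) * w⁻¹ := by rw [← h3]; group
            _ = (x * v * x⁻¹) * (v⁻¹ * (x * w * x⁻¹)) * w⁻¹ := by rw [h2]
            _ = (x * v * x⁻¹ * v⁻¹) * (x * w * x⁻¹ * w⁻¹) := by group
        rw [h1]
        exact Subgroup.mul_mem _ hv' hw'
      one_mem' := ⟨P.one_mem, by
        have : x * 1 * x⁻¹ * 1⁻¹ = 1 := by group
        rw [this]; exact Subgroup.one_mem _⟩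
      inv_mem' := by
        rintro v ⟨hv, hv'⟩
        refine ⟨P.inv_mem hv, ?_⟩
        have h2 := h.comm v hv _ (hPn x hxa v⁻¹ (P.inv_mem hv))
        have h1 : x * v⁻¹ * x⁻¹ * v⁻¹⁻¹ = (x * v * x⁻¹ * v⁻¹)⁻¹ := by
          calc x * v⁻¹ * x⁻¹ * v⁻¹⁻¹ = (x * v⁻¹ * x⁻¹) * v := by group
            _ = v * (x * v⁻¹ * x⁻¹) := by rw [h2]
            _ = (x * v * x⁻¹ * v⁻¹)⁻¹ := by group
        rw [h1]
        exact Subgroup.inv_mem _ hv' }
  have hmemS : ∀ v, v ∈ S ↔ v ∈ P ∧ x * v * x⁻¹ * v⁻¹ ∈ P ⊓ h.sys.ker := fun v => Iff.rfl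
  have hQS : P ⊓ h.sys.ker ≤ S := fun q hq =>
    ⟨hq.1, Subgroup.mul_mem _ (hQ x hxa q hq) (Subgroup.inv_mem _ hq)⟩
  obtain ⟨u, hu, rfl⟩ := h.reg b c h.hab hca
  have huS : u ∈ S := by
    refine ⟨hu, ?_⟩
    obtain ⟨q, hq, hq2⟩ := (h.Q_cls hca).1 hxc
    have h1 : (x * u * x⁻¹) • b = x • u • b := by
      rw [mul_smul, inv_smul_eq_iff.2 hxb.symm, mul_smul]
    have h2 : ((q * u)⁻¹ * (x * u * x⁻¹)) • b = b := by
      rw [mul_smul, h1, ← hq2, ← mul_smul q u, inv_smul_smul]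
    have h3 := h.inj _ (P.mul_mem (P.inv_mem (P.mul_mem hq.1 hu)) (hPn x hxa u hu)) b h.hab h2
    rw [inv_mul_eq_one] at h3
    rw [← h3]
    have : q * u * u⁻¹ = q := by group
    rw [this]; exact hq
  have huQ : u ∉ P ⊓ h.sys.ker := fun hh => hbc (hh.2.2 b)
  have hSP : S = P := by
    have hle : S ≤ P := fun v hv => hv.1
    apply Subgroup.eq_of_le_of_card_ge hle
    have h1 : Nat.card S ∣ p ^ 2 := by
      rw [← h.card]; exact Subgroup.card_dvd_of_le hle
    obtain ⟨k, hk, hk'⟩ := (Nat.dvd_prime_pow hp.out).1 h1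
    have h2 : p < Nat.card S := by
      have h3 : Nat.card ↥(P ⊓ h.sys.ker) ≤ Nat.card S :=
        Nat.card_le_card_of_injective _ (Subgroup.inclusion_injective hQS)
      rw [h.card_Q] at h3
      rcases lt_or_eq_of_le h3 with h4 | h4
      · exact h4
      · exfalso
        have h5 : P ⊓ h.sys.ker = S := Subgroup.eq_of_le_of_card_ge hQS (by rw [h.card_Q, ← h4])
        rw [h5] at huQ
        exact huQ huS
    rw [h.card]
    interval_cases k
    · rw [hk', pow_zero] at h2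
      have := hp.out.one_lt
      omega
    · rw [hk', pow_one] at h2
      omega
    · rw [hk']
  refine ⟨hxa, fun y => ?_⟩
  rcases eq_or_ne y a with rfl | hya
  · rw [hxa]; exact h.sys.refl _
  · obtain ⟨v, hv, rfl⟩ := h.reg b y h.hab hya
    have hvS : v ∈ S := by rw [hSP]; exact hv
    have h1 := hvS.2.2.2 (v • b)
    have h2 : (x * v * x⁻¹ * v⁻¹) • v • b = x • v • b := by
      rw [← mul_smul]
      have : x * v * x⁻¹ * v⁻¹ * v = x * v * x⁻¹ := by group
      rw [this, mul_smul, inv_smul_eq_iff.2 hxb.symm, mul_smul]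
    rw [h2] at h1
    exact h1

end Cfg

end

end Cfsg.Agent.Cyc
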