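import Cfsg.Agent.Cyc.PQH

/-!
# Doubly transitive groups of degree `p ^ 2 + 1`: no normal subgroup of order `p` in `G_a`
-/

set_option autoImplicit false
set_option linter.unusedSectionVars false

namespace Cfsg.Agent.Cyc

open MulAction

section

variable {G Ω : Type*} [Group G] [MulAction G Ω] [Finite G] [Finite Ω] {p : ℕ}
  [hp : Fact p.Prime] {a b : Ω} {r : Ω → Ω → Prop} {P : Subgroup G}

theorem two_trans_of_index_two {Ω : Type*} {G : Type*} [Group G] [MulAction G Ω]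
    (h2 : IsMultiplyPretransitive G Ω 2) (φ : G →* ℤˣ) {a b : Ω} (hab : a ≠ b) {m : G}
    (hma : m • a = a) (hmb : m • b = b) (hm : φ m = -1) :
    IsMultiplyPretransitive φ.ker Ω 2 := by
  rw [is_two_pretransitive_iff]
  intro x y x' y' hxy hxy'
  obtain ⟨g, hg1, hg2⟩ := is_two_pretransitive_iff.1 h2 hxy hxy'
  rcases Int.units_eq_one_or (φ g) with h1 | h1
  · exact ⟨⟨g, h1⟩, hg1, hg2⟩
  · obtain ⟨k, hk1, hk2⟩ := is_two_pretransitive_iff.1 h2 hab hxy
    refine ⟨⟨g * (k * m * k⁻¹), ?_⟩, ?_, ?_⟩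
    · rw [MonoidHom.mem_ker, map_mul, map_mul, map_mul, map_inv, h1, hm]
      rcases Int.units_eq_one_or (φ k) with h3 | h3 <;> rw [h3] <;> rfl
    · change (g * (k * m * k⁻¹)) • x = x'
      rw [mul_smul, mul_smul, mul_smul, inv_smul_eq_iff.2 hk1.symm, hma, hk1, hg1]
    · change (g * (k * m * k⁻¹)) • y = y'
      rw [mul_smul, mul_smul, mul_smul, inv_smul_eq_iff.2 hk2.symm, hmb, hk2, hg2]

namespace Cfg

theorem isKer (h : Cfg G p a b r P) (hPn : ∀ g : G, g • a = a → ∀ u ∈ P, g * u * g⁻¹ ∈ P) :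
    Cfsg.Agent.H37.ZT.IsKer G a P := by
  refine ⟨fun u hu => h.fixa u hu, fun g hg u hu => hPn g hg u hu, ?_⟩
  intro y z hy hz
  obtain ⟨u, hu, hux⟩ := h.reg y z hy hz
  refine ⟨⟨u, hu⟩, hux, ?_⟩
  rintro ⟨v, hv⟩ hvx
  apply Subtype.ext
  have h1 : (u⁻¹ * v) • y = y := by
    rw [mul_smul]
    change u⁻¹ • (v • y) = y
    rw [show v • y = z from hvx, ← hux, inv_smul_smul]
  have h2 := h.inj _ (P.mul_mem (P.inv_mem hu) hv) y hy h1
  rw [inv_mul_eq_one] at h2
  exact h2.symm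

theorem smul_Q_iff (h : Cfg G p a b r P) {x q : G} (hxb : x • b = b)
    (hq : x * q * x⁻¹ ∈ P) (hq' : q ∈ P) : x • q • b = q • b ↔ x * q = q * x := by
  constructor
  · intro hh
    have h2 : (q⁻¹ * (x * q * x⁻¹)) • b = b := by
      have h3 : (x * q * x⁻¹) • b = q • b := by
        rw [mul_smul, inv_smul_eq_iff.2 hxb.symm, mul_smul, hh]
      rw [mul_smul, h3, inv_smul_smul]
    have h4 := h.inj _ (P.mul_mem (P.inv_mem hq') hq) b h.hab h2
    rw [inv_mul_eq_one] at h4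
    calc x * q = (x * q * x⁻¹) * x := by group
      _ = q * x := by rw [← h4]
  · intro hh
    rw [← mul_smul, hh, mul_smul, hxb]

theorem inv_of_three (h : Cfg G 3 a b r P) {x q q0 : G}
    (hQx : ∀ q ∈ P ⊓ h.sys.ker, x * q * x⁻¹ ∈ P ⊓ h.sys.ker)
    (hq : q ∈ P ⊓ h.sys.ker) (hq0 : q0 ∈ P ⊓ h.sys.ker) (hne : x * q0 ≠ q0 * x) :
    x * q * x⁻¹ = q⁻¹ := by
  haveI : Fact (Nat.Prime 3) := ⟨Nat.prime_three⟩
  by_cases hq1 : q = 1
  · rw [hq1]; group
  · obtain ⟨k, hk⟩ := Subgroup.mem_zpowers_iff.1 (h.gen_Q hq (hQx q hq) hq1)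
    have hq3 : q ^ 3 = 1 := by
      have h4 : (⟨q, hq⟩ : ↥(P ⊓ h.sys.ker)) ^ Nat.card ↥(P ⊓ h.sys.ker) = 1 := pow_card_eq_one'
      rw [h.card_Q] at h4
      exact congrArg Subtype.val h4
    have h5 : q ^ k = q ^ (k % 3) := by
      have h6 : k = 3 * (k / 3) + k % 3 := (Int.mul_ediv_add_emod k 3).symm
      have h7 : q ^ (3 : ℤ) = 1 := by exact_mod_cast hq3
      conv_lhs => rw [h6]
      rw [zpow_add, zpow_mul, h7, one_zpow, one_mul]
    rw [h5] at hk
    have h8 : k % 3 = 0 ∨ k % 3 = 1 ∨ k % 3 = 2 := by omega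
    rcases h8 with h8 | h8 | h8
    · exfalso
      rw [h8, zpow_zero] at hk
      apply hq1
      calc q = x⁻¹ * (x * q * x⁻¹) * x := by group
        _ = 1 := by rw [← hk]; group
    · exfalso
      rw [h8, zpow_one] at hk
      apply hne
      apply h.comm_Q hq hq0 hq1
      calc x * q = (x * q * x⁻¹) * x := by group
        _ = q * x := by rw [← hk]
    · rw [h8] at hk
      rw [← hk]
      have h9 : q ^ (2 : ℤ) = q ^ 2 := by norm_cast
      rw [h9, eq_inv_iff_mul_eq_one, ← pow_succ, hq3]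

theorem final_three [FaithfulSMul G Ω] (h : Cfg G 3 a b r P)
    (hPn : ∀ g : G, g • a = a → ∀ u ∈ P, g * u * g⁻¹ ∈ P)
    (hQ : ∀ g : G, g • a = a → ∀ q ∈ P ⊓ h.sys.ker, g * q * g⁻¹ ∈ P ⊓ h.sys.ker) {m n g q0 : G}
    (hma : m • a = a) (hmb : m • b = b) (hm1 : m ≠ 1) (hm2 : m ^ 2 = 1)
    (hmc : ∀ q ∈ P ⊓ h.sys.ker, m * q = q * m)
    (hM : ∀ x : G, x • a = a → x • b = b → (∀ q ∈ P ⊓ h.sys.ker, x * q = q * x) → x = 1 ∨ x = m)
    (hnb : n • b = b) (hnk : n ∈ h.sys.ker) (hq0 : q0 ∈ P ⊓ h.sys.ker)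
    (hne : n * q0 ≠ q0 * n) (hnm : n = g * m * g⁻¹) (hfix : {x : Ω | m • x = x}.ncard = 4) :
    False := by
  classical
  haveI : Fact (Nat.Prime 3) := ⟨Nat.prime_three⟩
  have := Fintype.ofFinite Ω
  have hcard : Fintype.card Ω = 10 := by
    rw [← Nat.card_eq_fintype_card, h.hΩ]; norm_num
  have hna : n • a = a := hnk.1
  let φ : G →* ℤˣ := Equiv.Perm.sign.comp (MulAction.toPermHom G Ω)
  have hφm : φ m = -1 := by
    apply sign_inv_six
    · apply orderOf_eq_prime
      · rw [← map_pow, hm2, map_one]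
      · intro hh
        apply hm1
        apply FaithfulSMul.eq_of_smul_eq_smul (α := Ω)
        intro x
        have := congrArg (fun σ : Equiv.Perm Ω => σ x) hh
        rw [one_smul]
        exact this
    · have h1 : (MulAction.toPermHom G Ω m).support = ({x : Ω | m • x = x}ᶜ : Set Ω).toFinset := by
        ext x
        rw [Equiv.Perm.mem_support, Set.mem_toFinset]
        rfl
      rw [h1, ← Set.ncard_eq_toFinset_card', Set.ncard_compl, hfix, Nat.card_eq_fintype_card, hcard]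
  have hφn : φ n = -1 := by
    rw [hnm, map_mul, map_mul, map_inv, mul_comm, ← mul_assoc, inv_mul_cancel, one_mul, hφm]
  have hφP : ∀ u ∈ P, φ u = 1 := by
    intro u hu
    have h3 : u ^ 9 = 1 := by
      have h4 : (⟨u, hu⟩ : P) ^ Nat.card P = 1 := pow_card_eq_one'
      rw [h.card] at h4
      exact congrArg Subtype.val h4
    rcases Int.units_eq_one_or (φ u) with h5 | h5
    · exact h5
    · exfalso
      have h6 : φ u ^ 9 = 1 := by rw [← map_pow, h3, map_one]
      rw [h5] at h6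
      exact absurd h6 (by decide)
  have h2' := two_trans_of_index_two h.h2 φ h.hab.symm hma hmb hφm
  have hD0 : ∀ x : G, φ x = 1 → x • a = a → x • b = b → x = 1 ∨ (x = m * n⁻¹ ∧
      ¬ ∀ q ∈ P ⊓ h.sys.ker, x * q = q * x) := by
    intro x hx hxa hxb
    by_cases hxc : ∀ q ∈ P ⊓ h.sys.ker, x * q = q * x
    · rcases hM x hxa hxb hxc with h1 | h1
      · exact Or.inl h1
      · exfalso
        rw [h1, hφm] at hx
        exact absurd hx (by decide)
    · right
      refine ⟨?_, hxc⟩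
      push Not at hxc
      obtain ⟨q1, hq1, hq1'⟩ := hxc
      have h1 : ∀ q ∈ P ⊓ h.sys.ker, (x * n) * q = q * (x * n) := by
        intro q hq
        have e1 := h.inv_of_three (hQ n hna) hq hq0 hne
        have e2 := h.inv_of_three (hQ x hxa) (Subgroup.inv_mem _ hq) hq1 hq1'
        rw [inv_inv] at e2
        calc (x * n) * q = x * (n * q * n⁻¹) * x⁻¹ * (x * n) := by group
          _ = q * (x * n) := by rw [e1, e2]
      rcases hM (x * n) (by rw [mul_smul, hna, hxa]) (by rw [mul_smul, hnb, hxb]) h1 with h3 | h3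
      · exfalso
        have h4 : φ (x * n) = -1 := by rw [map_mul, hx, hφn, one_mul]
        rw [h3, map_one] at h4
        exact absurd h4 (by decide)
      · rw [← h3]; group
  refine zass_contra (G := φ.ker) (p := 3) (by norm_num) h.hΩ h2' h.hab.symm
    (P := P.subgroupOf φ.ker) ?_ ?_ ?_ ?_
  · refine ⟨fun u hu => h.fixa u hu, fun g hg u hu => hPn g hg u hu, ?_⟩
    intro y z hy hz
    obtain ⟨u, hu, huniq⟩ := (h.isKer hPn).reg y z hy hz
    refine ⟨⟨⟨u, hφP u u.2⟩, u.2⟩, hu, ?_⟩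
    rintro ⟨⟨v, hv⟩, hv2⟩ hvy
    have h1 := huniq ⟨v, hv2⟩ hvy
    have h1' : v = (u : G) := congrArg Subtype.val h1
    exact Subtype.ext (Subtype.ext h1')
  · intro x hx y hy
    exact Subtype.ext (h.comm x hx y hy)
  · rintro ⟨x, hx⟩ hxa hxb c hca hcb hxc
    apply Subtype.ext
    rcases hD0 x hx hxa hxb with h1 | ⟨h1, h3⟩
    · exact h1
    · exfalso
      have hxa' : x • a = a := hxa
      have hxb' : x • b = b := hxb
      have hxc' : x • c = c := hxc
      by_cases hbc : r b c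
      · obtain ⟨q, hq, rfl⟩ := (h.Q_cls h.hab).1 hbc
        apply h3
        intro q' hq'
        apply h.comm_Q hq hq'
        · rintro rfl
          exact hcb (one_smul _ _)
        · exact (h.smul_Q_iff hxb' (hQ x hxa' q hq).1 hq.1).1 hxc'
      · have hxk := h.mem_ker_of_class hPn hQ hxa' hxb' hca hbc (by rw [hxc']; exact h.sys.refl c)
        apply hm1
        apply h.ker_stab_faithful _ hmb hmc
        have : m = x * n := by rw [h1]; group
        rw [this]
        exact Subgroup.mul_mem _ hxk hnk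
  · have hle : Nat.card ↥(stabilizer φ.ker a ⊓ stabilizer φ.ker b) ≤ 2 := by
      have hmn : φ (m * n⁻¹) = 1 := by
        rw [map_mul, map_inv, hφm, hφn]; rfl
      have hsub : ((stabilizer φ.ker a ⊓ stabilizer φ.ker b : Subgroup φ.ker) : Set φ.ker) ⊆
          {1, ⟨m * n⁻¹, hmn⟩} := by
        rintro ⟨x, hx⟩ ⟨hxa, hxb⟩
        rcases hD0 x hx hxa hxb with h1 | ⟨h1, -⟩
        · exact Or.inl (Subtype.ext h1)
        · exact Or.inr (Subtype.ext h1)
      have h5 := Set.ncard_le_ncard hsub (Set.toFinite _)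
      rw [← Nat.card_coe_set_eq] at h5
      exact h5.trans ((Set.ncard_insert_le _ _).trans (by rw [Set.ncard_singleton]))
    exact lt_of_le_of_lt (Nat.mul_le_mul_left 2 hle) (by norm_num)

end Cfg

end

end Cfsg.Agent.Cyc
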