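import Cfsg.Agent.Cyc.PQI

/-!
# Doubly transitive groups of degree `p ^ 2 + 1`: no normal subgroup of order `p` in `G_a` (end)
-/

set_option autoImplicit false
set_option linter.unusedSectionVars false

namespace Cfsg.Agent.Cyc

open MulAction

section

variable {G Ω : Type*} [Group G] [MulAction G Ω] [Finite G] [Finite Ω] {p : ℕ}
  [hp : Fact p.Prime] {a b : Ω} {r : Ω → Ω → Prop} {P : Subgroup G}

namespace Cfg

theorem caseA [FaithfulSMul G Ω] (h : Cfg G p a b r P) (hp2 : p ≠ 2)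
    (hQ : ∀ g : G, g • a = a → ∀ q ∈ P ⊓ h.sys.ker, g * q * g⁻¹ ∈ P ⊓ h.sys.ker) : False := by
  have hPn := h.P_norm hQ hp2
  have hKer := h.isKer hPn
  have hp3 : 3 ≤ p := by
    have := hp.out.two_le
    omega
  obtain ⟨q1, hq1, hq1'⟩ := h.exists_Q
  have hq1b : q1 • b ≠ b := fun hh => hq1' (h.inj q1 hq1.1 b h.hab hh)
  have hq1a : q1 • b ≠ a := smul_ne (h.fixa q1 hq1.1) h.hab
  by_cases hsr : ∀ d : G, d • a = a → d • b = b → ∀ c, c ≠ a → c ≠ b → d • c = c → d = 1
  · have hDc := (cyc_of_faithful (p := p) (P ⊓ h.sys.ker) (stabilizer G a ⊓ stabilizer G b) h.card_Q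
      (fun x hx q hq => hQ x hx.1 q hq) (by
        intro x hx hxq
        apply hsr x hx.1 hx.2 (q1 • b) hq1a hq1b
        have hxb : x • b = b := hx.2
        rw [← mul_smul, hxq q1 hq1, mul_smul, hxb])).2
    apply zass_contra hp2 h.hΩ h.h2 h.hab.symm hKer h.comm hsr
    have h1 := Nat.le_of_dvd (by omega) hDc
    have h2 : p ^ 2 - 1 = (p + 1) * (p - 1) := by
      obtain ⟨k, rfl⟩ : ∃ k, p = k + 1 := ⟨p - 1, by omega⟩
      rw [Nat.add_sub_cancel, pow_two]
      have : (k + 1) * (k + 1) = (k + 1 + 1) * k + 1 := by ring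
      rw [this, Nat.add_sub_cancel]
    rw [h2]
    have h3 : 0 < p - 1 := by omega
    nlinarith
  push Not at hsr
  obtain ⟨d0, hd0a, hd0b, c0, hc0a, hc0b, hd0c, hd01⟩ := hsr
  let M : Subgroup G := (stabilizer G a ⊓ stabilizer G b) ⊓
    Subgroup.centralizer ((P ⊓ h.sys.ker : Subgroup G) : Set G)
  have hmemM : ∀ x, x ∈ M ↔ (x • a = a ∧ x • b = b) ∧ ∀ q ∈ P ⊓ h.sys.ker, x * q = q * x := by
    intro x
    change ((x • a = a ∧ x • b = b) ∧
      x ∈ Subgroup.centralizer ((P ⊓ h.sys.ker : Subgroup G) : Set G)) ↔ _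
    rw [Subgroup.mem_centralizer_iff]
    constructor
    · rintro ⟨h1, h2⟩
      exact ⟨h1, fun q hq => (h2 q hq).symm⟩
    · rintro ⟨h1, h2⟩
      exact ⟨h1, fun q hq => (h2 q hq).symm⟩
  have hMD : M ≤ stabilizer G a ⊓ stabilizer G b := inf_le_left
  by_cases hMbot : M = ⊥
  · have hDcyc := (cyc_of_faithful (p := p) (P ⊓ h.sys.ker) (stabilizer G a ⊓ stabilizer G b)
      h.card_Q (fun x hx q hq => hQ x hx.1 q hq) (by
        intro x hx hxq
        have : x ∈ M := (hmemM x).2 ⟨hx, hxq⟩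
        rw [hMbot, Subgroup.mem_bot] at this
        exact this)).1
    have hN : Subgroup.zpowers d0 ≤ stabilizer G a ⊓ stabilizer G b := by
      rw [Subgroup.zpowers_le]
      exact ⟨hd0a, hd0b⟩
    have hc0 : c0 ∈ Fx Ω (Subgroup.zpowers d0) := by
      have h1 : Subgroup.zpowers d0 ≤ stabilizer G c0 := by
        rw [Subgroup.zpowers_le]
        exact hd0c
      exact fun g hg => h1 hg
    have hN1 : Subgroup.zpowers d0 ≠ ⊥ := by
      rw [Ne, Subgroup.zpowers_eq_bot]
      exact hd01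
    apply lambda_one h.h2 hp.out h.hΩ _ (h.card_Fx hPn hN hN1 hc0 hc0a hc0b) h.hab.symm hN
    intro g hg _
    rw [eq_of_card_cyclic hDcyc hg hN (card_cj _ _)]
  · -- `M ≠ 1`
    have hq1M : q1 • b ∈ Fx Ω M := by
      intro m hm
      obtain ⟨⟨_, hmb⟩, hmq⟩ := (hmemM m).1 hm
      rw [← mul_smul, hmq q1 hq1, mul_smul, hmb]
    have hMc := h.card_Fx hPn hMD hMbot hq1M hq1a hq1b
    have hkerD : h.sys.ker ⊓ stabilizer G b ≤ stabilizer G a ⊓ stabilizer G b :=
      le_inf (inf_le_left.trans h.ker_le) inf_le_right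
    have hD1 := h.ker_stab_cyclic hQ (le_refl (h.sys.ker ⊓ stabilizer G b))
    have hcase : ∀ g : G, cj g M ≤ stabilizer G a ⊓ stabilizer G b →
        (Fx Ω (cj g M)).ncard = p + 1 → cj g M = M ∨
        (cj g M ≤ h.sys.ker ⊓ stabilizer G b ∧
          ∃ n ∈ cj g M, ∃ q0 ∈ P ⊓ h.sys.ker, n * q0 ≠ q0 * n) := by
      intro g hg hgc
      by_cases hall : cj g M ≤ M
      · exact Or.inl (cj_eq_of_le hall rfl)
      · right
        obtain ⟨n, hn, hnC⟩ := SetLike.not_le_iff_exists.1 hall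
        obtain ⟨q0, hq0, hne⟩ : ∃ q0 ∈ P ⊓ h.sys.ker, n * q0 ≠ q0 * n := by
          by_contra hcon4
          push Not at hcon4
          exact hnC ((hmemM n).2 ⟨hg hn, hcon4⟩)
        exact ⟨le_inf (h.le_ker_of_fix hQ hg hgc hn hq0 hne) (hg.trans inf_le_right), n, hn, q0,
          hq0, hne⟩
    by_cases hex : ∃ g : G, cj g M ≤ stabilizer G a ⊓ stabilizer G b ∧
        (Fx Ω (cj g M)).ncard = p + 1 ∧ cj g M ≠ M
    swap
    · push Not at hex
      apply lambda_one h.h2 hp.out h.hΩ M hMc h.hab.symm hMD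
      intro g hg hgc
      rw [hex g hg hgc]
    obtain ⟨g1, hg1, hg1c, hg1M⟩ := hex
    obtain ⟨h5, n, hn, q0, hq0, hne⟩ := (hcase g1 hg1 hg1c).resolve_left hg1M
    obtain ⟨hp3', -⟩ := lambda_fix h.h2 hp.out h.hΩ M (Fx Ω (cj g1 M)) hMc h.hab.symm hMD (by
      intro g hg hgc
      rcases hcase g hg hgc with h6 | ⟨h6, -⟩
      · left; rw [h6]
      · right
        rw [eq_of_card_cyclic hD1.1 h6 h5 (by rw [card_cj, card_cj])])
    subst hp3'
    -- `|M| = 2`
    have hcM : Nat.card M = 2 := by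
      have h6 := (h.ker_stab_cyclic hQ h5).2
      rw [card_cj] at h6
      have h7 := Nat.le_of_dvd (by norm_num) h6
      have h8 : Nat.card M ≠ 1 := by rw [Ne, Subgroup.card_eq_one]; exact hMbot
      have h9 : 0 < Nat.card M := Nat.card_pos
      omega
    rw [mem_cj] at hn
    set m := g1⁻¹ * n * g1 with hm
    obtain ⟨⟨hma, hmb⟩, hmq⟩ := (hmemM m).1 hn
    have hm1 : m ≠ 1 := by
      intro hh
      apply hne
      have : n = g1 * m * g1⁻¹ := by rw [hm]; group
      rw [this, hh]; group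
    have hm2 : m ^ 2 = 1 := by
      have h4 : (⟨m, hn⟩ : M) ^ Nat.card M = 1 := pow_card_eq_one'
      rw [hcM] at h4
      exact congrArg Subtype.val h4
    have hM2 : ∀ x ∈ M, x = 1 ∨ x = m := by
      intro x hx
      by_contra hcon
      push Not at hcon
      have h6 : ({1, m, x} : Set G) ⊆ (M : Set G) := by
        intro y hy
        rcases hy with rfl | rfl | rfl
        · exact M.one_mem
        · exact hn
        · exact hx
      have h7 := Set.ncard_le_ncard h6 (Set.toFinite _)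
      have h8 : ({1, m, x} : Set G).ncard = 3 := by
        rw [Set.ncard_eq_three]
        exact ⟨1, m, x, hm1.symm, hcon.1.symm, hcon.2.symm, rfl⟩
      rw [h8, ← Nat.card_coe_set_eq] at h7
      have h9 : Nat.card ((M : Set G)) = 2 := hcM
      omega
    have hmem_n : n ∈ cj g1 M := by rw [mem_cj]; exact hn
    have hfix : {x : Ω | m • x = x}.ncard = 4 := by
      have h6 : {x : Ω | m • x = x} = Fx Ω M := by
        ext x
        constructor
        · intro hx y hy
          rcases hM2 y hy with rfl | rfl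
          · exact one_smul _ _
          · exact hx
        · intro hx
          exact hx m hn
      rw [h6, hMc]
    exact h.final_three hPn hQ hma hmb hm1 hm2 hmq (fun x hxa hxb hxq =>
      hM2 x ((hmemM x).2 ⟨⟨hxa, hxb⟩, hxq⟩)) (h5 hmem_n).2 (h5 hmem_n).1 hq0 hne
      (g := g1) (by rw [hm]; group) hfix

end Cfg

end

end Cfsg.Agent.Cyc
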