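import Cfsg.Agent.Cyc.PQJ

/-!
# Doubly transitive groups of degree `p ^ 2 + 1`: the kernel with a non-normal Sylow subgroup
-/

set_option autoImplicit false
set_option linter.unusedSectionVars false

namespace Cfsg.Agent.Cyc

open MulAction

theorem exists_sylow_eq {G : Type*} [Group G] [Finite G] {p : ℕ} [hp : Fact p.Prime]
    {D R : Subgroup G} (hR : R ≤ D) (hRp : IsPGroup p R) {m : ℕ}
    (hm : Nat.card D = Nat.card R * m) (hpm : ¬ p ∣ m) :
    ∃ S : Sylow p D, (S : Subgroup D) = R.subgroupOf D := by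
  obtain ⟨n, hn⟩ := IsPGroup.iff_card.1 hRp
  have hfac : (Nat.card D).factorization p = n := by
    rw [hm, hn, Nat.factorization_mul (pow_ne_zero _ hp.out.ne_zero)
      (by rintro rfl; exact hpm (dvd_zero p)), Finsupp.add_apply,
      hp.out.factorization_pow, Finsupp.single_eq_same,
      Nat.factorization_eq_zero_of_not_dvd hpm, add_zero]
  have hQc' : Nat.card (R.subgroupOf D) = p ^ n := by
    rw [← hn]
    exact Nat.card_congr (Subgroup.subgroupOfEquivOfLe hR).toEquiv
  have hQp : IsPGroup p (R.subgroupOf D) := IsPGroup.of_card hQc'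
  obtain ⟨S, hS⟩ := hQp.exists_le_sylow
  refine ⟨S, (Subgroup.eq_of_le_of_card_ge hS ?_).symm⟩
  rw [S.card_eq_multiplicity, hQc', hfac]

section

variable {G Ω : Type*} [Group G] [MulAction G Ω] [Finite G] [Finite Ω] {p : ℕ}
  [hp : Fact p.Prime] {a b : Ω} {r : Ω → Ω → Prop} {P : Subgroup G}

namespace Cfg

variable (h : Cfg G p a b r P)
include h

theorem hQ_of_ker (hK : ∀ k ∈ h.sys.ker, ∀ q ∈ P ⊓ h.sys.ker, k * q * k⁻¹ ∈ P ⊓ h.sys.ker) :
    ∀ g : G, g • a = a → ∀ q ∈ P ⊓ h.sys.ker, g * q * g⁻¹ ∈ P ⊓ h.sys.ker := by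
  intro g hg q hq
  have hcop : ¬ p ∣ Nat.card ↥(h.sys.ker ⊓ stabilizer G b) :=
    h.cop' h.hab (fun x hx => ⟨hx.1.1, hx.2⟩)
  refine mem_of_ppow (m := Nat.card ↥(h.sys.ker ⊓ stabilizer G b)) inf_le_right hK
    (by rw [h.card_Q, h.card_ker]) hcop (h.ker_conj hg hq.2) 1 ?_
  rw [conj_pow, pow_one]
  have h4 : (⟨q, hq⟩ : ↥(P ⊓ h.sys.ker)) ^ Nat.card ↥(P ⊓ h.sys.ker) = 1 := pow_card_eq_one'
  rw [h.card_Q] at h4
  have h5 : q ^ p = 1 := congrArg Subtype.val h4
  rw [h5]; group

variable (hnQ : ¬ ∀ k ∈ h.sys.ker, ∀ q ∈ P ⊓ h.sys.ker, k * q * k⁻¹ ∈ P ⊓ h.sys.ker)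
include hnQ

theorem ker_two_trans [FaithfulSMul G Ω] {c : Ω} (hc : c ≠ a) : ∀ x y x' y' : Ω, r c x → r c y →
    r c x' → r c y' → x ≠ y → x' ≠ y' → ∃ k ∈ h.sys.ker, k • x = x' ∧ k • y = y' := by
  have hQp : IsPGroup p ↥(P ⊓ h.sys.ker) := IsPGroup.of_card (n := 1) (by rw [h.card_Q, pow_one])
  rcases burn_set {y | r c y} (h.sys.card c hc) h.sys.ker (by
      intro g hg x hx
      exact h.sys.trans hx (hg.2 x)) (P ⊓ h.sys.ker) inf_le_right hQp (by
      intro x hx y hy
      have hxy : r x y := h.sys.trans (h.sys.symm hx) hy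
      exact (h.Q_cls (h.sys.ne hc hx)).1 hxy) with h1 | h1
  · intro x y x' y' hx hy hx' hy' hxy hxy'
    exact h1 x hx y hy x' hx' y' hy' hxy hxy'
  · exfalso
    apply hnQ
    intro g hg u hu
    obtain ⟨v, hv, hv2⟩ := h1 g hg u hu
    have h2 : v⁻¹ * (g * u * g⁻¹) = 1 := by
      apply h.ker_faithful _ hc
      · intro y hy
        rw [mul_smul, hv2 y hy, inv_smul_smul]
      · exact Subgroup.mul_mem _ (Subgroup.inv_mem _ hv.2)
          (Subgroup.mul_mem _ (Subgroup.mul_mem _ hg hu.2) (Subgroup.inv_mem _ hg))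
    rw [inv_mul_eq_one] at h2
    rw [← h2]; exact hv

open scoped Pointwise commutatorElement in
theorem exp_p [FaithfulSMul G Ω] : ∀ y ∈ P, y ^ p = 1 := by
  by_contra hcon
  push Not at hcon
  obtain ⟨y, hy, hy1⟩ := hcon
  have hyo : orderOf y = p ^ 2 := by
    have h1 : orderOf y ∣ p ^ 2 := by
      apply orderOf_dvd_of_pow_eq_one
      have h4 : (⟨y, hy⟩ : P) ^ Nat.card P = 1 := pow_card_eq_one'
      rw [h.card] at h4
      exact congrArg Subtype.val h4
    obtain ⟨k, hk, hk'⟩ := (Nat.dvd_prime_pow hp.out).1 h1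
    interval_cases k
    · exfalso
      apply hy1
      rw [pow_zero, orderOf_eq_one_iff] at hk'
      rw [hk', one_pow]
    · exfalso
      apply hy1
      rw [pow_one] at hk'
      rw [← hk', pow_orderOf_eq_one]
    · exact hk'
  have hcyc : IsCyclic P := by
    apply isCyclic_of_orderOf_eq_card (⟨y, hy⟩ : P)
    rw [Subgroup.orderOf_mk, hyo, h.card]
  -- the group `L = K P`
  set K := h.sys.ker with hK
  let L : Subgroup G := K ⊔ P
  have hKL : K ≤ L := le_sup_left
  have hPL : P ≤ L := le_sup_right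
  have hLa : L ≤ stabilizer G a := sup_le h.ker_le (fun u hu => h.fixa u hu)
  have hcL : Nat.card L = Nat.card P * Nat.card ↥(L ⊓ stabilizer G b) := by
    rw [h.card, ← h.card_off]
    apply card_orb
    intro y
    constructor
    · intro hy
      obtain ⟨u, hu, hub⟩ := h.reg b y h.hab hy
      exact ⟨u, hPL hu, hub⟩
    · rintro ⟨u, hu, rfl⟩
      exact smul_ne (hLa hu) h.hab
  have hcop : ¬ p ∣ Nat.card ↥(L ⊓ stabilizer G b) :=
    h.cop' h.hab (fun x hx => ⟨hLa hx.1, hx.2⟩)
  have hPp : IsPGroup p P := IsPGroup.of_card h.card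
  obtain ⟨S, hS⟩ := exists_sylow_eq hPL hPp hcL hcop
  have hScyc : IsCyclic S := by
    have e : P.subgroupOf L ≃* P := Subgroup.subgroupOfEquivOfLe hPL
    rw [hS]
    exact isCyclic_of_injective e.toMonoidHom e.injective
  -- the commutator subgroup is contained in `K`
  have hKn : (K.subgroupOf L).Normal := ⟨fun n hn g => h.ker_conj (hLa g.2) hn⟩
  have hcomm : commutator L ≤ K.subgroupOf L := by
    rw [commutator_def, Subgroup.commutator_le]
    rintro ⟨g, hg⟩ - ⟨g', hg'⟩ -
    have hKN : K.Normal ∨ True := Or.inr trivial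
    -- decompose
    have hdec : ∀ g ∈ L, ∃ k ∈ K, ∃ u ∈ P, g = k * u := by
      intro g hg
      have h5 : P ≤ Subgroup.normalizer (K : Set G) := by
        rw [Subgroup.le_normalizer_iff]
        intro u hu k hk
        exact h.ker_conj (h.fixa u hu) hk
      have h6 : (g : G) ∈ (K : Set G) * (P : Set G) := by
        rw [← Subgroup.coe_mul_of_right_le_normalizer_left K P h5]
        exact hg
      obtain ⟨k, hk, u, hu, rfl⟩ := h6
      exact ⟨k, hk, u, hu, rfl⟩
    obtain ⟨k, hk, u, hu, rfl⟩ := hdec g hg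
    obtain ⟨k', hk', u', hu', rfl⟩ := hdec g' hg'
    change k * u * (k' * u') * (k * u)⁻¹ * (k' * u')⁻¹ ∈ K
    have h7 : u' * u⁻¹ = u⁻¹ * u' := h.comm u' hu' u⁻¹ (P.inv_mem hu)
    have h8 : k * u * (k' * u') * (k * u)⁻¹ * (k' * u')⁻¹ =
        k * (u * k' * u⁻¹) * (u' * k⁻¹ * u'⁻¹) * k'⁻¹ := by
      calc k * u * (k' * u') * (k * u)⁻¹ * (k' * u')⁻¹
          = k * (u * k' * (u' * u⁻¹)) * k⁻¹ * u'⁻¹ * k'⁻¹ := by group
        _ = k * (u * k' * (u⁻¹ * u')) * k⁻¹ * u'⁻¹ * k'⁻¹ := by rw [h7]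
        _ = _ := by group
    rw [h8]
    exact K.mul_mem (K.mul_mem (K.mul_mem hk (h.ker_conj (h.fixa u hu) hk'))
      (h.ker_conj (h.fixa u' hu') (K.inv_mem hk))) (K.inv_mem hk')
  have hidx : p ∣ (commutator L).index := by
    refine dvd_trans ?_ (Subgroup.index_dvd_of_le hcomm)
    have h1 := Subgroup.card_mul_index (K.subgroupOf L)
    rw [Nat.card_congr (Subgroup.subgroupOfEquivOfLe hKL).toEquiv, h.card_ker, hcL, h.card] at h1
    have h2 : p ∣ Nat.card ↥(h.sys.ker ⊓ stabilizer G b) * (K.subgroupOf L).index := by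
      refine ⟨Nat.card ↥(L ⊓ stabilizer G b), ?_⟩
      apply Nat.eq_of_mul_eq_mul_left hp.out.pos
      rw [← mul_assoc, h1]; ring
    refine (hp.out.dvd_mul.1 h2).resolve_left ?_
    exact h.cop' h.hab (fun x hx => ⟨hx.1.1, hx.2⟩)
  have hcard := (Sylow.not_dvd_card_commutator_or_not_dvd_index_commutator S).resolve_right
    (fun hh => hh hidx)
  -- `[K, K]` is a normal `p'`-subgroup
  have hN : ¬ p ∣ Nat.card ↥⁅K, K⁆ := by
    intro hd
    apply hcard
    have h3 : (commutator L).map L.subtype = ⁅L, L⁆ := Subgroup.map_subtype_commutator L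
    have h4 : Nat.card ↥((commutator L).map L.subtype) = Nat.card (commutator L) :=
      (Nat.card_congr ((commutator L).equivMapOfInjective L.subtype
        (Subgroup.subtype_injective _)).toEquiv).symm
    rw [← h4, h3]
    exact hd.trans (Subgroup.card_dvd_of_le (Subgroup.commutator_mono hKL hKL))
  have hNK : ⁅K, K⁆ ≤ K := by
    rw [Subgroup.commutator_le]
    intro x hx y hy
    exact K.mul_mem (K.mul_mem (K.mul_mem hx hy) (K.inv_mem hx)) (K.inv_mem hy)
  have hbot : ∀ n ∈ ⁅K, K⁆, n = 1 := by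
    intro n hn
    apply h.ker_faithful (hNK hn) h.hab
    intro y hy
    refine normal_pprime_trivial {y | r b y} (h.sys.card b h.hab) K ⁅K, K⁆ hNK ?_ ?_ ?_ hN n hn
      y hy
    · intro g hg x hx
      exact h.sys.trans hx (hg.2 x)
    · intro x hx y hy
      have hxy : r x y := h.sys.trans (h.sys.symm hx) hy
      obtain ⟨q, hq, hqx⟩ := (h.Q_cls (h.sys.ne h.hab hx)).1 hxy
      exact ⟨q, hq.2, hqx⟩
    · intro g hg n hn
      have h9 : g * n * g⁻¹ = ⁅g, n⁆ * n := by
        rw [commutatorElement_def]; group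
      rw [h9]
      exact Subgroup.mul_mem _ (Subgroup.commutator_mem_commutator hg (hNK hn)) hn
  apply hnQ
  intro k hk q hq
  have h10 := hbot _ (Subgroup.commutator_mem_commutator hk hq.2)
  rw [commutatorElement_def, mul_inv_eq_one] at h10
  rw [h10]
  exact hq

theorem caseB_ne_three [FaithfulSMul G Ω] : p ≠ 3 := by
  rintro rfl
  apply hnQ
  have hQp : IsPGroup 3 ↥(P ⊓ h.sys.ker) := IsPGroup.of_card (n := 1) (by rw [h.card_Q, pow_one])
  refine normal_of_small (p := 3) (m := Nat.card ↥(h.sys.ker ⊓ stabilizer G b)) inf_le_right hQp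
    (by rw [h.card_Q, h.card_ker]) ?_
  obtain ⟨q1, hq1, hq1'⟩ := h.exists_Q
  have hq1b : q1 • b ≠ b := fun hh => hq1' (h.inj q1 hq1.1 b h.hab hh)
  have hT : ({y | r b y} \ {b}).ncard = 2 := by
    rw [Set.ncard_sdiff_singleton_of_mem (show b ∈ {y | r b y} from h.sys.refl b),
      h.sys.card b h.hab]
  have hle : Nat.card ↥(h.sys.ker ⊓ stabilizer G b) ≤ ({y | r b y} \ {b}).ncard := by
    rw [← Nat.card_coe_set_eq]
    refine Nat.card_le_card_of_injective (fun k => ⟨(k : G) • q1 • b, ?_, ?_⟩) ?_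
    · exact h.sys.trans (hq1.2.2 b) (k.2.1.2 _)
    · rintro hh
      have hkb : (k : G) • b = b := k.2.2
      apply hq1b
      exact MulAction.injective (k : G) ((show (k : G) • q1 • b = b from hh).trans hkb.symm)
    · intro k k' hkk
      have h1 : (k : G) • q1 • b = (k' : G) • q1 • b := congrArg Subtype.val hkk
      apply Subtype.ext
      have h2 : (k' : G)⁻¹ * k = 1 := by
        have hmem : (k' : G)⁻¹ * k ∈ h.sys.ker := Subgroup.mul_mem _ (Subgroup.inv_mem _ k'.2.1) k.2.1
        have hfb : ((k' : G)⁻¹ * k) • b = b := by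
          rw [mul_smul, show (k : G) • b = b from k.2.2, inv_smul_eq_iff]
          exact (show (k' : G) • b = b from k'.2.2).symm
        have hfq : ((k' : G)⁻¹ * k) • q1 • b = q1 • b := by
          rw [mul_smul, h1, inv_smul_smul]
        apply h.ker_faithful hmem h.hab
        intro y hy
        by_contra hne
        have hyb : y ≠ b := by rintro rfl; exact hne hfb
        have hyq : y ≠ q1 • b := by rintro rfl; exact hne hfq
        -- four distinct points
        set κ := (k' : G)⁻¹ * k with hκ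
        have hz : r b (κ • y) := h.sys.trans hy (hmem.2 y)
        have hzb : κ • y ≠ b := by
          intro hh
          exact hyb (MulAction.injective κ (hh.trans hfb.symm))
        have hzq : κ • y ≠ q1 • b := by
          intro hh
          exact hyq (MulAction.injective κ (hh.trans hfq.symm))
        have hsub : ({q1 • b, y, κ • y} : Set Ω) ⊆ {y | r b y} \ {b} := by
          intro w hw
          rcases hw with rfl | rfl | rfl
          · exact ⟨hq1.2.2 b, hq1b⟩
          · exact ⟨hy, hyb⟩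
          · exact ⟨hz, hzb⟩
        have h5 := Set.ncard_le_ncard hsub (Set.toFinite _)
        have h6 : ({q1 • b, y, κ • y} : Set Ω).ncard = 3 := by
          rw [Set.ncard_eq_three]
          exact ⟨q1 • b, y, κ • y, hyq.symm, hzq.symm, fun hh => hne hh.symm, rfl⟩
        rw [h6, hT] at h5
        omega
      rw [inv_mul_eq_one] at h2
      exact h2.symm
  rw [hT] at hle
  omega

end Cfg

end

end Cfsg.Agent.Cyc
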