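import Cfsg.Agent.Cyc.PQK
import Cfsg.Agent.Cyc.PQL

/-!
# Doubly transitive groups of degree `p ^ 2 + 1`: walks
-/

set_option autoImplicit false
set_option linter.unusedSectionVars false

namespace Cfsg.Agent.Cyc

open MulAction

open Classical in
/-- Weighted walks. -/
noncomputable def walk {Ω : Type*} [Fintype Ω] (A : Ω → Ω → ℤ) : ℕ → Ω → Ω → ℤ
  | 0, u, w => if u = w then 1 else 0
  | n + 1, u, w => ∑ v, walk A n u v * A v w

theorem walk_equiv {Ω : Type*} [Fintype Ω] {A : Ω → Ω → ℤ} (σ : ℕ → Ω ≃ Ω)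
    (hσ : ∀ n v w, A (σ n v) (σ (n + 1) w) = A v w) :
    ∀ n u w, walk A n (σ 0 u) (σ n w) = walk A n u w := by
  intro n
  induction n with
  | zero =>
    intro u w
    simp only [walk]
    by_cases huw : u = w
    · rw [if_pos huw, if_pos (by rw [huw])]
    · rw [if_neg huw, if_neg (fun hh => huw ((σ 0).injective hh))]
  | succ n ih =>
    intro u w
    simp only [walk]
    rw [← Equiv.sum_comp (σ n)]
    refine Finset.sum_congr rfl fun v _ => ?_
    rw [ih, hσ]

theorem walk_char {Ω : Type*} [Fintype Ω] {p : ℕ} [hp : Fact p.Prime] {A : Ω → Ω → ℤ}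
    (e : ZMod p → Ω) (he : Function.Injective e) (f : ZMod p → ℤ)
    (hA : ∀ v j, A v (e j) ≠ 0 → ∃ i, v = e i) (hAf : ∀ i j, A (e i) (e j) = f (j - i))
    (χ : ZMod p → ℂ) (hχ0 : χ 0 = 1) (hχ : ∀ i j, χ (i + j) = χ i * χ j) :
    ∀ n, ∑ j, (walk A n (e 0) (e j) : ℂ) * χ j = (∑ j, (f j : ℂ) * χ j) ^ n := by
  classical
  intro n
  induction n with
  | zero =>
    rw [pow_zero, Finset.sum_eq_single 0]
    · simp [walk, hχ0]
    · intro j _ hj
      have : e 0 ≠ e j := fun h => hj (he h).symm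
      simp [walk, this]
    · simp
  | succ n ih =>
    have h1 : ∀ j, (walk A (n + 1) (e 0) (e j) : ℂ) =
        ∑ i, (walk A n (e 0) (e i) : ℂ) * (f (j - i) : ℂ) := by
      intro j
      have h2 : walk A (n + 1) (e 0) (e j) = ∑ i, walk A n (e 0) (e i) * f (j - i) := by
        simp only [walk]
        have h3 : ∑ i, walk A n (e 0) (e i) * f (j - i) =
            ∑ v ∈ Finset.univ.image e, walk A n (e 0) v * A v (e j) := by
          rw [Finset.sum_image (fun x _ y _ h => he h)]
          refine Finset.sum_congr rfl fun i _ => ?_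
          rw [hAf]
        rw [h3]
        symm
        apply Finset.sum_subset (Finset.subset_univ _)
        intro v _ hv
        have : A v (e j) = 0 := by
          by_contra hne
          obtain ⟨i, rfl⟩ := hA v j hne
          exact hv (Finset.mem_image_of_mem _ (Finset.mem_univ _))
        rw [this, mul_zero]
      rw [h2]
      push_cast
      rfl
    calc ∑ j, (walk A (n + 1) (e 0) (e j) : ℂ) * χ j
        = ∑ j, ∑ i, (walk A n (e 0) (e i) : ℂ) * χ i * ((f (j - i) : ℂ) * χ (j - i)) := by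
          refine Finset.sum_congr rfl fun j _ => ?_
          rw [h1, Finset.sum_mul]
          refine Finset.sum_congr rfl fun i _ => ?_
          have h4 : χ j = χ i * χ (j - i) := by
            rw [← hχ]; congr 1; ring
          rw [h4]; ring
      _ = ∑ i, ∑ j, (walk A n (e 0) (e i) : ℂ) * χ i * ((f (j - i) : ℂ) * χ (j - i)) :=
          Finset.sum_comm
      _ = ∑ i, (walk A n (e 0) (e i) : ℂ) * χ i * ∑ j, (f j : ℂ) * χ j := by
          refine Finset.sum_congr rfl fun i _ => ?_
          rw [Finset.mul_sum, ← Equiv.sum_comp (Equiv.addRight i)]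
          refine Finset.sum_congr rfl fun j _ => ?_
          simp
      _ = _ := by rw [← Finset.sum_mul, ih, pow_succ]

section

variable {G Ω : Type*} [Group G] [MulAction G Ω] [Finite G] [Finite Ω] {p : ℕ}
  [hp : Fact p.Prime] {a b : Ω} {r : Ω → Ω → Prop} {P : Subgroup G}

namespace Cfg

variable (h : Cfg G p a b r P)
include h

theorem exists_fix [FaithfulSMul G Ω]
    (hnQ : ¬ ∀ k ∈ h.sys.ker, ∀ q ∈ P ⊓ h.sys.ker, k * q * k⁻¹ ∈ P ⊓ h.sys.ker)
    {y : G} (hy : y ∈ P) (hyK : y ∉ h.sys.ker) :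
    ∃ z ∈ P, z ∉ h.sys.ker ∧ ∀ k ∈ h.sys.ker, k • b = b → k • z • b = z • b := by
  classical
  have := Fintype.ofFinite Ω
  set K := h.sys.ker with hK
  have hyp : y ^ p = 1 := h.exp_p hnQ y hy
  let R : Ω → Ω → Prop := fun u v => ∃ k ∈ K, k • b = u ∧ k • y • b = v
  have hRinv : ∀ k ∈ K, ∀ u v, R (k • u) (k • v) ↔ R u v := by
    intro k hk u v
    constructor
    · rintro ⟨κ, hκ, e1, e2⟩
      refine ⟨k⁻¹ * κ, K.mul_mem (K.inv_mem hk) hκ, ?_, ?_⟩
      · rw [mul_smul, e1, inv_smul_smul]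
      · rw [mul_smul, e2, inv_smul_smul]
    · rintro ⟨κ, hκ, e1, e2⟩
      exact ⟨k * κ, K.mul_mem hk hκ, by rw [mul_smul, e1], by rw [mul_smul, e2]⟩
  -- the group `Q`
  obtain ⟨u, hu, hu1⟩ := h.exists_Q
  have hup : u ^ p = 1 := by
    have h4 : (⟨u, hu⟩ : ↥(P ⊓ K)) ^ Nat.card ↥(P ⊓ K) = 1 := pow_card_eq_one'
    rw [h.card_Q] at h4
    exact congrArg Subtype.val h4
  have huo : orderOf u = p := orderOf_eq_prime hup hu1
  let e : ZMod p → Ω := fun j => u ^ j.val • b
  have huadd : ∀ i j : ZMod p, u ^ (i + j).val = u ^ i.val * u ^ j.val := by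
    intro i j
    rw [ZMod.val_add, ← pow_add]
    exact (pow_eq_pow_mod _ hup).symm
  have huQ : ∀ n : ℕ, u ^ n ∈ P ⊓ K := fun n => Subgroup.pow_mem _ hu n
  have he0 : e 0 = b := by
    change u ^ (0 : ZMod p).val • b = b
    rw [ZMod.val_zero, pow_zero, one_smul]
  have heinj : Function.Injective e := by
    intro i j hij
    have h1 : u ^ i.val • b = u ^ j.val • b := hij
    have h2 : ((u ^ j.val)⁻¹ * u ^ i.val) • b = b := by rw [mul_smul, h1, inv_smul_smul]
    have h3 := h.inj _ (P.mul_mem (P.inv_mem (huQ _).1) (huQ _).1) b h.hab h2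
    rw [inv_mul_eq_one] at h3
    have h4 := pow_injOn_Iio_orderOf (x := u) (by rw [huo]; exact ZMod.val_lt j)
      (by rw [huo]; exact ZMod.val_lt i) h3
    exact (ZMod.val_injective p h4).symm
  have hesurj : ∀ v, r b v → ∃ j, v = e j := by
    intro v hv
    obtain ⟨q, hq, rfl⟩ := (h.Q_cls h.hab).1 hv
    obtain ⟨k, hk⟩ := Subgroup.mem_zpowers_iff.1 (h.gen_Q hu hq hu1)
    refine ⟨(k : ZMod p), ?_⟩
    change q • b = u ^ (k : ZMod p).val • b
    congr 1
    rw [← hk]
    have h5 : ((k : ZMod p).val : ℤ) = k % p := by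
      rw [ZMod.val_intCast]
    rw [← zpow_natCast, h5]
    have h6 : k = p * (k / p) + k % p := (Int.mul_ediv_add_emod k p).symm
    have h7 : u ^ (p : ℤ) = 1 := by exact_mod_cast hup
    conv_lhs => rw [h6]
    rw [zpow_add, zpow_mul, h7, one_zpow, one_mul]
  have her : ∀ j, r b (e j) := fun j => (huQ _).2.2 b
  -- adjacency
  let A : Ω → Ω → ℤ := fun v w => if R v (y • w) then 1 else 0
  let f : ZMod p → ℤ := fun j => if R b (y • e j) then 1 else 0
  have hA : ∀ v j, A v (e j) ≠ 0 → ∃ i, v = e i := by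
    intro v j hne
    have hR : R v (y • e j) := by
      by_contra hcon
      exact hne (if_neg hcon)
    obtain ⟨k, hk, rfl, -⟩ := hR
    exact hesurj _ (hk.2 b)
  have hAf : ∀ i j, A (e i) (e j) = f (j - i) := by
    intro i j
    have h1 : y • e j = u ^ i.val • (y • e (j - i)) := by
      change y • u ^ j.val • b = u ^ i.val • y • u ^ (j - i).val • b
      have h2 : u ^ j.val = u ^ i.val * u ^ (j - i).val := by
        rw [← huadd]; congr 2; ring
      have h3 := h.comm y hy (u ^ i.val) (huQ _).1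
      rw [h2, ← mul_smul, ← mul_assoc, h3, mul_smul, mul_smul]
    change (if R (u ^ i.val • b) (y • e j) then (1 : ℤ) else 0) = if R b (y • e (j - i)) then 1 else 0
    rw [h1]
    simp only [hRinv _ (huQ i.val).2]
  -- the character
  set ζ : ℂ := Complex.exp (2 * Real.pi * Complex.I / p) with hζdef
  have hζ : IsPrimitiveRoot ζ p := Complex.isPrimitiveRoot_exp p hp.out.ne_zero
  let χ : ZMod p → ℂ := fun j => ζ ^ j.val
  have hχ0 : χ 0 = 1 := by
    change ζ ^ (0 : ZMod p).val = 1
    rw [ZMod.val_zero, pow_zero]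
  have hχ : ∀ i j, χ (i + j) = χ i * χ j := by
    intro i j
    change ζ ^ (i + j).val = ζ ^ i.val * ζ ^ j.val
    rw [ZMod.val_add, ← pow_add]
    exact (pow_eq_pow_mod _ hζ.pow_eq_one).symm
  have hχsum : ∑ j, χ j = 0 := by
    haveI : Fact (1 < p) := ⟨hp.out.one_lt⟩
    have h1 : (∑ j, χ j) * χ 1 = ∑ j, χ j := by
      rw [Finset.sum_mul, ← Equiv.sum_comp (Equiv.addRight (1 : ZMod p)) χ]
      refine Finset.sum_congr rfl fun j _ => ?_
      change χ j * χ 1 = χ (j + 1)
      rw [hχ]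
    have h2 : χ 1 ≠ 1 := by
      change ζ ^ (1 : ZMod p).val ≠ 1
      rw [ZMod.val_one, pow_one]
      exact hζ.ne_one hp.out.one_lt
    by_contra hne
    apply h2
    have h3 : (∑ j, χ j) * χ 1 = (∑ j, χ j) * 1 := by rw [h1, mul_one]
    exact mul_left_cancel₀ hne h3
  have hwalk := walk_char e heinj f hA hAf χ hχ0 hχ p
  -- invariance of walks of length `p`
  have hyK' : ∀ n : ℕ, ∀ k ∈ K, (y ^ n)⁻¹ * k * y ^ n ∈ K := by
    intro n k hk
    have h1 := h.ker_conj (h.fixa _ (P.inv_mem (P.pow_mem hy n))) hk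
    rwa [inv_inv] at h1
  have hWinv : ∀ k ∈ K, ∀ v w, walk A p (k • v) (k • w) = walk A p v w := by
    intro k hk v w
    have h1 := walk_equiv (A := A) (fun n => MulAction.toPerm ((y ^ n)⁻¹ * k * y ^ n)) (by
      intro n v w
      change (if R (((y ^ n)⁻¹ * k * y ^ n) • v) (y • ((y ^ (n + 1))⁻¹ * k * y ^ (n + 1)) • w)
        then (1 : ℤ) else 0) = if R v (y • w) then 1 else 0
      have h2 : y • ((y ^ (n + 1))⁻¹ * k * y ^ (n + 1)) • w =
          ((y ^ n)⁻¹ * k * y ^ n) • y • w := by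
        rw [← mul_smul, ← mul_smul]
        congr 1
        rw [pow_succ]
        group
      rw [h2]
      simp only [hRinv _ (hyK' n k hk)]) p v w
    have h3 : (MulAction.toPerm ((y ^ 0)⁻¹ * k * y ^ 0) : Equiv.Perm Ω) v = k • v := by
      rw [MulAction.toPerm_apply, pow_zero]
      congr 1
      group
    have h4 : (MulAction.toPerm ((y ^ p)⁻¹ * k * y ^ p) : Equiv.Perm Ω) w = k • w := by
      rw [MulAction.toPerm_apply, hyp]
      congr 1
      group
    rw [h3, h4] at h1
    exact h1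
  have hWconst : ∀ j, j ≠ 0 → walk A p b (e j) = walk A p b (e 1) := by
    intro j hj
    haveI : Fact (1 < p) := ⟨hp.out.one_lt⟩
    have h1 : b ≠ e j := by rw [← he0]; exact fun hh => hj (heinj hh).symm
    have h2 : b ≠ e 1 := by rw [← he0]; exact fun hh => one_ne_zero (heinj hh).symm
    obtain ⟨k, hk, hk1, hk2⟩ := h.ker_two_trans hnQ h.hab b (e 1) b (e j) (h.sys.refl b) (her 1)
      (h.sys.refl b) (her j) h2 h1
    have h3 := hWinv k hk b (e 1)
    rw [hk1, hk2] at h3
    exact h3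
  set E : Finset (ZMod p) := Finset.univ.filter (fun j => R b (y • e j)) with hE
  have hmemE : ∀ j, j ∈ E ↔ R b (y • e j) := by
    intro j
    rw [hE, Finset.mem_filter]
    simp
  have hθ : ∑ j, (f j : ℂ) * χ j = ∑ j ∈ E.image ZMod.val, ζ ^ j := by
    rw [Finset.sum_image (fun x _ y _ hxy => ZMod.val_injective p hxy), hE, Finset.sum_filter]
    refine Finset.sum_congr rfl fun j _ => ?_
    change ((if R b (y • e j) then (1 : ℤ) else 0 : ℤ) : ℂ) * ζ ^ j.val = _
    by_cases hR : R b (y • e j)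
    · rw [if_pos hR, if_pos hR, Int.cast_one, one_mul]
    · rw [if_neg hR, if_neg hR, Int.cast_zero, zero_mul]
  have hval : (∑ j ∈ E.image ZMod.val, ζ ^ j) ^ p =
      ((walk A p b b - walk A p b (e 1) : ℤ) : ℂ) := by
    rw [← hθ, ← hwalk, he0]
    have h1 : ∀ j, (walk A p b (e j) : ℂ) * χ j = (walk A p b (e 1) : ℂ) * χ j +
        (if j = 0 then ((walk A p b b - walk A p b (e 1) : ℤ) : ℂ) else 0) := by
      intro j
      by_cases hj : j = 0
      · subst hj
        rw [if_pos rfl, hχ0, he0]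
        push_cast
        ring
      · rw [if_neg hj, hWconst j hj, add_zero]
    rw [Finset.sum_congr rfl (fun j _ => h1 j), Finset.sum_add_distrib, ← Finset.mul_sum, hχsum,
      mul_zero, zero_add, Finset.sum_ite_eq' Finset.univ (0 : ZMod p)]
    simp
  have hnt := nt_lemma hζ (E.image ZMod.val) (by
    intro j hj
    rw [Finset.mem_image] at hj
    obtain ⟨i, -, rfl⟩ := hj
    rw [Finset.mem_range]
    exact ZMod.val_lt i) _ hval
  rw [Finset.card_image_of_injective _ (ZMod.val_injective p)] at hnt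
  -- the orbit of `y b`
  have hclsy : ∀ k ∈ K, ∀ j, ∃ i, k • y • e j = y • e i := by
    intro k hk j
    have h1 : r b (y⁻¹ • k • y • e j) := by
      have h2 : r (y • e j) (k • y • e j) := hk.2 _
      have h3 := h.sys.inv y⁻¹ (h.fixa _ (P.inv_mem hy)) h2
      rw [inv_smul_smul] at h3
      exact h.sys.trans (her j) h3
    obtain ⟨i, hi⟩ := hesurj _ h1
    exact ⟨i, by rw [← hi, smul_inv_smul]⟩
  have h0E : (0 : ZMod p) ∈ E := by
    rw [hmemE, he0]
    exact ⟨1, K.one_mem, one_smul _ _, one_smul _ _⟩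
  have hEp : E.card ≠ p := by
    intro hEc
    have hX : Nat.card ↥(K ⊓ stabilizer G b) = {v | R b v}.ncard *
        Nat.card ↥((K ⊓ stabilizer G b) ⊓ stabilizer G (y • b)) := by
      apply card_orb
      intro v
      constructor
      · rintro ⟨k, hk, hk1, hk2⟩
        exact ⟨k, ⟨hk, hk1⟩, hk2⟩
      · rintro ⟨k, ⟨hk, hk1⟩, hk2⟩
        exact ⟨k, hk, hk1, hk2⟩
    have hX2 : {v | R b v} = (fun j => y • e j) '' (E : Set (ZMod p)) := by
      ext v
      rw [Set.mem_image]
      constructor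
      · rintro ⟨k, hk, hk1, rfl⟩
        obtain ⟨i, hi⟩ := hclsy k hk 0
        rw [he0] at hi
        refine ⟨i, ?_, hi.symm⟩
        rw [Finset.mem_coe, hmemE, ← hi]
        exact ⟨k, hk, hk1, rfl⟩
      · rintro ⟨i, hi, rfl⟩
        exact (hmemE i).1 hi
    have hX3 : {v | R b v}.ncard = p := by
      have hinj2 : Function.Injective (fun j => y • e j) := (MulAction.injective y).comp heinj
      rw [hX2, Set.ncard_image_of_injective _ hinj2, Set.ncard_coe_finset, hEc]
    apply h.cop' h.hab (N := K ⊓ stabilizer G b) (fun x hx => ⟨hx.1.1, hx.2⟩)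
    rw [hX, hX3]
    exact dvd_mul_right _ _
  have hEle : E.card ≤ p := by
    have := Finset.card_le_univ E
    rwa [ZMod.card] at this
  rcases hnt with h1 | h1
  · refine ⟨y, hy, hyK, fun k hk hkb => ?_⟩
    obtain ⟨i, hi⟩ := hclsy k hk 0
    rw [he0] at hi
    have hiE : i ∈ E := by
      rw [hmemE, ← hi]
      exact ⟨k, hk, hkb, rfl⟩
    have : i = 0 := Finset.card_le_one.1 h1 i hiE 0 h0E
    rw [hi, this, he0]
  · have hcompl : (Finset.univ \ E).card = 1 := by
      rw [Finset.card_sdiff_of_subset (Finset.subset_univ _), Finset.card_univ, ZMod.card]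
      have := hp.out.pos
      omega
    obtain ⟨j0, hj0⟩ := Finset.card_eq_one.1 hcompl
    have hj0E : j0 ∉ E := by
      have : j0 ∈ Finset.univ \ E := by rw [hj0]; exact Finset.mem_singleton_self _
      exact (Finset.mem_sdiff.1 this).2
    have huniq : ∀ j, j ∉ E → j = j0 := by
      intro j hj
      have : j ∈ Finset.univ \ E := Finset.mem_sdiff.2 ⟨Finset.mem_univ _, hj⟩
      rw [hj0] at this
      exact Finset.mem_singleton.1 this
    refine ⟨y * u ^ j0.val, P.mul_mem hy (huQ _).1, ?_, ?_⟩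
    · intro hh
      apply hyK
      have : y = y * u ^ j0.val * (u ^ j0.val)⁻¹ := by group
      rw [this]
      exact K.mul_mem hh (K.inv_mem (huQ _).2)
    · intro k hk hkb
      have hz : (y * u ^ j0.val) • b = y • e j0 := by rw [mul_smul]
      rw [hz]
      obtain ⟨i, hi⟩ := hclsy k hk j0
      rw [hi]
      congr 2
      apply huniq
      intro hiE
      apply hj0E
      rw [hmemE] at hiE ⊢
      rw [← hi] at hiE
      rw [← hRinv k hk, hkb]
      exact hiE

end Cfg

end

end Cfsg.Agent.Cyc
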