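import Cfsg.Agent.Cyc.PQM

/-!
# Doubly transitive groups of degree `p ^ 2 + 1`: the grid
-/

set_option autoImplicit false
set_option linter.unusedSectionVars false

namespace Cfsg.Agent.Cyc

open MulAction

theorem exists_third {Ω : Type*} {X : Set Ω} {p : ℕ} (hX : X.ncard = p) (hp : 3 ≤ p) (x y : Ω) :
    ∃ z ∈ X, z ≠ x ∧ z ≠ y := by
  by_contra hcon
  push Not at hcon
  have hsub : X ⊆ {x, y} := by
    intro z hz
    by_cases h : z = x
    · exact Or.inl h
    · exact Or.inr (hcon z hz h)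
  have h5 := Set.ncard_le_ncard hsub (Set.toFinite _)
  have h6 := (Set.ncard_insert_le x {y})
  rw [Set.ncard_singleton] at h6
  omega

section

variable {G Ω : Type*} [Group G] [MulAction G Ω] [Finite G] [Finite Ω] {p : ℕ}
  [hp : Fact p.Prime] {a b : Ω} {r : Ω → Ω → Prop} {P : Subgroup G}

namespace Cfg

variable (h : Cfg G p a b r P)
include h

theorem centralizes [FaithfulSMul G Ω] (hp3 : 3 ≤ p)
    (hnQ : ¬ ∀ k ∈ h.sys.ker, ∀ q ∈ P ⊓ h.sys.ker, k * q * k⁻¹ ∈ P ⊓ h.sys.ker)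
    {y : G} (hy : y ∈ P) (hfix : ∀ k ∈ h.sys.ker, k • b = b → k • y • b = y • b) :
    ∀ k ∈ h.sys.ker, k * y = y * k := by
  set K := h.sys.ker with hK
  have hconj : ∀ k ∈ K, y⁻¹ * k * y ∈ K := by
    intro k hk
    have h1 := h.ker_conj (h.fixa _ (P.inv_mem hy)) hk
    rwa [inv_inv] at h1
  have h1 : ∀ k ∈ K, ∀ v, r b v → k • v = v → k • y • v = y • v := by
    intro k hk v hv hkv
    obtain ⟨q, hq, rfl⟩ := (h.Q_cls h.hab).1 hv
    have h2 : (q⁻¹ * k * q) ∈ K := K.mul_mem (K.mul_mem (K.inv_mem hq.2) hk) hq.2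
    have h3 : (q⁻¹ * k * q) • b = b := by
      rw [mul_smul, mul_smul, hkv, inv_smul_smul]
    have h4 := hfix _ h2 h3
    rw [mul_smul, mul_smul, inv_smul_eq_iff] at h4
    rw [← mul_smul y q, h.comm y hy q hq.1, mul_smul]
    exact h4
  have h2 : ∀ k ∈ K, ∀ v, r b v → k • y • v = y • v → k • v = v := by
    intro k hk v hv hkv
    have hle1 : K ⊓ stabilizer G v ≤ K ⊓ stabilizer G (y • v) :=
      fun x hx => ⟨hx.1, h1 x hx.1 v hv hx.2⟩
    have hle2 : K ⊓ stabilizer G (y • v) ≤ cj y (K ⊓ stabilizer G v) := by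
      intro x hx
      rw [mem_cj]
      refine ⟨hconj x hx.1, ?_⟩
      have : x • y • v = y • v := hx.2
      change (y⁻¹ * x * y) • v = v
      rw [mul_smul, mul_smul, this, inv_smul_smul]
    have hcard : Nat.card ↥(K ⊓ stabilizer G (y • v)) ≤ Nat.card ↥(K ⊓ stabilizer G v) := by
      rw [← card_cj y (K ⊓ stabilizer G v)]
      exact Nat.card_le_card_of_injective _ (Subgroup.inclusion_injective hle2)
    have heq := Subgroup.eq_of_le_of_card_ge hle1 hcard
    have hmem : k ∈ K ⊓ stabilizer G (y • v) := ⟨hk, hkv⟩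
    rw [← heq] at hmem
    exact hmem.2
  have h3 : ∀ k ∈ K, ∀ v, r b v → k • y • v = y • k • v := by
    intro k hk v hv
    have hw' : r b (y⁻¹ • k • y • v) := by
      have h4 := (hconj k hk).2 v
      rw [mul_smul, mul_smul] at h4
      exact h.sys.trans hv h4
    have hw : r b (k • v) := h.sys.trans hv (hk.2 v)
    by_contra hne
    have hne' : k • v ≠ y⁻¹ • k • y • v := by
      intro hh
      apply hne
      rw [hh, smul_inv_smul]
    obtain ⟨w'', hw'', hw1, hw2⟩ := exists_third (h.sys.card b h.hab) hp3 (k • v)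
      (y⁻¹ • k • y • v)
    obtain ⟨κ, hκ, hκ1, hκ2⟩ := h.ker_two_trans hnQ h.hab (k • v) (y⁻¹ • k • y • v) (k • v) w''
      hw hw' hw hw'' hne' hw1.symm
    have h5 : (k⁻¹ * κ * k) • v = v := by
      rw [mul_smul, mul_smul, hκ1, inv_smul_smul]
    have h6 := h1 (k⁻¹ * κ * k) (K.mul_mem (K.mul_mem (K.inv_mem hk) hκ) hk) v hv h5
    rw [mul_smul, mul_smul, inv_smul_eq_iff] at h6
    have h7 : κ • y • (y⁻¹ • k • y • v) = y • (y⁻¹ • k • y • v) := by
      rw [smul_inv_smul]; exact h6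
    have h8 := h2 κ hκ _ hw' h7
    rw [hκ2] at h8
    exact hw2 h8
  intro k hk
  have h9 : y⁻¹ * k⁻¹ * y * k = 1 := by
    apply h.ker_faithful (K.mul_mem (hconj _ (K.inv_mem hk)) hk) h.hab
    intro v hv
    rw [mul_smul, mul_smul, mul_smul, ← h3 k hk v hv, inv_smul_smul, inv_smul_smul]
  calc k * y = k * y * (y⁻¹ * k⁻¹ * y * k) := by rw [h9, mul_one]
    _ = y * k := by group

theorem caseB [FaithfulSMul G Ω] (hp2 : p ≠ 2)
    (hnQ : ¬ ∀ k ∈ h.sys.ker, ∀ q ∈ P ⊓ h.sys.ker, k * q * k⁻¹ ∈ P ⊓ h.sys.ker) : False := by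
  have hp3 : 3 ≤ p := by
    have := hp.out.two_le
    omega
  set K := h.sys.ker with hK
  obtain ⟨y0, hy0, hy0K⟩ : ∃ y ∈ P, y ∉ K := by
    by_contra hcon
    push Not at hcon
    have h1 : P ⊓ K = P := inf_eq_left.2 hcon
    have h2 := h.card_Q
    rw [h1, h.card, pow_two] at h2
    have := hp.out.one_lt
    nlinarith
  obtain ⟨y, hy, hyK, hfix⟩ := h.exists_fix hnQ hy0 hy0K
  have hcen := h.centralizes hp3 hnQ hy hfix
  have hyp : y ^ p = 1 := h.exp_p hnQ y hy
  have hy1 : y ≠ 1 := by rintro rfl; exact hyK K.one_mem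
  have hyo : orderOf y = p := orderOf_eq_prime hyp hy1
  set Y : Subgroup G := Subgroup.zpowers y with hY
  have hYc : Nat.card Y = p := by rw [hY, Nat.card_zpowers, hyo]
  have hYP : Y ≤ P := by rw [hY, Subgroup.zpowers_le]; exact hy
  have hYK : ∀ w ∈ Y, ∀ k ∈ K, k * w = w * k := by
    intro w hw k hk
    obtain ⟨i, rfl⟩ := Subgroup.mem_zpowers_iff.1 hw
    have : Commute k y := hcen k hk
    exact this.zpow_right i
  have hYQ : ∀ w ∈ Y, w ∈ K → w = 1 := by
    intro w hw hwK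
    by_contra hne
    have h1 := mem_zpowers_of_prime_card (p := p) (G := Y) (g := ⟨w, hw⟩)
      (g' := ⟨y, Subgroup.mem_zpowers y⟩) hYc (fun hh => hne (congrArg Subtype.val hh))
    rw [Subgroup.mem_zpowers_iff] at h1
    obtain ⟨k, hk⟩ := h1
    have h2 : w ^ k = y := congrArg Subtype.val hk
    apply hyK
    rw [← h2]
    exact K.zpow_mem hwK k
  have huniq : ∀ w ∈ Y, ∀ w' ∈ Y, ∀ q ∈ P ⊓ K, ∀ q' ∈ P ⊓ K, w * q = w' * q' → w = w' ∧ q = q' := by
    intro w hw w' hw' q hq q' hq' heq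
    have h1 : w'⁻¹ * w = q' * q⁻¹ := by
      calc w'⁻¹ * w = w'⁻¹ * (w * q) * q⁻¹ := by group
        _ = w'⁻¹ * (w' * q') * q⁻¹ := by rw [heq]
        _ = q' * q⁻¹ := by group
    have h2 := hYQ _ (Y.mul_mem (Y.inv_mem hw') hw) (by
      rw [h1]; exact K.mul_mem hq'.2 (K.inv_mem hq.2))
    rw [inv_mul_eq_one] at h2
    refine ⟨h2.symm, ?_⟩
    rw [← h2] at heq
    exact mul_left_cancel heq
  have hdec : ∀ x ∈ P, ∃ w ∈ Y, ∃ q ∈ P ⊓ K, x = w * q := by
    have himg : (fun z : G × G => z.1 * z.2) '' ((Y : Set G) ×ˢ ((P ⊓ K : Subgroup G) : Set G)) =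
        (P : Set G) := by
      refine Set.eq_of_subset_of_ncard_le ?_ ?_ (Set.toFinite _)
      · rintro _ ⟨⟨w, q⟩, ⟨hw, hq⟩, rfl⟩
        exact P.mul_mem (hYP hw) hq.1
      · rw [Set.InjOn.ncard_image, Set.ncard_prod]
        · have e1 : ((P : Set G)).ncard = p ^ 2 := by
            rw [← Nat.card_coe_set_eq]; exact h.card
          have e2 : ((Y : Set G)).ncard = p := by
            rw [← Nat.card_coe_set_eq]; exact hYc
          have e3 : (((P ⊓ K : Subgroup G) : Set G)).ncard = p := by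
            rw [← Nat.card_coe_set_eq]; exact h.card_Q
          rw [e1, e2, e3, pow_two]
        · rintro ⟨w, q⟩ ⟨hw, hq⟩ ⟨w', q'⟩ ⟨hw', hq'⟩ heq
          obtain ⟨h1, h2⟩ := huniq w hw w' hw' q hq q' hq' heq
          rw [Prod.mk.injEq]
          exact ⟨h1, h2⟩
    intro x hx
    have hx' : x ∈ (P : Set G) := hx
    rw [← himg] at hx'
    obtain ⟨⟨w, q⟩, ⟨hw, hq⟩, rfl⟩ := hx'
    exact ⟨w, hw, q, hq, rfl⟩
  have huniqb : ∀ w ∈ Y, ∀ w' ∈ Y, ∀ q ∈ P ⊓ K, ∀ q' ∈ P ⊓ K, (w * q) • b = (w' * q') • b →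
      w = w' ∧ q = q' := by
    intro w hw w' hw' q hq q' hq' heq
    apply huniq w hw w' hw' q hq q' hq'
    have h2 : ((w' * q')⁻¹ * (w * q)) • b = b := by rw [mul_smul, heq, inv_smul_smul]
    have h3 := h.inj _ (P.mul_mem (P.inv_mem (P.mul_mem (hYP hw') hq'.1))
      (P.mul_mem (hYP hw) hq.1)) b h.hab h2
    rw [inv_mul_eq_one] at h3
    exact h3.symm
  -- fixed points of `B`
  let B : Subgroup G := K ⊓ stabilizer G b
  have hB1 : ∀ q ∈ P ⊓ K, (∀ k ∈ B, k • q • b = q • b) → q = 1 := by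
    intro q hq hfq
    by_contra hne
    have hqb : b ≠ q • b := fun hh => hne (h.inj q hq.1 b h.hab hh.symm)
    obtain ⟨z, hz, hz1, hz2⟩ := exists_third (h.sys.card b h.hab) hp3 b (q • b)
    obtain ⟨κ, hκ, hκ1, hκ2⟩ := h.ker_two_trans hnQ h.hab b (q • b) b z (h.sys.refl b)
      (hq.2.2 b) (h.sys.refl b) hz hqb hz1.symm
    have h3 := hfq κ ⟨hκ, hκ1⟩
    rw [hκ2] at h3
    exact hz2 h3
  have hFxB : Fx Ω B = insert a ((fun w : G => w • b) '' (Y : Set G)) := by
    ext c
    rw [Set.mem_insert_iff, Set.mem_image]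
    constructor
    · intro hc
      by_cases hca : c = a
      · exact Or.inl hca
      right
      obtain ⟨x, hx, rfl⟩ := h.reg b c h.hab hca
      obtain ⟨w, hw, q, hq, rfl⟩ := hdec x hx
      have hq1 : q = 1 := by
        apply hB1 q hq
        intro k hk
        have h4 := hc k hk
        rw [← mul_smul, ← mul_assoc, hYK w hw k hk.1, mul_assoc, mul_smul, mul_smul w q] at h4
        have h5 := MulAction.injective w h4
        rwa [mul_smul] at h5
      exact ⟨w, hw, by rw [hq1, mul_one]⟩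
    · rintro (rfl | ⟨w, hw, rfl⟩)
      · exact fun k hk => hk.1.1
      · intro k hk
        have hkb : k • b = b := hk.2
        change k • w • b = w • b
        rw [← mul_smul, hYK w hw k hk.1, mul_smul, hkb]
  have hna : a ∉ ((fun w : G => w • b) '' (Y : Set G)) := by
    rintro ⟨w, hw, hwb⟩
    exact smul_ne (h.fixa w (hYP hw)) h.hab hwb
  have hFBc : (Fx Ω B).ncard = p + 1 := by
    rw [hFxB, Set.ncard_insert_of_notMem hna, Set.InjOn.ncard_image]
    · rw [← Nat.card_coe_set_eq]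
      congr 1
    · intro w hw w' hw' hww
      have h4 : (w * 1) • b = (w' * 1) • b := by rw [mul_one, mul_one]; exact hww
      exact (huniqb w hw w' hw' 1 (Subgroup.one_mem _) 1 (Subgroup.one_mem _) h4).1
  have hBD : B ≤ stabilizer G a ⊓ stabilizer G b := fun x hx => ⟨hx.1.1, hx.2⟩
  obtain ⟨hp3', -⟩ := lambda_fix h.h2 hp.out h.hΩ B (insert a {v | r b v}) hFBc h.hab.symm hBD (by
    intro g hg hgc
    set N := cj g B with hN
    let A1 : Set G := {w | w ∈ Y ∧ ∀ n ∈ N, n • w • b = w • b}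
    let A2 : Set G := {q | q ∈ P ⊓ K ∧ ∀ n ∈ N, n • q • b = q • b}
    have hkey : ∀ w ∈ Y, ∀ q ∈ P ⊓ K, ∀ n ∈ N, n • (w * q) • b = (w * q) • b ↔
        (n • w • b = w • b ∧ n • q • b = q • b) := by
      intro w hw q hq n hn
      have hna : n • a = a := (hg hn).1
      have hnb : n • b = b := (hg hn).2
      obtain ⟨w1, hw1, hw1b⟩ : ∃ w1 ∈ Y, w1 • b = n • w • b := by
        have h4 : n • w • b ∈ Fx Ω B := by
          intro k hk
          have h5 : n⁻¹ * k * n ∈ K := by
            have := h.ker_conj (h.inv_fix hna) hk.1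
            rwa [inv_inv] at this
          have h6 : (n⁻¹ * k * n) • b = b := by
            have hkb : k • b = b := hk.2
            rw [mul_smul, mul_smul, hnb, hkb, inv_smul_eq_iff, hnb]
          have h7 : k • n • w • b = n • ((n⁻¹ * k * n) * w) • b := by
            rw [← mul_smul, ← mul_smul, ← mul_smul]
            congr 1
            group
          rw [h7, hYK w hw _ h5, mul_smul, h6]
        rw [hFxB] at h4
        rcases h4 with h4 | ⟨w1, hw1, h4⟩
        · exfalso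
          exact smul_ne hna (smul_ne (h.fixa w (hYP hw)) h.hab) h4
        · exact ⟨w1, hw1, h4⟩
      obtain ⟨q1, hq1, hq1b⟩ : ∃ q1 ∈ P ⊓ K, q1 • b = n • q • b := by
        have h4 : r b (n • q • b) := by
          have := h.sys.inv n hna (hq.2.2 b)
          rwa [hnb] at this
        exact (h.Q_cls h.hab).1 h4
      have h8 : n • (w * q) • b = (w1 * q1) • b := by
        have h5 : n * q * n⁻¹ ∈ K := h.ker_conj hna hq.2
        have h6 : (n * q * n⁻¹) * (n * w * n⁻¹) = (n * w * n⁻¹) * (n * q * n⁻¹) := by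
          have := hYK w hw q hq.2
          calc (n * q * n⁻¹) * (n * w * n⁻¹) = n * (q * w) * n⁻¹ := by group
            _ = n * (w * q) * n⁻¹ := by rw [this]
            _ = _ := by group
        have hnib : n⁻¹ • b = b := inv_smul_eq_iff.2 hnb.symm
        have h9 : (n * w * n⁻¹) • b = w1 • b := by
          rw [mul_smul, hnib, mul_smul, hw1b]
        have h10 : (n * q * n⁻¹) • b = q1 • b := by
          rw [mul_smul, hnib, mul_smul, hq1b]
        calc n • (w * q) • b = ((n * w * n⁻¹) * (n * q * n⁻¹)) • b := by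
              have : (n * w * n⁻¹) * (n * q * n⁻¹) = n * (w * q) * n⁻¹ := by group
              rw [this, mul_smul (n * (w * q)) n⁻¹, hnib, mul_smul n (w * q)]
          _ = ((n * q * n⁻¹) * (n * w * n⁻¹)) • b := by rw [h6]
          _ = (n * q * n⁻¹) • w1 • b := by rw [mul_smul, h9]
          _ = w1 • (n * q * n⁻¹) • b := by rw [← mul_smul, hYK w1 hw1 _ h5, mul_smul]
          _ = (w1 * q1) • b := by rw [h10, mul_smul]
      constructor
      · intro hh
        rw [h8] at hh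
        obtain ⟨e1, e2⟩ := huniqb w1 hw1 w hw q1 hq1 q hq hh
        rw [← hw1b, ← hq1b, e1, e2]
        exact ⟨rfl, rfl⟩
      · rintro ⟨e1, e2⟩
        rw [← hw1b] at e1
        rw [← hq1b] at e2
        have e3 := (huniqb w1 hw1 w hw 1 (Subgroup.one_mem _) 1 (Subgroup.one_mem _)
          (by rw [mul_one, mul_one]; exact e1)).1
        have e4 := (huniqb 1 Y.one_mem 1 Y.one_mem q1 hq1 q hq
          (by rw [one_mul, one_mul]; exact e2)).2
        rw [h8, e3, e4]
    have hFxN : Fx Ω N = insert a ((fun z : G × G => (z.1 * z.2) • b) '' (A1 ×ˢ A2)) := by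
      ext c
      rw [Set.mem_insert_iff, Set.mem_image]
      constructor
      · intro hc
        by_cases hca : c = a
        · exact Or.inl hca
        right
        obtain ⟨x, hx, rfl⟩ := h.reg b c h.hab hca
        obtain ⟨w, hw, q, hq, rfl⟩ := hdec x hx
        refine ⟨(w, q), ⟨⟨hw, fun n hn => ?_⟩, ⟨hq, fun n hn => ?_⟩⟩, rfl⟩
        · exact ((hkey w hw q hq n hn).1 (hc n hn)).1
        · exact ((hkey w hw q hq n hn).1 (hc n hn)).2
      · rintro (rfl | ⟨⟨w, q⟩, ⟨⟨hw, hw2⟩, ⟨hq, hq2⟩⟩, rfl⟩)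
        · exact fun n hn => (hg hn).1
        · exact fun n hn => (hkey w hw q hq n hn).2 ⟨hw2 n hn, hq2 n hn⟩
    have hna' : a ∉ ((fun z : G × G => (z.1 * z.2) • b) '' (A1 ×ˢ A2)) := by
      rintro ⟨⟨w, q⟩, ⟨⟨hw, -⟩, ⟨hq, -⟩⟩, hwb⟩
      exact smul_ne (h.fixa _ (P.mul_mem (hYP hw) hq.1)) h.hab hwb
    have hprod : A1.ncard * A2.ncard = p := by
      rw [hFxN, Set.ncard_insert_of_notMem hna', Set.InjOn.ncard_image, Set.ncard_prod] at hgc
      · omega
      · rintro ⟨w, q⟩ ⟨⟨hw, -⟩, ⟨hq, -⟩⟩ ⟨w', q'⟩ ⟨⟨hw', -⟩, ⟨hq', -⟩⟩ heq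
        obtain ⟨h1, h2⟩ := huniqb w hw w' hw' q hq q' hq' heq
        rw [Prod.mk.injEq]
        exact ⟨h1, h2⟩
    have hnb' : ∀ n ∈ N, n • b = b := fun n hn => (hg hn).2
    have h1A1 : (1 : G) ∈ A1 := ⟨Y.one_mem, fun n hn => by rw [one_smul]; exact hnb' n hn⟩
    have h1A2 : (1 : G) ∈ A2 := ⟨Subgroup.one_mem _, fun n hn => by rw [one_smul]; exact hnb' n hn⟩
    have hA1d : A1.ncard ∣ p := ⟨_, hprod.symm⟩
    rcases (Nat.dvd_prime hp.out).1 hA1d with h11 | h11
    · right
      rw [h11, one_mul] at hprod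
      have hA1 : A1 = {1} := by
        obtain ⟨x, hx⟩ := Set.ncard_eq_one.1 h11
        rw [hx] at h1A1 ⊢
        rw [Set.mem_singleton_iff] at h1A1
        rw [h1A1]
      have hA2 : A2 = ((P ⊓ K : Subgroup G) : Set G) := by
        refine Set.eq_of_subset_of_ncard_le (fun q hq => hq.1) ?_ (Set.toFinite _)
        rw [hprod, ← Nat.card_coe_set_eq]
        exact h.card_Q.le
      rw [hFxN, hA1, hA2]
      congr 1
      ext v
      rw [Set.mem_image]
      constructor
      · rintro ⟨⟨w, q⟩, ⟨hw, hq⟩, rfl⟩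
        rw [Set.mem_singleton_iff] at hw
        simp only at hw hq ⊢
        rw [hw, one_mul]
        exact hq.2.2 b
      · intro hv
        obtain ⟨q, hq, rfl⟩ := (h.Q_cls h.hab).1 hv
        exact ⟨(1, q), ⟨rfl, hq⟩, by simp only [one_mul]⟩
    · left
      have h12 : A2.ncard = 1 := by
        rw [h11] at hprod
        exact Nat.eq_of_mul_eq_mul_left hp.out.pos (by rw [hprod, mul_one])
      have hA2 : A2 = {1} := by
        obtain ⟨x, hx⟩ := Set.ncard_eq_one.1 h12
        rw [hx] at h1A2 ⊢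
        rw [Set.mem_singleton_iff] at h1A2
        rw [h1A2]
      have hA1 : A1 = (Y : Set G) := by
        refine Set.eq_of_subset_of_ncard_le (fun q hq => hq.1) ?_ (Set.toFinite _)
        rw [h11, ← Nat.card_coe_set_eq]
        exact hYc.le
      rw [hFxN, hA1, hA2, hFxB]
      congr 1
      ext v
      rw [Set.mem_image, Set.mem_image]
      constructor
      · rintro ⟨⟨w, q⟩, ⟨hw, hq⟩, rfl⟩
        rw [Set.mem_singleton_iff] at hq
        simp only at hw hq ⊢
        exact ⟨w, hw, by rw [hq, mul_one]⟩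
      · rintro ⟨w, hw, rfl⟩
        exact ⟨(w, 1), ⟨hw, rfl⟩, by simp only [mul_one]⟩)
  exact h.caseB_ne_three hnQ hp3'

end Cfg

theorem main_two [FaithfulSMul G Ω] (hp2 : p = 2) (hΩ : Nat.card Ω = p ^ 2 + 1)
    (h2 : IsMultiplyPretransitive G Ω 2) (a : Ω)
    (hnp : ¬ IsPreprimitive (stabilizer G a) (SubMulAction.ofStabilizer G a)) :
    Nat.card G = 20 := by
  subst hp2
  have : Nontrivial Ω := by
    rw [← Finite.one_lt_card_iff_nontrivial, hΩ]
    norm_num
  obtain ⟨b, hb⟩ := exists_ne a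
  obtain ⟨r, P, h⟩ := exists_cfg (p := 2) hΩ h2 hb hnp
  have hD : stabilizer G a ⊓ stabilizer G b = ⊥ := by
    rw [eq_bot_iff]
    rintro d ⟨hda, hdb⟩
    have hda' : d • a = a := hda
    have hdb' : d • b = b := hdb
    rw [Subgroup.mem_bot]
    have hclsb : ∀ x, r b x → d • x = x := by
      intro x hx
      by_contra hne
      have hxb : x ≠ b := by rintro rfl; exact hne hdb'
      have hdx : r b (d • x) := by
        have := h.sys.inv d hda' hx
        rwa [hdb'] at this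
      have hdxb : d • x ≠ b := fun hh => hxb (MulAction.injective d (hh.trans hdb'.symm))
      have hsub : ({b, x, d • x} : Set Ω) ⊆ {y | r b y} := by
        intro w hw
        rcases hw with rfl | rfl | rfl
        · exact h.sys.refl _
        · exact hx
        · exact hdx
      have h5 := Set.ncard_le_ncard hsub (Set.toFinite _)
      have h6 : ({b, x, d • x} : Set Ω).ncard = 3 := by
        rw [Set.ncard_eq_three]
        exact ⟨b, x, d • x, hxb.symm, hdxb.symm, fun hh => hne hh.symm, rfl⟩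
      rw [h6, h.sys.card b hb] at h5
      omega
    apply h.ker_faithful _ hb hclsb
    refine ⟨hda', fun x => ?_⟩
    by_cases hxa : x = a
    · rw [hxa, hda']; exact h.sys.refl _
    by_cases hxb : r b x
    · rw [hclsb x hxb]; exact h.sys.refl _
    have hdisj : Disjoint {y | r b y} {y | r x y} := by
      rw [Set.disjoint_left]
      intro y hy hy'
      exact hxb (h.sys.trans hy (h.sys.symm hy'))
    have hunion : {y | r b y} ∪ {y | r x y} = {y | y ≠ a} := by
      refine Set.eq_of_subset_of_ncard_le ?_ ?_ (Set.toFinite _)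
      · rintro y (hy | hy)
        · exact h.sys.ne hb hy
        · exact h.sys.ne hxa hy
      · rw [Set.ncard_union_eq hdisj, h.sys.card b hb, h.sys.card x hxa, h.card_off]
        norm_num
    have hdx : d • x ∈ {y | y ≠ a} := smul_ne hda' hxa
    rw [← hunion] at hdx
    rcases hdx with hdx | hdx
    · exfalso
      apply hxb
      have h7 : r b (d • x) := hdx
      have h8 := h.sys.inv d⁻¹ (h.inv_fix hda') h7
      rwa [inv_smul_smul, h.inv_fix hda' |> fun _ => inv_smul_eq_iff.2 hdb'.symm] at h8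
    · exact hdx
  have h1 := card_stab (L := G) h2 a
  have h3 := card_orb (stabilizer G a) b {y : Ω | y ≠ a} (by
    intro y
    constructor
    · intro hy
      obtain ⟨u, hu, hub⟩ := h.reg b y hb hy
      exact ⟨u, h.fixa u hu, hub⟩
    · rintro ⟨u, hu, rfl⟩
      exact smul_ne hu hb)
  rw [hD, h.card_off, Subgroup.card_bot] at h3
  rw [h1, hΩ, h3]
  norm_num

/-- A doubly transitive group of degree `p ^ 2 + 1`, `p` an odd prime, is doubly primitive. -/
theorem main_odd [FaithfulSMul G Ω] (hp2 : p ≠ 2) (hΩ : Nat.card Ω = p ^ 2 + 1)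
    (h2 : IsMultiplyPretransitive G Ω 2) (a : Ω) :
    IsPreprimitive (stabilizer G a) (SubMulAction.ofStabilizer G a) := by
  by_contra hnp
  have : Nontrivial Ω := by
    rw [← Finite.one_lt_card_iff_nontrivial, hΩ]
    have := hp.out.pos
    have : 0 < p ^ 2 := by positivity
    omega
  obtain ⟨b, hb⟩ := exists_ne a
  obtain ⟨r, P, h⟩ := exists_cfg (p := p) hΩ h2 hb hnp
  by_cases hK : ∀ k ∈ h.sys.ker, ∀ q ∈ P ⊓ h.sys.ker, k * q * k⁻¹ ∈ P ⊓ h.sys.ker
  · exact h.caseA hp2 (h.hQ_of_ker hK)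
  · exact h.caseB hp2 hK

end

end Cfsg.Agent.Cyc
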