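import Cfsg.Agent.Cyc.Divis
import Cfsg.Agent.Cyc.NilAb
import Cfsg.Agent.CycG.Main

/-!
# Perfect isometries for cyclic defect groups
-/

set_option autoImplicit false
set_option linter.unusedSectionVars false
set_option linter.style.haveILetI false

universe u v w

namespace Cfsg.Agent.Cyc

open scoped ComplexConjugate
open Cfsg Cfsg.Agent.Blk Cfsg.Agent.CharBase Cfsg.Agent.BlkC

section nildat
variable {H : Type u} [Group H] [Fintype H] {M : Ideal AlgInt} [hMp : M.IsPrime] {p : ℕ}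
  [hp : Fact p.Prime] {b : Set (IrrCharacter H)} {A : Type v} [Group A] [Fintype A]
  [Fintype (A →* ℂˣ)]

namespace NilDat
variable (d : NilDat p M b A)

/-- the part of the characters belonging to the section of `y⁻¹` -/
noncomputable def G (y : A) : H → ℂ := fun g =>
  ∑ l : A →* ℂˣ, ((l y : ℂˣ) : ℂ) * (d.ch l : H → ℂ) g

theorem G_class (y : A) : IsClassFunction H (d.G y) := by
  intro g x
  unfold G
  refine Finset.sum_congr rfl fun l _ => ?_
  rw [irr_isClassFunction (d.ch l) _ _]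

theorem G_one_eq (g : H) : d.G 1 g = ∑ ψ ∈ Finset.univ.image d.ch, 1 * (ψ : H → ℂ) g := by
  classical
  rw [Finset.sum_image fun l _ l' _ h => d.inj h]
  simp [G]

theorem dv_G_one (hM : IsPModular p M) : Dv M (d.G 1) := by
  classical
  have h1 : d.G 1 = fun g => ∑ ψ ∈ Finset.univ.image d.ch, 1 * (ψ : H → ℂ) g :=
    funext d.G_one_eq
  rw [h1]
  refine dv_of_sing hM _ (fun _ => 1) (fun _ _ => mlr_one) fun g hg => ?_
  rw [← d.G_one_eq]
  have := d.sing g hg
  simp only [G, map_one, Units.val_one, one_mul]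
  exact this

theorem dv_G (hM : IsPModular p M) (y : A) : Dv M (d.G y) := by
  classical
  have hH : (Nat.card H : ℂ) ≠ 0 := by exact_mod_cast (Nat.card_pos (α := H)).ne'
  have hc : ((d.ch 1 : H → ℂ) 1) ≠ 0 := irr_one_ne_zero (d.ch 1).2
  -- `G y ∘ inv = conv (F y) (G 1 ∘ inv)`
  have h1 : ∀ y : A, d.F y = ((d.ch 1 : H → ℂ) 1 * (Nat.card H : ℂ)⁻¹) •
      (fun g => d.G y g⁻¹) := by
    intro y; funext g; rfl
  have h2 : (fun g => d.G y g⁻¹) = conv (d.F y) (fun g => d.G 1 g⁻¹) := by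
    have h3 := d.conv_F y 1
    rw [mul_one, h1 1] at h3
    nth_rewrite 2 [h1 y] at h3
    have h4 : conv (d.F y) (((d.ch 1 : H → ℂ) 1 * (Nat.card H : ℂ)⁻¹) •
        (fun g => d.G 1 g⁻¹)) = ((d.ch 1 : H → ℂ) 1 * (Nat.card H : ℂ)⁻¹) •
        conv (d.F y) (fun g => d.G 1 g⁻¹) := by
      funext x
      simp only [conv, Pi.smul_apply, smul_eq_mul, Finset.mul_sum]
      refine Finset.sum_congr rfl fun z _ => ?_
      ring
    rw [h4] at h3
    exact (smul_right_injective _ (mul_ne_zero hc (inv_ne_zero hH)) h3).symm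
  have hcl : IsClassFunction H (fun g => d.G 1 g⁻¹) := by
    intro g x
    simp only
    rw [show (x * g * x⁻¹)⁻¹ = x * g⁻¹ * x⁻¹ by group]
    exact d.G_class 1 _ _
  have h5 : Dv M (fun g => d.G y g⁻¹) := by
    rw [h2]
    exact dv_conv (d.F_class y) (d.F_rv y) hcl (dv_inv (d.dv_G_one hM))
  have h6 := dv_inv h5
  simpa using h6

end NilDat

end nildat

section fourier
variable {F : Type v} [Group F] [Fintype F] {A : Type w} [Group A] [Fintype A]
  [Fintype (A →* ℂˣ)]

/-- Fourier coefficient on the subgroup `Q` -/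
noncomputable def cf (Q : Subgroup F) [Fintype Q] (φ : Q ≃* A) (η : F → ℂ) (l : A →* ℂˣ) : ℂ :=
  (Nat.card Q : ℂ)⁻¹ * ∑ x : Q, η x * conj ((l (φ x) : ℂˣ) : ℂ)

theorem conj_hom (l : A →* ℂˣ) (x : A) :
    conj ((l x : ℂˣ) : ℂ) = ((l x⁻¹ : ℂˣ) : ℂ) := by
  have h1 := norm_hom l x
  have h2 : ((l x⁻¹ : ℂˣ) : ℂ) * ((l x : ℂˣ) : ℂ) = 1 := by
    rw [← Units.val_mul, ← map_mul, inv_mul_cancel, map_one, Units.val_one]
  have h3 : ((l x : ℂˣ) : ℂ) ≠ 0 := Units.ne_zero _
  exact mul_right_cancel₀ h3 (h1.trans h2.symm)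

theorem inversion (hA : ∀ x y : A, x * y = y * x) (Q : Subgroup F) [Fintype Q] (φ : Q ≃* A)
    (η : F → ℂ) (y : Q) : η y = ∑ l : A →* ℂˣ, cf Q φ η l * ((l (φ y) : ℂˣ) : ℂ) := by
  classical
  have hQ : (Nat.card Q : ℂ) ≠ 0 := Char.card_ne_zero_complex Q
  have hcard : Nat.card A = Nat.card Q := Nat.card_congr φ.symm.toEquiv
  have h1 : ∑ l : A →* ℂˣ, cf Q φ η l * ((l (φ y) : ℂˣ) : ℂ) =
      (Nat.card Q : ℂ)⁻¹ * ∑ x : Q, η x * ∑ l : A →* ℂˣ, ((l ((φ x)⁻¹ * φ y) : ℂˣ) : ℂ) := by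
    simp only [cf, Finset.mul_sum, Finset.sum_mul]
    rw [Finset.sum_comm]
    refine Finset.sum_congr rfl fun x _ => Finset.sum_congr rfl fun l _ => ?_
    rw [conj_hom, map_mul, Units.val_mul]
    ring
  rw [h1]
  have h2 : ∀ x : Q, ∑ l : A →* ℂˣ, ((l ((φ x)⁻¹ * φ y) : ℂˣ) : ℂ) =
      if x = y then (Nat.card Q : ℂ) else 0 := by
    intro x
    rw [sum_dual hA, hcard]
    by_cases h : x = y
    · subst h
      rw [if_pos (inv_mul_cancel _), if_pos rfl]
    · rw [if_neg h, if_neg]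
      intro h3
      exact h (φ.injective (inv_mul_eq_one.1 h3))
  simp only [h2, mul_ite, mul_zero, Finset.sum_ite_eq', Finset.mem_univ, if_true]
  field_simp

end fourier

section perf
variable {G : Type u} [Group G] [Fintype G] {p : ℕ} [hp : Fact p.Prime] {M : Ideal AlgInt}
  [hMp : M.IsPrime] {D1 D C T : Subgroup G} [Fintype C] {f : Set (IrrCharacter C)}
  {B : Set (IrrCharacter G)} {χ1 : IrrCharacter C} {A : Type w} [Group A] [Fintype A]
  [Fintype (A →* ℂˣ)] {F : Type v} [Group F] [Fintype F]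

/-- **The perfectness criterion.** -/
theorem perfect_kernel (hM : IsPModular p M) (cd : CycG.CycDat p M D1 D C T f B χ1)
    (hsing : ∀ c : IrrCharacter G → ℂ,
      (∀ χ ∈ f, χ ≠ χ1 → ∑ ψ ∈ Bfin B, c ψ * (CycG.CycDat.xv C χ1 ψ χ : ℂ) = 0) →
      ∀ h : G, p ∣ orderOf h → ∑ ψ ∈ Bfin B, c ψ * (ψ : G → ℂ) h = 0)
    (nd : NilDat p M f A) (h1 : nd.ch 1 = χ1) (hA : ∀ x y : A, x * y = y * x)
    (hrv : ∀ (y : A) (g : C), MemLocalRing M ((Nat.card A : ℂ)⁻¹ * nd.G y g))
    (Q : Subgroup F) [Fintype Q] (φ : Q ≃* A) (hQs : ∀ y : F, p ∣ orderOf y → y ∈ Q)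
    (hQr : ∀ y ∈ Q, ¬ p ∣ orderOf y → y = 1)
    (hQc : ∀ y ∈ Q, y ≠ 1 → Nat.card (Subgroup.centralizer ({y} : Set F)) = Nat.card Q)
    (I : IrrCharacter F → IrrCharacter G) (ε : IrrCharacter F → ℤ)
    (hI : Set.BijOn I Set.univ B) (hε : ∀ η, ε η = 1 ∨ ε η = -1)
    (hE : ∀ η : IrrCharacter F, ∀ l : A →* ℂˣ, l ≠ 1 →
      (CycG.CycDat.xv C χ1 (I η) (nd.ch l) : ℂ) =
        (ε η : ℂ) * (cf Q φ (η : F → ℂ) 1 - cf Q φ (η : F → ℂ) l)) :
    IsPerfectFun p M (signedBijectionKernel (Set.univ : Set (IrrCharacter F)) I ε) := by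
  classical
  haveI : Fintype (IrrCharacter F) := Fintype.ofFinite _
  haveI : Fintype (IrrCharacter G) := Fintype.ofFinite _
  have hcardA : Nat.card A = Nat.card Q := Nat.card_congr φ.symm.toEquiv
  have hK : ∀ (x : G) (y : F), signedBijectionKernel (Set.univ : Set (IrrCharacter F)) I ε x y =
      ∑ η : IrrCharacter F, (ε η : ℂ) * (I η : G → ℂ) x * (η : F → ℂ) y := by
    intro x y
    rw [signedBijectionKernel, finsum_mem_univ, finsum_eq_sum_of_fintype]
  have hBfin : Bfin B = Finset.univ.image I := by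
    ext ψ
    rw [mem_Bfin, Finset.mem_image]
    constructor
    · intro h
      obtain ⟨η, -, hη⟩ := hI.2.2 h
      exact ⟨η, Finset.mem_univ _, hη⟩
    · rintro ⟨η, -, rfl⟩
      exact hI.1 (Set.mem_univ η)
  have hIinj : Function.Injective I := fun η η' h =>
    hI.2.1 (Set.mem_univ η) (Set.mem_univ η') h
  have hsumB : ∀ Φ : IrrCharacter G → ℂ, ∑ ψ ∈ Bfin B, Φ ψ = ∑ η : IrrCharacter F, Φ (I η) := by
    intro Φ
    rw [hBfin, Finset.sum_image fun η _ η' _ h => hIinj h]
  have hE' : ∀ η : IrrCharacter F, ∀ l : A →* ℂˣ,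
      (CycG.CycDat.xv C χ1 (I η) (nd.ch l) : ℂ) =
        (ε η : ℂ) * (cf Q φ (η : F → ℂ) 1 - cf Q φ (η : F → ℂ) l) := by
    intro η l
    by_cases hl : l = 1
    · subst hl
      rw [h1, CycG.CycDat.xv]
      simp
    · exact hE η l hl
  haveI : Nonempty (IrrCharacter F) := ⟨oneIrr F⟩
  let J : IrrCharacter G → IrrCharacter F := Function.invFun I
  have hJ : ∀ η, J (I η) = η := Function.leftInverse_invFun hIinj
  -- every member of `f`
  have hf : ∀ χ ∈ f, ∃ l, nd.ch l = χ := fun χ hχ => (nd.mem χ).1 hχ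
  have hmem : ∀ l, nd.ch l ∈ f := fun l => (nd.mem _).2 ⟨l, rfl⟩
  have hreg : ∀ (l : A →* ℂˣ) (g : C), ¬ p ∣ orderOf g →
      (nd.ch l : C → ℂ) g = (χ1 : C → ℂ) g := fun l g hg =>
    cd.reg _ (hmem l) _ cd.one_mem g hg
  have hsum0 : ∀ y : A, y ≠ 1 → ∑ l : A →* ℂˣ, ((l y : ℂˣ) : ℂ) = 0 := by
    intro y hy
    rw [sum_dual hA, if_neg hy]
  -- the singular values
  have hsingy : ∀ (x : G) (y : Q), (y : F) ≠ 1 →
      signedBijectionKernel (Set.univ : Set (IrrCharacter F)) I ε x y =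
        indFun C (nd.G (φ y)) x := by
    intro x y hy
    have hy' : φ y ≠ 1 := fun h => hy (by
      have := φ.injective (h.trans (map_one φ).symm)
      rw [this]; rfl)
    have e1 : ∀ η : IrrCharacter F, (η : F → ℂ) y =
        - ∑ l : A →* ℂˣ, (cf Q φ (η : F → ℂ) 1 - cf Q φ (η : F → ℂ) l) *
          ((l (φ y) : ℂˣ) : ℂ) := by
      intro η
      rw [inversion hA Q φ (η : F → ℂ) y]
      simp only [sub_mul, Finset.sum_sub_distrib, ← Finset.mul_sum, hsum0 _ hy', mul_zero,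
        zero_sub, neg_neg]
    rw [hK]
    have e2 : ∑ η : IrrCharacter F, (ε η : ℂ) * (I η : G → ℂ) x * (η : F → ℂ) y =
        - ∑ l : A →* ℂˣ, ((l (φ y) : ℂˣ) : ℂ) * ∑ η : IrrCharacter F,
          (CycG.CycDat.xv C χ1 (I η) (nd.ch l) : ℂ) * (I η : G → ℂ) x := by
      simp only [e1, Finset.mul_sum, mul_neg, Finset.sum_neg_distrib]
      rw [Finset.sum_comm]
      congr 1
      refine Finset.sum_congr rfl fun l _ => Finset.sum_congr rfl fun η _ => ?_
      rw [hE']
      ring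
    rw [e2]
    have e3 : ∀ l : A →* ℂˣ, ∑ η : IrrCharacter F,
        (CycG.CycDat.xv C χ1 (I η) (nd.ch l) : ℂ) * (I η : G → ℂ) x =
        indFun C ((χ1 : C → ℂ) - (nd.ch l : C → ℂ)) x := by
      intro l
      rw [← cd.sum_xv_mul hM (hmem l) x, hsumB]
    have e4 : nd.G (φ y) = - ∑ l : A →* ℂˣ, (((l (φ y) : ℂˣ) : ℂ)) •
        ((χ1 : C → ℂ) - (nd.ch l : C → ℂ)) := by
      funext g
      simp only [NilDat.G, Pi.neg_apply, Finset.sum_apply, Pi.smul_apply, Pi.sub_apply,
        smul_eq_mul, mul_sub, Finset.sum_sub_distrib, ← Finset.sum_mul, hsum0 _ hy', zero_mul,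
        zero_sub, neg_neg]
    rw [e4, Char.indFun_neg, Char.indFun_sum, Pi.neg_apply, Finset.sum_apply]
    congr 1
    refine Finset.sum_congr rfl fun l _ => ?_
    rw [e3, Char.indFun_smul, Pi.smul_apply, smul_eq_mul]
  -- `x` regular, `y` singular
  have hzero1 : ∀ (x : G) (y : Q), (y : F) ≠ 1 → ¬ p ∣ orderOf x →
      signedBijectionKernel (Set.univ : Set (IrrCharacter F)) I ε x y = 0 := by
    intro x y hy hx
    have hy' : φ y ≠ 1 := fun h => hy (by
      have := φ.injective (h.trans (map_one φ).symm)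
      rw [this]; rfl)
    rw [hsingy x y hy, Char.indFun_apply', Finset.sum_eq_zero, mul_zero]
    intro z _
    by_cases hz : z * x * z⁻¹ ∈ C
    · rw [Char.extendByZero_of_mem C _ hz, NilDat.G]
      have hord : ¬ p ∣ orderOf (⟨z * x * z⁻¹, hz⟩ : C) := by
        rw [Subgroup.orderOf_mk]
        have : orderOf (z * x * z⁻¹) = orderOf x := by
          have := orderOf_injective (MulAut.conj z).toMonoidHom (MulAut.conj z).injective x
          simpa using this
        rwa [this]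
      simp only [hreg _ _ hord]
      rw [← Finset.sum_mul, hsum0 _ hy', zero_mul]
    · rw [Char.extendByZero_of_notMem C _ hz]
  -- `x` singular, `y` regular
  have hregy : ∀ (y : F), ¬ p ∣ orderOf y → ∀ l : A →* ℂˣ,
      ∑ η : IrrCharacter F, (η : F → ℂ) y *
        (cf Q φ (η : F → ℂ) 1 - cf Q φ (η : F → ℂ) l) = 0 := by
    intro y hy l
    -- column orthogonality
    have k1 : ∀ l : A →* ℂˣ, ∑ η : IrrCharacter F, (η : F → ℂ) y * cf Q φ (η : F → ℂ) l =
        (Nat.card Q : ℂ)⁻¹ * ∑ z : Q, conj ((l (φ z) : ℂˣ) : ℂ) *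
          ∑ η : IrrCharacter F, (η : F → ℂ) y * (η : F → ℂ) (z : F) := by
      intro l
      simp only [cf, Finset.mul_sum]
      rw [Finset.sum_comm]
      refine Finset.sum_congr rfl fun z _ => Finset.sum_congr rfl fun η _ => ?_
      ring
    have k2 : ∀ z : Q, (z : F) ≠ 1 →
        ∑ η : IrrCharacter F, (η : F → ℂ) y * (η : F → ℂ) (z : F) = 0 := by
      intro z hz
      have hnc : ¬ IsConj y (z : F)⁻¹ := by
        intro hc
        obtain ⟨u, hu⟩ := isConj_iff.1 hc
        have h3 : orderOf (z : F)⁻¹ = orderOf y := by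
          rw [← hu]
          have := orderOf_injective (MulAut.conj u).toMonoidHom (MulAut.conj u).injective y
          simpa using this
        rw [orderOf_inv] at h3
        exact hz (hQr z z.2 (by rw [h3]; exact hy))
      have h4 := column_orthogonality_of_not_isConj hnc
      rw [← h4]
      refine Finset.sum_congr rfl fun η _ => ?_
      rw [irr_inv]
      simp
    have k3 : ∀ l : A →* ℂˣ, ∑ η : IrrCharacter F, (η : F → ℂ) y * cf Q φ (η : F → ℂ) l =
        (Nat.card Q : ℂ)⁻¹ * ∑ η : IrrCharacter F, (η : F → ℂ) y * (η : F → ℂ) (1 : F) := by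
      intro l
      rw [k1, Finset.sum_eq_single (1 : Q)]
      · simp
      · intro z _ hz
        rw [k2 z (fun h => hz (Subtype.ext h)), mul_zero]
      · intro h; exact absurd (Finset.mem_univ _) h
    simp only [mul_sub, Finset.sum_sub_distrib]
    rw [k3, k3, sub_self]
  have hzero2 : ∀ (x : G) (y : F), p ∣ orderOf x → ¬ p ∣ orderOf y →
      signedBijectionKernel (Set.univ : Set (IrrCharacter F)) I ε x y = 0 := by
    intro x y hx hy
    have h2 := hsing (fun ψ => (ε (J ψ) : ℂ) * (J ψ : F → ℂ) y) (fun χ hχ _ => by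
      obtain ⟨l, rfl⟩ := hf χ hχ
      rw [hsumB]
      simp only [hJ]
      have h5 : ∀ η ∈ (Finset.univ : Finset (IrrCharacter F)), (ε η : ℂ) * (η : F → ℂ) y *
          (CycG.CycDat.xv C χ1 (I η) (nd.ch l) : ℂ) =
          (η : F → ℂ) y * (cf Q φ (η : F → ℂ) 1 - cf Q φ (η : F → ℂ) l) := by
        intro η _
        have h6 : (ε η : ℂ) * (ε η : ℂ) = 1 := by
          rcases hε η with h | h <;> rw [h] <;> norm_num
        rw [hE']
        linear_combination ((η : F → ℂ) y *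
          (cf Q φ (η : F → ℂ) 1 - cf Q φ (η : F → ℂ) l)) * h6
      rw [Finset.sum_congr rfl h5]
      exact hregy y hy l) x hx
    rw [hK]
    rw [hsumB] at h2
    simp only [hJ] at h2
    rw [← h2]
    exact Finset.sum_congr rfl fun η _ => by ring
  intro x y
  have hε' : ∀ η, MemLocalRing M (ε η : ℂ) := fun η => mlr_intCast _
  by_cases hy : p ∣ orderOf y
  · have hyQ := hQs y hy
    have hy1 : y ≠ 1 := by
      rintro rfl
      rw [orderOf_one] at hy
      exact hp.out.one_lt.ne' (Nat.dvd_one.1 hy)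
    have e1 := hsingy x ⟨y, hyQ⟩ hy1
    simp only at e1
    refine ⟨?_, ?_, ?_⟩
    · rw [e1]
      exact dv_indFun C (nd.G_class _) (nd.dv_G hM _) x
    · rw [e1, hQc y hyQ hy1, ← hcardA]
      have e2 : indFun C (nd.G (φ ⟨y, hyQ⟩)) x / (Nat.card A : ℂ) =
          indFun C ((Nat.card A : ℂ)⁻¹ • nd.G (φ ⟨y, hyQ⟩)) x := by
        rw [Char.indFun_smul, Pi.smul_apply, smul_eq_mul, div_eq_inv_mul]
      rw [e2]
      refine rv_indFun C (isClassFunction_smul _ (nd.G_class _)) (fun g => ?_) x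
      exact hrv _ g
    · by_cases hx : p ∣ orderOf x
      · left
        unfold IsPRegular
        simp [hx, hy]
      · right
        exact hzero1 x ⟨y, hyQ⟩ hy1 hx
  · refine ⟨?_, ?_, ?_⟩
    · have h3 : (fun g => ∑ ψ ∈ Bfin B, ((ε (J ψ) : ℂ) * (J ψ : F → ℂ) y) * (ψ : G → ℂ) g) =
          fun g => signedBijectionKernel (Set.univ : Set (IrrCharacter F)) I ε g y := by
        funext g
        rw [hK, hsumB]
        simp only [hJ]
        exact Finset.sum_congr rfl fun η _ => by ring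
      have h4 := dv_of_sing hM (Bfin B) (fun ψ => (ε (J ψ) : ℂ) * (J ψ : F → ℂ) y)
        (fun ψ _ => mlr_mul (hε' _) (mlr_irr _ _)) (fun g hg => (congrFun h3 g).trans (hzero2 g y hg hy))
      rw [h3] at h4
      exact h4 x
    · by_cases hx : p ∣ orderOf x
      · rw [hzero2 x y hx hy, zero_div]; exact mlr_zero
      · have h3 : (fun z => ∑ η ∈ (Finset.univ : Finset (IrrCharacter F)),
            ((ε η : ℂ) * (I η : G → ℂ) x) * (η : F → ℂ) z) =
            fun z => signedBijectionKernel (Set.univ : Set (IrrCharacter F)) I ε x z := by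
          funext z
          rw [hK]
        have h4 := dv_of_sing hM (Finset.univ : Finset (IrrCharacter F))
          (fun η => (ε η : ℂ) * (I η : G → ℂ) x)
          (fun η _ => mlr_mul (hε' _) (mlr_irr _ _)) (fun z hz => by
            have hz1 : z ≠ 1 := by
              rintro rfl
              rw [orderOf_one] at hz
              exact hp.out.one_lt.ne' (Nat.dvd_one.1 hz)
            exact (congrFun h3 z).trans (hzero1 x ⟨z, hQs z hz⟩ hz1 hx))
        rw [h3] at h4
        exact h4 y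
    · by_cases hx : p ∣ orderOf x
      · right
        exact hzero2 x y hx hy
      · left
        unfold IsPRegular
        simp [hx, hy]

end perf

end Cfsg.Agent.Cyc
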